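/-
Two matrices annihilated by the same irreducible polynomial are conjugate.
-/
import Mathlib

set_option autoImplicit false

open Polynomial Module
open scoped MatrixGroups

namespace Cfsg.Agent.Lib.NCov.A1_conj_of_aeval_eq_zero

/-- A structure of a vector space over the extension field `K` on `V` gives `K`-coordinates. -/
theorem exists_coord {F K V : Type*} [Field F] [Field K] [Algebra F K] [AddCommGroup V] [Module F V]
    [FiniteDimensional F V] (φ : K →ₐ[F] Module.End F V) :
    ∃ (r : ℕ) (e : (Fin r → K) ≃ₗ[F] V), ∀ (k : K) (x : Fin r → K), e (k • x) = φ k (e x) := by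
  classical
  letI : Module K V := Module.compHom V φ.toRingHom
  have hsm : ∀ (k : K) (v : V), k • v = φ k v := fun _ _ => rfl
  haveI : IsScalarTower F K V := ⟨fun c k v => by
    simp only [hsm, smul_eq_mul, Algebra.smul_def, map_mul]
    change φ (algebraMap F K c) (φ k v) = _
    rw [AlgHom.commutes]
    simp [Module.algebraMap_end_apply]⟩
  haveI : FiniteDimensional K V := Module.Finite.of_restrictScalars_finite F K V
  let b := Module.finBasis K V
  let e0 : (Fin (finrank K V) → K) ≃ₗ[K] V := b.equivFun.symm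
  refine ⟨_, e0.restrictScalars F, fun k x => ?_⟩
  change e0 (k • x) = φ k (e0 x)
  rw [map_smul, hsm]

/-- Two `K`-structures on a finite-dimensional `F`-space are conjugate. -/
theorem exists_intertwiner {F K V : Type*} [Field F] [Field K] [Algebra F K] [FiniteDimensional F K]
    [AddCommGroup V] [Module F V] [FiniteDimensional F V] (φ ψ : K →ₐ[F] Module.End F V) :
    ∃ y : V ≃ₗ[F] V, ∀ (k : K) (v : V), y (φ k v) = ψ k (y v) := by
  obtain ⟨r, e, he⟩ := exists_coord φ
  obtain ⟨r', e', he'⟩ := exists_coord ψ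
  have hrr : r = r' := by
    have h1 : finrank F (Fin r → K) = finrank F (Fin r' → K) := by
      rw [e.finrank_eq, e'.finrank_eq]
    rw [Module.finrank_pi_fintype, Module.finrank_pi_fintype] at h1
    simp only [Finset.sum_const, Finset.card_univ, Fintype.card_fin, smul_eq_mul] at h1
    exact Nat.eq_of_mul_eq_mul_right Module.finrank_pos h1
  subst hrr
  refine ⟨e.symm.trans e', fun k v => ?_⟩
  obtain ⟨x, rfl⟩ := e.surjective v
  simp only [LinearEquiv.trans_apply, LinearEquiv.symm_apply_apply]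
  rw [← he k x, LinearEquiv.symm_apply_apply, he']

set_option linter.dupNamespace false in
theorem A1_conj_of_aeval_eq_zero {F : Type*} [Field F] [Fintype F] {n : ℕ} {m₀ : F[X]} (hm : Irreducible m₀)
    (J J' : Matrix (Fin n) (Fin n) F) (h : aeval J m₀ = 0) (h' : aeval J' m₀ = 0) :
    ∃ y : GL (Fin n) F, (y : Matrix (Fin n) (Fin n) F) * J = J' * (y : Matrix (Fin n) (Fin n) F) := by
  classical
  haveI : Fact (Irreducible m₀) := ⟨hm⟩
  have hne : m₀ ≠ 0 := hm.ne_zero
  haveI : FiniteDimensional F (AdjoinRoot m₀) :=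
    (AdjoinRoot.powerBasis hne).finite
  let L := Matrix.toLinAlgEquiv' (R := F) (n := Fin n)
  have hL : ∀ A : Matrix (Fin n) (Fin n) F, aeval A m₀ = 0 → aeval (L A) m₀ = 0 := by
    intro A hA
    have := Polynomial.aeval_algHom_apply (L : Matrix (Fin n) (Fin n) F →ₐ[F] Module.End F (Fin n → F)) A m₀
    rw [hA, map_zero] at this
    exact this
  let lift1 : ∀ A : Matrix (Fin n) (Fin n) F, aeval A m₀ = 0 → (AdjoinRoot m₀ →ₐ[F] Module.End F (Fin n → F)) :=
    fun A hA => Ideal.Quotient.liftₐ (Ideal.span {m₀}) (aeval (L A)) (by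
      intro a ha
      obtain ⟨c, rfl⟩ := Ideal.mem_span_singleton'.1 ha
      rw [map_mul, hL A hA, mul_zero])
  have hlift1 : ∀ (A : Matrix (Fin n) (Fin n) F) (hA : aeval A m₀ = 0), lift1 A hA (AdjoinRoot.root m₀) = L A := by
    intro A hA
    change aeval (L A) (X : F[X]) = L A
    simp
  let φ := lift1 J h
  let ψ := lift1 J' h'
  obtain ⟨y, hy⟩ := exists_intertwiner φ ψ
  have hφ : φ (AdjoinRoot.root m₀) = L J := hlift1 J h
  have hψ : ψ (AdjoinRoot.root m₀) = L J' := hlift1 J' h'
  let Y : Matrix (Fin n) (Fin n) F := LinearMap.toMatrix' (y : (Fin n → F) →ₗ[F] (Fin n → F))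
  let Y' : Matrix (Fin n) (Fin n) F := LinearMap.toMatrix' (y.symm : (Fin n → F) →ₗ[F] (Fin n → F))
  have hYY' : Y * Y' = 1 := by
    simp only [Y, Y']
    rw [← LinearMap.toMatrix'_comp]
    simp
  have hY'Y : Y' * Y = 1 := by
    simp only [Y, Y']
    rw [← LinearMap.toMatrix'_comp]
    simp
  refine ⟨⟨Y, Y', hYY', hY'Y⟩, ?_⟩
  change Y * J = J' * Y
  have hkey : (y : (Fin n → F) →ₗ[F] (Fin n → F)) ∘ₗ Matrix.toLin' J = Matrix.toLin' J' ∘ₗ (y : (Fin n → F) →ₗ[F] (Fin n → F)) := by
    ext1 v
    ext i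
    have := hy (AdjoinRoot.root m₀)
    simp only [hφ, hψ] at this
    exact congrFun (this _) i
  have := congrArg LinearMap.toMatrix' hkey
  rw [LinearMap.toMatrix'_comp, LinearMap.toMatrix'_comp, LinearMap.toMatrix'_toLin', LinearMap.toMatrix'_toLin'] at this
  exact this

end Cfsg.Agent.Lib.NCov.A1_conj_of_aeval_eq_zero
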