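/-
A matrix whose characteristic polynomial has all irreducible factors of degree divisible by `d`
commutes with a root of any irreducible polynomial of degree `d`.
-/
import Mathlib

set_option autoImplicit false

open Polynomial Module
open scoped MatrixGroups

namespace Cfsg.Agent.Lib.NCov.A2_exists_J

variable {F : Type*} [Field F] [Fintype F]

/-- `m₀` has a root modulo `p` when `deg m₀ ∣ deg p`. -/
theorem exists_root_mod {m₀ p : F[X]} (hm : Irreducible m₀) (hp : Irreducible p)
    (h : m₀.natDegree ∣ p.natDegree) : ∃ r : F[X], p ∣ m₀.comp r := by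
  classical
  haveI : Fact (Irreducible p) := ⟨hp⟩
  have hne : p ≠ 0 := hp.ne_zero
  haveI : FiniteDimensional F (AdjoinRoot p) := (AdjoinRoot.powerBasis hne).finite
  haveI : Finite (AdjoinRoot p) := Module.finite_of_finite F
  letI : Fintype (AdjoinRoot p) := Fintype.ofFinite _
  have hcard : Fintype.card (AdjoinRoot p) = Nat.card F ^ p.natDegree := by
    rw [← Nat.card_eq_fintype_card, Module.natCard_eq_pow_finrank (K := F)]
    rw [(AdjoinRoot.powerBasis hne).finrank, AdjoinRoot.powerBasis_dim]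
  have hdvd : m₀ ∣ X ^ (Nat.card F) ^ p.natDegree - X :=
    hm.natDegree_dvd_iff_dvd_X_pow_card_pow_sub_X.1 h
  have hdeg : (m₀.map (algebraMap F (AdjoinRoot p))).degree ≠ 0 := by
    rw [degree_map]
    intro h0
    exact hm.natDegree_pos.ne' (natDegree_eq_of_degree_eq_some h0)
  have hone : 1 < Fintype.card (AdjoinRoot p) := Fintype.one_lt_card
  have hbig : (X ^ Fintype.card (AdjoinRoot p) - X : (AdjoinRoot p)[X]).Splits := by
    rw [splits_iff_card_roots, FiniteField.roots_X_pow_card_sub_X,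
      FiniteField.X_pow_card_sub_X_natDegree_eq _ hone]
    simp
  have hsplit : (m₀.map (algebraMap F (AdjoinRoot p))).Splits := by
    refine hbig.of_dvd (FiniteField.X_pow_card_sub_X_ne_zero _ hone) ?_
    have := Polynomial.map_dvd (algebraMap F (AdjoinRoot p)) hdvd
    rw [hcard]
    simpa using this
  obtain ⟨x, hx⟩ := hsplit.exists_eval_eq_zero hdeg
  obtain ⟨r, rfl⟩ := AdjoinRoot.mk_surjective x
  refine ⟨r, ?_⟩
  rw [← AdjoinRoot.mk_eq_zero]
  rw [eval_map] at hx
  have h2 : AdjoinRoot.mk p (m₀.comp r) = eval₂ (algebraMap F (AdjoinRoot p)) (AdjoinRoot.mk p r) m₀ := by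
    rw [comp, eval₂_eq_sum_range, eval₂_eq_sum_range]
    simp only [map_sum, map_mul, map_pow]
    rfl
  rw [h2, hx]

/-- Nilpotence of `m₀(r)` modulo `c`, by the structure of `c`. -/
theorem exists_nil_mod {m₀ : F[X]} (hm : Irreducible m₀) (c : F[X]) (hc : c ≠ 0)
    (hfac : ∀ p : F[X], Irreducible p → p ∣ c → m₀.natDegree ∣ p.natDegree) :
    ∃ (r : F[X]) (N : ℕ), c ∣ (m₀.comp r) ^ N := by
  classical
  revert hc hfac
  refine UniqueFactorizationMonoid.induction_on_coprime
    (P := fun c => c ≠ 0 → (∀ p : F[X], Irreducible p → p ∣ c → m₀.natDegree ∣ p.natDegree) →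
      ∃ (r : F[X]) (N : ℕ), c ∣ (m₀.comp r) ^ N) c ?_ ?_ ?_ ?_
  · intro h; exact absurd rfl h
  · intro x hx _ _
    exact ⟨0, 0, by simpa using hx.dvd⟩
  · intro p i hp hc hfac
    have hpi : p ∣ p ^ i ∨ i = 0 := by
      rcases Nat.eq_zero_or_pos i with h | h
      · exact Or.inr h
      · exact Or.inl (dvd_pow_self p h.ne')
    rcases hpi with hpi | rfl
    · obtain ⟨r, hr⟩ := exists_root_mod hm hp.irreducible (hfac p hp.irreducible hpi)
      exact ⟨r, i, pow_dvd_pow_of_dvd hr i⟩
    · exact ⟨0, 0, by simp⟩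
  · intro x y hxy hx hy hc hfac
    have hxne : x ≠ 0 := left_ne_zero_of_mul hc
    have hyne : y ≠ 0 := right_ne_zero_of_mul hc
    obtain ⟨r₁, N₁, h₁⟩ := hx hxne (fun p hp hd => hfac p hp (Dvd.dvd.mul_right hd y))
    obtain ⟨r₂, N₂, h₂⟩ := hy hyne (fun p hp hd => hfac p hp (Dvd.dvd.mul_left hd x))
    have hcop : IsCoprime x y := hxy.isCoprime
    obtain ⟨u, v, huv⟩ := hcop
    set r := r₁ * (v * y) + r₂ * (u * x) with hr
    have hr1 : x ∣ r - r₁ := ⟨u * (r₂ - r₁), by rw [hr]; linear_combination r₁ * huv⟩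
    have hr2 : y ∣ r - r₂ := ⟨v * (r₁ - r₂), by rw [hr]; linear_combination r₂ * huv⟩
    have hsub : ∀ a b : F[X], a - b ∣ m₀.comp a - m₀.comp b := by
      intro a b
      simp only [comp, eval₂_eq_eval_map]
      exact Polynomial.sub_dvd_eval_sub a b _
    have hc1 : x ∣ m₀.comp r - m₀.comp r₁ := hr1.trans (hsub _ _)
    have hc2 : y ∣ m₀.comp r - m₀.comp r₂ := hr2.trans (hsub _ _)
    have hpow : ∀ (z a b : F[X]) (N : ℕ), z ∣ a - b → z ∣ b ^ N → z ∣ a ^ N := by
      intro z a b N h1 h2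
      have h3 : z ∣ a ^ N - b ^ N := h1.trans (sub_dvd_pow_sub_pow a b N)
      have := dvd_add h3 h2
      simpa using this
    have hd1 : x ∣ (m₀.comp r) ^ N₁ := hpow _ _ _ _ hc1 h₁
    have hd2 : y ∣ (m₀.comp r) ^ N₂ := hpow _ _ _ _ hc2 h₂
    exact ⟨r, N₁ + N₂, by rw [pow_add]; exact mul_dvd_mul hd1 hd2⟩

set_option linter.dupNamespace false in
theorem A2_exists_J {n : ℕ} (g : Matrix (Fin n) (Fin n) F) {m₀ : F[X]} (hm : Irreducible m₀)
    (hfac : ∀ p : F[X], Irreducible p → p ∣ g.charpoly → m₀.natDegree ∣ p.natDegree) :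
    ∃ J : Matrix (Fin n) (Fin n) F, J * g = g * J ∧ aeval J m₀ = 0 := by
  classical
  set c := g.charpoly with hc
  have hcm : c.Monic := g.charpoly_monic
  obtain ⟨r, N, hN⟩ := exists_nil_mod hm c hcm.ne_zero hfac
  -- the ambient commutative ring
  let S := AdjoinRoot c
  let x : S := AdjoinRoot.mk c r
  have hmk : ∀ P : F[X], aeval x P = AdjoinRoot.mk c (P.comp r) := by
    intro P
    rw [comp, eval₂_eq_sum_range, aeval_def, eval₂_eq_sum_range]
    simp only [map_sum, map_mul, map_pow]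
    rfl
  have hmk' : ∀ s : F[X], aeval (AdjoinRoot.mk c s) m₀ = AdjoinRoot.mk c (m₀.comp s) := by
    intro s
    rw [comp, eval₂_eq_sum_range, aeval_def, eval₂_eq_sum_range]
    simp only [map_sum, map_mul, map_pow]
    rfl
  have hnil : IsNilpotent (aeval x m₀) := by
    refine ⟨N, ?_⟩
    rw [hmk, ← map_pow, AdjoinRoot.mk_eq_zero]
    exact hN
  have hsep : m₀.Separable := PerfectField.separable_of_irreducible hm
  obtain ⟨a, b, hab⟩ := hsep
  have hunit : IsUnit (aeval x (derivative m₀)) := by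
    have h1 : aeval x a * aeval x m₀ + aeval x b * aeval x (derivative m₀) = 1 := by
      rw [← map_mul, ← map_mul, ← map_add, hab, map_one]
    have h2 : IsNilpotent (aeval x a * aeval x m₀) := (Commute.all _ _).isNilpotent_mul_left hnil
    have h3 : IsUnit (aeval x b * aeval x (derivative m₀)) := by
      have : aeval x b * aeval x (derivative m₀) = 1 - aeval x a * aeval x m₀ := by
        rw [← h1]; ring
      rw [this]
      exact h2.isUnit_one_sub
    exact isUnit_of_mul_isUnit_right h3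
  obtain ⟨y, ⟨-, hy⟩, -⟩ := existsUnique_nilpotent_sub_and_aeval_eq_zero hnil hunit
  obtain ⟨s, rfl⟩ := AdjoinRoot.mk_surjective y
  refine ⟨aeval g s, ?_, ?_⟩
  · have h1 : aeval g s * g = aeval g (s * X) := by rw [map_mul, aeval_X]
    have h2 : g * aeval g s = aeval g (X * s) := by rw [map_mul, aeval_X]
    rw [h1, h2, mul_comm]
  · have hdvd : c ∣ m₀.comp s := by
      rw [← AdjoinRoot.mk_eq_zero, ← hmk' s]
      exact hy
    obtain ⟨e, he⟩ := hdvd
    have hg : aeval g c = 0 := Matrix.aeval_self_charpoly g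
    rw [← aeval_comp, he, map_mul, hg, zero_mul]

end Cfsg.Agent.Lib.NCov.A2_exists_J
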