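/-
The block-diagonal model `J₀` of a root of an irreducible polynomial, and its centraliser has all
determinants.
-/
import Mathlib

set_option autoImplicit false

open Polynomial Module
open scoped MatrixGroups

namespace Cfsg.Agent.Lib.NCov.A3_exists_J0

variable {F : Type*} [Field F] [Fintype F]

set_option linter.dupNamespace false in
theorem A3_exists_J0 (n d : ℕ) (hd : 2 ≤ d) (hdn : d ∣ n) (hn : 0 < n) :
    ∃ (m₀ : F[X]) (J₀ : Matrix (Fin n) (Fin n) F), Irreducible m₀ ∧ m₀.natDegree = d ∧ aeval J₀ m₀ = 0 ∧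
      ∀ t : F, t ≠ 0 → ∃ c : GL (Fin n) F, (c : Matrix (Fin n) (Fin n) F) * J₀ = J₀ * (c : Matrix (Fin n) (Fin n) F) ∧
        (c : Matrix (Fin n) (Fin n) F).det = t := by
  classical
  obtain ⟨r, rfl⟩ := hdn
  have hr : 0 < r := Nat.pos_of_mul_pos_left hn |> fun h => by
    rcases Nat.eq_zero_or_pos r with h0 | h0
    · simp [h0] at hn
    · exact h0
  let p := ringChar F
  haveI : Fact p.Prime := ⟨CharP.char_is_prime F p⟩
  haveI : NeZero d := ⟨by omega⟩
  let K := FiniteField.Extension F p d
  have hfin : finrank F K = d := FiniteField.finrank_extension F p d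
  haveI : FiniteDimensional F K := Module.finite_of_finrank_pos (by omega)
  let pb := Field.powerBasisOfFiniteOfSeparable F K
  have hint : IsIntegral F pb.gen := (Algebra.IsIntegral.isIntegral _)
  let V := Fin r → K
  have hV : finrank F V = d * r := by
    rw [Module.finrank_pi_fintype]
    simp [hfin, mul_comm]
  let b : Basis (Fin (d * r)) F V := Module.finBasisOfFinrankEq F V hV
  let Θ : K →ₐ[F] Matrix (Fin (d * r)) (Fin (d * r)) F :=
    (LinearMap.toMatrixAlgEquiv b).toAlgHom.comp (Algebra.lsmul F F V)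
  refine ⟨minpoly F pb.gen, Θ pb.gen, minpoly.irreducible hint, ?_, ?_, ?_⟩
  · rw [pb.natDegree_minpoly, ← pb.finrank, hfin]
  · rw [aeval_algHom_apply, minpoly.aeval, map_zero]
  · intro t ht
    obtain ⟨k, hk⟩ := FiniteField.norm_surjective F K t
    let i₀ : Fin r := ⟨0, hr⟩
    let D : Matrix (Fin r) (Fin r) K := Matrix.diagonal (fun i => if i = i₀ then k else 1)
    have hdetD : D.det = k := by
      rw [Matrix.det_diagonal]
      rw [Finset.prod_ite_eq']
      simp
    let f : V →ₗ[K] V := Matrix.toLin' D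
    have hdetf : LinearMap.det (f.restrictScalars F) = t := by
      rw [LinearMap.det_restrictScalars, LinearMap.det_toLin', hdetD, hk]
    let C : Matrix (Fin (d * r)) (Fin (d * r)) F := LinearMap.toMatrixAlgEquiv b (f.restrictScalars F)
    have hdetC : C.det = t := by
      rw [← hdetf, ← LinearMap.det_toMatrix b]
      rfl
    refine ⟨Matrix.GeneralLinearGroup.mkOfDetNeZero C (by rw [hdetC]; exact ht), ?_, hdetC⟩
    change C * Θ pb.gen = Θ pb.gen * C
    simp only [C, Θ, AlgHom.comp_apply]
    change LinearMap.toMatrixAlgEquiv b _ * LinearMap.toMatrixAlgEquiv b _ = LinearMap.toMatrixAlgEquiv b _ * LinearMap.toMatrixAlgEquiv b _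
    rw [← map_mul, ← map_mul]
    have hcomm : (f.restrictScalars F) * (Algebra.lsmul F F V pb.gen) = (Algebra.lsmul F F V pb.gen) * (f.restrictScalars F) := by
      refine LinearMap.ext fun v => ?_
      change f (pb.gen • v) = pb.gen • f v
      exact map_smul f pb.gen v
    exact congrArg _ hcomm

end Cfsg.Agent.Lib.NCov.A3_exists_J0
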