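/-
Normal 2-coverings: `HasCover G` says that `G` is the union of the conjugates of two proper subgroups.
-/
import Mathlib

set_option autoImplicit false

namespace Cfsg.Agent.Lib.NCov.Defs

/-- `G` is the union of the conjugates of two proper subgroups. -/
def HasCover (G : Type*) [Group G] : Prop :=
  ∃ H K : Subgroup G, H ≠ ⊤ ∧ K ≠ ⊤ ∧ ∀ g : G, ∃ x : G, x * g * x⁻¹ ∈ H ∨ x * g * x⁻¹ ∈ K

/-- Transport along an isomorphism. -/
theorem HasCover.of_equiv {G G' : Type*} [Group G] [Group G'] (e : G ≃* G') (h : HasCover G) :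
    HasCover G' := by
  obtain ⟨H, K, hH, hK, hc⟩ := h
  refine ⟨H.map e.toMonoidHom, K.map e.toMonoidHom, ?_, ?_, ?_⟩
  · intro h1
    apply hH
    rw [eq_top_iff]
    intro x _
    have : e x ∈ H.map e.toMonoidHom := by rw [h1]; trivial
    obtain ⟨y, hy, hxy⟩ := this
    have : y = x := e.injective hxy
    exact this ▸ hy
  · intro h1
    apply hK
    rw [eq_top_iff]
    intro x _
    have : e x ∈ K.map e.toMonoidHom := by rw [h1]; trivial
    obtain ⟨y, hy, hxy⟩ := this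
    have : y = x := e.injective hxy
    exact this ▸ hy
  · intro g
    obtain ⟨x, hx⟩ := hc (e.symm g)
    refine ⟨e x, ?_⟩
    have h2 : e x * g * (e x)⁻¹ = e (x * e.symm g * x⁻¹) := by simp
    rw [h2]
    rcases hx with hx | hx
    · exact Or.inl ⟨_, hx, rfl⟩
    · exact Or.inr ⟨_, hx, rfl⟩

/-- A covering of `G` by subgroups containing `N` gives a covering of `G ⧸ N`. -/
theorem HasCover.quot {G : Type*} [Group G] (N : Subgroup G) [N.Normal] (H K : Subgroup G)
    (hNH : N ≤ H) (hNK : N ≤ K) (hH : H ≠ ⊤) (hK : K ≠ ⊤)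
    (hc : ∀ g : G, ∃ x : G, x * g * x⁻¹ ∈ H ∨ x * g * x⁻¹ ∈ K) : HasCover (G ⧸ N) := by
  have key : ∀ L : Subgroup G, N ≤ L → L ≠ ⊤ → L.map (QuotientGroup.mk' N) ≠ ⊤ := by
    intro L hL hL' h1
    apply hL'
    rw [eq_top_iff]
    intro x _
    have : (QuotientGroup.mk' N) x ∈ L.map (QuotientGroup.mk' N) := by rw [h1]; trivial
    obtain ⟨y, hy, hxy⟩ := this
    have h3 : y⁻¹ * x ∈ N := QuotientGroup.eq.1 hxy
    have h4 : y * (y⁻¹ * x) ∈ L := L.mul_mem hy (hL h3)
    simpa using h4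
  refine ⟨H.map (QuotientGroup.mk' N), K.map (QuotientGroup.mk' N), key H hNH hH, key K hNK hK, ?_⟩
  intro g
  obtain ⟨g', rfl⟩ := QuotientGroup.mk'_surjective N g
  obtain ⟨x, hx⟩ := hc g'
  refine ⟨QuotientGroup.mk' N x, ?_⟩
  have h2 : (QuotientGroup.mk' N x) * (QuotientGroup.mk' N g') * (QuotientGroup.mk' N x)⁻¹ =
      QuotientGroup.mk' N (x * g' * x⁻¹) := by simp
  rw [h2]
  rcases hx with hx | hx
  · exact Or.inl ⟨_, hx, rfl⟩
  · exact Or.inr ⟨_, hx, rfl⟩

/-! ### Shared definitions of the modules of `Lib/NCov` -/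

/-- Quadratic forms polarising to `B`, in characteristic 2. -/
structure IsPol {F V : Type*} [Field F] [AddCommGroup V] [Module F V]
    (B : LinearMap.BilinForm F V) (Q : V → F) : Prop where
  add : ∀ x y, Q (x + y) = Q x + Q y + B x y
  smul : ∀ (c : F) x, Q (c • x) = c ^ 2 * Q x

/-- The plus-type form `∑ xᵢ yᵢ` on `F^(2m)`. -/
def Qplus (m : ℕ) (F : Type*) [Field F] (x : Fin m ⊕ Fin m → F) : F :=
  ∑ i, x (Sum.inl i) * x (Sum.inr i)

/-- The minus-type form: `c₀` is not of the form `t² + t`, `i₀` is a coordinate. -/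
def Qminus (m : ℕ) {F : Type*} [Field F] (i₀ : Fin m) (c₀ : F) (x : Fin m ⊕ Fin m → F) : F :=
  Qplus m F x + x (Sum.inl i₀) ^ 2 + c₀ * x (Sum.inr i₀) ^ 2

/-- The Hermitian trace form on a cubic extension `E/F`, `|F| = q²`. -/
noncomputable def hE (F : Type*) {E : Type*} [Field F] [Field E] [Algebra F E] (q : ℕ) (x y : E) : F :=
  Algebra.trace F E (x * y ^ (q ^ 3))

/-- `g` normalises the `E`-structure `m` on `V`. -/
def Normalizes {F E V : Type*} [Field F] [Field E] [Algebra F E] [AddCommGroup V] [Module F V]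
    (g : V →ₗ[F] V) (m : E →ₐ[F] Module.End F V) : Prop :=
  ∀ a : E, ∃ b : E, ∀ v, g (m a v) = m b (g v)

end Cfsg.Agent.Lib.NCov.Defs
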