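/-
Dye's lemma in characteristic two: an isometry of a non-degenerate alternating form fixes a quadratic
form polarising to the alternating form.
-/
import Mathlib
import Cfsg.Agent.Lib.NCov.Defs

set_option autoImplicit false
set_option linter.unusedSectionVars false

namespace Cfsg.Agent.Lib.NCov.B1

open Module Cfsg.Agent.Lib.NCov.Defs

variable {F V : Type*} [Field F] [Fintype F] [AddCommGroup V] [Module F V] [FiniteDimensional F V]

/-- Squaring is bijective on a finite field of characteristic two. -/
theorem sq_bij (h2 : (2 : F) = 0) : Function.Bijective (fun x : F => x ^ 2) := by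
  have hadd : ∀ x y : F, (x + y) ^ 2 = x ^ 2 + y ^ 2 := by
    intro x y
    have : (x + y) ^ 2 = x ^ 2 + y ^ 2 + 2 * (x * y) := by ring
    rw [this, h2]; simp
  have hinj : Function.Injective (fun x : F => x ^ 2) := by
    intro x y hxy
    have h1 : (x + y) ^ 2 = 0 := by
      rw [hadd]
      show x ^ 2 + y ^ 2 = 0
      have : x ^ 2 = y ^ 2 := hxy
      rw [this, ← two_mul, h2, zero_mul]
    have h3 : x + y = 0 := by simpa using h1
    have h4 : x = -y := eq_neg_of_add_eq_zero_left h3
    have h5 : -y = y := by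
      have : y + y = 0 := by rw [← two_mul, h2, zero_mul]
      exact neg_eq_of_add_eq_zero_left this
    rw [h4, h5]
  exact ⟨hinj, Finite.surjective_of_injective hinj⟩

theorem neg_eq (h2 : (2 : F) = 0) (x : F) : -x = x := by
  have : x + x = 0 := by rw [← two_mul, h2, zero_mul]
  exact neg_eq_of_add_eq_zero_left this

theorem add_self' (h2 : (2 : F) = 0) (x : F) : x + x = 0 := by
  rw [← two_mul, h2, zero_mul]

theorem add_sq' (h2 : (2 : F) = 0) (x y : F) : (x + y) ^ 2 = x ^ 2 + y ^ 2 := by
  have : (x + y) ^ 2 = x ^ 2 + y ^ 2 + 2 * (x * y) := by ring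
  rw [this, h2]; simp

/-- `Dye`. -/
theorem B1_dye (h2 : (2 : F) = 0) {B : LinearMap.BilinForm F V} (hB : B.IsAlt) (hN : B.Nondegenerate)
    (g : V ≃ₗ[F] V) (hg : ∀ x y, B (g x) (g y) = B x y) {Q : V → F} (hQ : IsPol B Q) :
    ∃ Q' : V → F, IsPol B Q' ∧ ∀ x, Q' (g x) = Q' x := by
  classical
  obtain ⟨hinj, hsurj⟩ := sq_bij h2
  -- the square root
  let s : F → F := Function.surjInv hsurj
  have hs : ∀ a, (s a) ^ 2 = a := Function.surjInv_eq hsurj
  have hs_add : ∀ a b, s (a + b) = s a + s b := by
    intro a b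
    apply hinj
    show (s (a + b)) ^ 2 = (s a + s b) ^ 2
    rw [add_sq' h2, hs, hs, hs]
  have hs_mul : ∀ (c a : F), s (c ^ 2 * a) = c * s a := by
    intro c a
    apply hinj
    show (s (c ^ 2 * a)) ^ 2 = (c * s a) ^ 2
    rw [mul_pow, hs, hs]
  have hs0 : s 0 = 0 := by
    apply hinj
    show (s 0) ^ 2 = 0 ^ 2
    rw [hs]; simp
  -- the defect
  let D : V → F := fun x => Q (g x) + Q x
  have hDadd : ∀ x y, D (x + y) = D x + D y := by
    intro x y
    show Q (g (x + y)) + Q (x + y) = Q (g x) + Q x + (Q (g y) + Q y)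
    rw [map_add, hQ.add, hQ.add, hg]
    have := add_self' h2 (B x y)
    linear_combination this
  have hDsmul : ∀ (c : F) x, D (c • x) = c ^ 2 * D x := by
    intro c x
    show Q (g (c • x)) + Q (c • x) = c ^ 2 * (Q (g x) + Q x)
    rw [map_smul, hQ.smul, hQ.smul]; ring
  let E : V →ₗ[F] F :=
    { toFun := fun x => s (D x)
      map_add' := fun x y => by rw [hDadd, hs_add]
      map_smul' := fun c x => by rw [hDsmul, hs_mul]; rfl }
  have hE : ∀ x, (E x) ^ 2 = D x := fun x => hs (D x)
  -- representing vector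
  let w : V := (B.toDual hN).symm E
  have hw : ∀ x, B w x = E x := by
    intro x
    have := LinearMap.BilinForm.apply_toDual_symm_apply (B := B) (hB := hN) E x
    simpa [w] using this
  have hrefl : B.IsRefl := hB.isRefl
  -- `w` lies in the image of `g - 1`
  let N : V →ₗ[F] V := (g : V →ₗ[F] V) - LinearMap.id
  have hker : ∀ x, N x = 0 → g x = x := by
    intro x hx
    have : g x - x = 0 := hx
    exact sub_eq_zero.mp this
  have hle : LinearMap.range N ≤ B.orthogonal (LinearMap.ker N) := by
    rintro _ ⟨y, rfl⟩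
    rw [LinearMap.BilinForm.mem_orthogonal_iff]
    intro n hn
    have hn' : g n = n := hker n hn
    show B n (N y) = 0
    have : N y = g y - y := rfl
    rw [this, map_sub]
    have h3 := hg n y
    rw [hn'] at h3
    rw [h3]; simp
  have hfr : finrank F (LinearMap.range N) = finrank F (B.orthogonal (LinearMap.ker N)) := by
    have h1 := LinearMap.finrank_range_add_finrank_ker N
    have h2' := LinearMap.BilinForm.finrank_orthogonal hN (LinearMap.ker N)
    have h3 : finrank F (LinearMap.ker N) ≤ finrank F V := Submodule.finrank_le _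
    omega
  have heq : LinearMap.range N = B.orthogonal (LinearMap.ker N) :=
    Submodule.eq_of_le_of_finrank_eq hle hfr
  have hwmem : w ∈ LinearMap.range N := by
    rw [heq, LinearMap.BilinForm.mem_orthogonal_iff]
    intro n hn
    have hn' : g n = n := hker n hn
    show B n w = 0
    have h4 : B w n = 0 := by
      rw [hw]
      show s (Q (g n) + Q n) = 0
      rw [hn', add_self' h2, hs0]
    have h5 := hrefl _ _ h4
    exact h5
  obtain ⟨y, hy⟩ := hwmem
  have hy' : w = g y - y := hy.symm
  refine ⟨fun x => Q x + (B x (g y)) ^ 2, ⟨?_, ?_⟩, ?_⟩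
  · intro a b
    show Q (a + b) + (B (a + b) (g y)) ^ 2 = Q a + (B a (g y)) ^ 2 + (Q b + (B b (g y)) ^ 2) + B a b
    rw [hQ.add, map_add, LinearMap.add_apply, add_sq' h2]
    ring
  · intro c a
    show Q (c • a) + (B (c • a) (g y)) ^ 2 = c ^ 2 * (Q a + (B a (g y)) ^ 2)
    rw [hQ.smul, map_smul, LinearMap.smul_apply, smul_eq_mul, mul_pow]
    ring
  · intro x
    show Q (g x) + (B (g x) (g y)) ^ 2 = Q x + (B x (g y)) ^ 2
    rw [hg]
    have h6 : Q (g x) = Q x + (B w x) ^ 2 := by
      have h7 : (B w x) ^ 2 = Q (g x) + Q x := by rw [hw, hE]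
      rw [h7]
      have := add_self' h2 (Q x)
      linear_combination -this
    rw [h6, hy']
    have h8 : B (g y - y) x = B (g y) x + B y x := by
      rw [map_sub, LinearMap.sub_apply, sub_eq_add_neg, neg_eq h2]
    rw [h8, add_sq' h2]
    have h9 : B y x = B x y := by
      have := LinearMap.IsAlt.neg hB x y
      rw [← this, neg_eq h2]
    have h10 : B (g y) x = B x (g y) := by
      have := LinearMap.IsAlt.neg hB x (g y)
      rw [← this, neg_eq h2]
    rw [h9, h10]
    have := add_self' h2 ((B x y) ^ 2)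
    linear_combination this

end Cfsg.Agent.Lib.NCov.B1
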