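/-
Normal form of the quadratic forms polarising to a non-degenerate alternating form in characteristic
two: every such form is of plus or of minus type.
-/
import Mathlib
import Cfsg.Agent.Lib.NCov.Defs
import Cfsg.Agent.Lib.NCov.B1
import Cfsg.Agent.Lib.Classical.SympForm

set_option autoImplicit false
set_option linter.unusedSectionVars false

namespace Cfsg.Agent.Lib.NCov.B2

open Module Cfsg.Agent.Lib.NCov.Defs Cfsg.Agent.Lib.NCov.B1

universe u v

section basics

variable {F : Type v} {V : Type u} [Field F] [AddCommGroup V] [Module F V]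

theorem pol_zero {B : LinearMap.BilinForm F V} {Q : V → F} (hQ : IsPol B Q) : Q 0 = 0 := by
  have := hQ.smul 0 0
  simpa using this

theorem pol_add_smul {B : LinearMap.BilinForm F V} {Q : V → F} (hQ : IsPol B Q) (f e : V) (t : F) :
    Q (f + t • e) = Q f + t ^ 2 * Q e + t * B f e := by
  rw [hQ.add, hQ.smul, map_smul, smul_eq_mul]

theorem exists_form_eq_one {B : LinearMap.BilinForm F V} (hN : B.Nondegenerate) {e : V} (he : e ≠ 0) :
    ∃ f, B e f = 1 := by
  have : ¬ ∀ f, B e f = 0 := fun h => he (hN.1 e h)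
  push Not at this
  obtain ⟨f, hf⟩ := this
  refine ⟨(B e f)⁻¹ • f, ?_⟩
  rw [map_smul, smul_eq_mul, inv_mul_cancel₀ hf]

theorem alt_flip {B : LinearMap.BilinForm F V} (h2 : (2 : F) = 0) (hB : B.IsAlt) (x y : V) :
    B y x = B x y := by
  rw [← hB.neg_eq x y]
  exact neg_eq_of_add_eq_zero_left (by rw [← two_mul, h2, zero_mul])

end basics

section field

variable {F : Type v} [Field F] [Fintype F]

/-- The Artin-Schreier map has image of index two. -/
theorem as_add (h2 : (2 : F) = 0) {a b : F} (ha : ∀ t : F, t ^ 2 + t ≠ a) (hb : ∀ t : F, t ^ 2 + t ≠ b) :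
    ∃ t : F, t ^ 2 + t = a + b := by
  let φ : F →+ F :=
    { toFun := fun t => t ^ 2 + t
      map_zero' := by simp
      map_add' := fun x y => by
        show (x + y) ^ 2 + (x + y) = x ^ 2 + x + (y ^ 2 + y)
        rw [add_sq' h2]; ring }
  have hφ : ∀ t, φ t = t ^ 2 + t := fun _ => rfl
  have hker : Nat.card φ.ker = 2 := by
    rw [Nat.card_eq_two_iff]
    have h01 : ((0 : φ.ker) : F) ≠ ((⟨1, by
        rw [AddMonoidHom.mem_ker, hφ]; simp [add_self' h2 (1 : F)]⟩ : φ.ker) : F) := by
      simp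
    refine ⟨0, ⟨1, by rw [AddMonoidHom.mem_ker, hφ]; simp [add_self' h2 (1 : F)]⟩,
      fun h => h01 (by rw [h]), ?_⟩
    ext ⟨x, hx⟩
    simp only [Set.mem_insert_iff, Set.mem_singleton_iff, Set.mem_univ, iff_true]
    rw [AddMonoidHom.mem_ker, hφ] at hx
    have h3 : x * (x + 1) = 0 := by rw [← hx]; ring
    rcases mul_eq_zero.1 h3 with h | h
    · left; exact Subtype.ext h
    · right
      apply Subtype.ext
      show x = 1
      have := neg_eq_of_add_eq_zero_left h
      rw [← this, neg_eq h2]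
  have hindex : φ.range.index = 2 := by
    have h1 : φ.range.index * Nat.card φ.range = Nat.card F := φ.range.index_mul_card
    have h3 : φ.ker.index * Nat.card φ.ker = Nat.card F := φ.ker.index_mul_card
    rw [AddSubgroup.index_ker, hker] at h3
    have hpos : 0 < Nat.card φ.range := Nat.card_pos
    have h4 : φ.range.index * Nat.card φ.range = 2 * Nat.card φ.range := by rw [h1, ← h3]; ring
    exact Nat.eq_of_mul_eq_mul_right hpos h4
  have hmem : a + b ∈ φ.range := by
    rw [AddSubgroup.add_mem_iff_of_index_two hindex]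
    have ha' : a ∉ φ.range := by
      rintro ⟨t, rfl⟩
      exact ha t rfl
    have hb' : b ∉ φ.range := by
      rintro ⟨t, rfl⟩
      exact hb t rfl
    simp [ha', hb']
  obtain ⟨t, ht⟩ := hmem
  exact ⟨t, ht⟩

end field

section main

variable {F : Type v} {V : Type u} [Field F] [Fintype F] [AddCommGroup V] [Module F V]
  [FiniteDimensional F V]

/-- Every scalar has an inverse square root after rescaling. -/
theorem exists_scale_one (h2 : (2 : F) = 0) {c : F} (hc : c ≠ 0) : ∃ a : F, a ^ 2 * c = 1 ∧ a ≠ 0 := by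
  obtain ⟨s, hs⟩ := (sq_bij h2).2 c
  have hs' : s ^ 2 = c := hs
  have hs0 : s ≠ 0 := by
    rintro rfl
    apply hc
    rw [← hs']; simp
  refine ⟨s⁻¹, ?_, inv_ne_zero hs0⟩
  rw [← hs']
  field_simp

/-- A quadratic form in at least three dimensions has a non-zero singular vector. -/
theorem exists_singular (h2 : (2 : F) = 0) {B : LinearMap.BilinForm F V}
    {Q : V → F} (hQ : IsPol B Q) (hdim : 3 ≤ finrank F V) : ∃ x, x ≠ 0 ∧ Q x = 0 := by
  have : Nontrivial V := Module.nontrivial_of_finrank_pos (R := F) (by omega)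
  obtain ⟨e, he⟩ := exists_ne (0 : V)
  -- a vector of `ker (B e)` outside `span {e}`
  have hker : 2 ≤ finrank F (LinearMap.ker (B e)) := by
    have h1 := LinearMap.finrank_range_add_finrank_ker (B e)
    have h3 : finrank F (LinearMap.range (B e)) ≤ finrank F F := Submodule.finrank_le _
    rw [finrank_self] at h3
    omega
  have hg : ∃ g ∈ LinearMap.ker (B e), g ∉ Submodule.span F {e} := by
    by_contra hcon
    push Not at hcon
    have hle : LinearMap.ker (B e) ≤ Submodule.span F {e} := hcon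
    have h1 := Submodule.finrank_mono hle
    have h3 : finrank F (Submodule.span F {e}) ≤ 1 := by
      have := finrank_span_le_card (R := F) ({e} : Set V)
      simpa using this
    omega
  obtain ⟨g, hgk, hgs⟩ := hg
  by_cases hQe : Q e = 0
  · exact ⟨e, he, hQe⟩
  have hg0 : g ≠ 0 := by
    rintro rfl
    exact hgs (Submodule.zero_mem _)
  by_cases hQg : Q g = 0
  · exact ⟨g, hg0, hQg⟩
  obtain ⟨a, ha, ha0⟩ := exists_scale_one h2 hQe
  obtain ⟨b, hb, hb0⟩ := exists_scale_one h2 hQg
  refine ⟨a • e + b • g, ?_, ?_⟩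
  · intro h
    apply hgs
    have h3 : g = (-(b⁻¹ * a)) • e := by
      have h4 : b • g = -(a • e) := eq_neg_of_add_eq_zero_right h
      have h5 : g = b⁻¹ • (b • g) := by rw [smul_smul, inv_mul_cancel₀ hb0, one_smul]
      rw [h5, h4, smul_neg, smul_smul, neg_smul]
    rw [h3]
    exact Submodule.smul_mem _ _ (Submodule.mem_span_singleton_self e)
  · have hk : B e g = 0 := hgk
    rw [hQ.add, hQ.smul, hQ.smul, ha, hb, map_smul, map_smul, LinearMap.smul_apply, hk]
    simp [add_self' h2 (1 : F)]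

/-- Given a singular vector, find a hyperbolic partner. -/
theorem exists_hyperbolic_partner (h2 : (2 : F) = 0) {B : LinearMap.BilinForm F V} (hB : B.IsAlt)
    (hN : B.Nondegenerate) {Q : V → F} (hQ : IsPol B Q) {x : V} (hx : x ≠ 0) (hQx : Q x = 0) :
    ∃ f, B x f = 1 ∧ Q f = 0 := by
  obtain ⟨f₁, hf₁⟩ := exists_form_eq_one hN hx
  refine ⟨f₁ + Q f₁ • x, ?_, ?_⟩
  · rw [map_add, map_smul, smul_eq_mul, hf₁, hB x]
    simp
  · rw [pol_add_smul hQ, hQx, alt_flip h2 hB x f₁, hf₁]
    simp [add_self' h2]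

/-- The normal form of a family of hyperbolic pairs. -/
theorem family (h2 : (2 : F) = 0) (c₀ : F) (hc₀ : ∀ t : F, t ^ 2 + t ≠ c₀) (n : ℕ) :
    ∀ (V : Type u) [AddCommGroup V] [Module F V] [FiniteDimensional F V]
      (ι : Type) [Fintype ι] [DecidableEq ι] (i₀ : ι)
      (_ : Fintype.card ι = n + 1) (_ : finrank F V = 2 * (n + 1))
      (B : LinearMap.BilinForm F V) (_ : B.IsAlt) (_ : B.Nondegenerate)
      (Q : V → F) (_ : IsPol B Q),
      ∃ e f : ι → V, (∀ i j, B (e i) (f j) = if i = j then 1 else 0) ∧ (∀ i j, B (e i) (e j) = 0) ∧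
        (∀ i j, B (f i) (f j) = 0) ∧ (∀ i, i ≠ i₀ → Q (e i) = 0 ∧ Q (f i) = 0) ∧
        ((Q (e i₀) = 0 ∧ Q (f i₀) = 0) ∨ (Q (e i₀) = 1 ∧ Q (f i₀) = c₀)) := by
  induction n with
  | zero =>
    intro V _ _ _ ι _ _ i₀ hcard hdim B hB hN Q hQ
    have huniq : ∀ i : ι, i = i₀ := by
      intro i
      have h1 : Fintype.card ι = 1 := by simpa using hcard
      rw [Fintype.card_eq_one_iff] at h1
      obtain ⟨a, ha⟩ := h1
      rw [ha i, ha i₀]
    have hne : ∃ x : V, x ≠ 0 := by
      have : Nontrivial V := Module.nontrivial_of_finrank_pos (R := F) (by omega)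
      exact exists_ne (0 : V)
    by_cases hsing : ∃ x : V, x ≠ 0 ∧ Q x = 0
    · obtain ⟨x, hx, hQx⟩ := hsing
      obtain ⟨f, hf, hQf⟩ := exists_hyperbolic_partner h2 hB hN hQ hx hQx
      refine ⟨fun _ => x, fun _ => f, ?_, ?_, ?_, ?_, Or.inl ⟨hQx, hQf⟩⟩
      · intro i j
        simp [huniq i, huniq j, hf]
      · intro i j; exact hB x
      · intro i j; exact hB f
      · intro i hi; exact absurd (huniq i) hi
    · push Not at hsing
      obtain ⟨e₀, he₀⟩ := hne
      obtain ⟨a, ha, ha0⟩ := exists_scale_one h2 (hsing e₀ he₀)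
      obtain ⟨e, he_def⟩ : ∃ e, e = a • e₀ := ⟨_, rfl⟩
      have he : e ≠ 0 := he_def ▸ smul_ne_zero ha0 he₀
      have hQe : Q e = 1 := by rw [he_def, hQ.smul, ha]
      obtain ⟨f₁, hf₁⟩ := exists_form_eq_one hN he
      have hf₁' : B f₁ e = 1 := by rw [alt_flip h2 hB e f₁, hf₁]
      have hnot : ∀ t : F, t ^ 2 + t ≠ Q f₁ := by
        intro t ht
        have h3 : Q (f₁ + t • e) = 0 := by
          rw [pol_add_smul hQ, hQe, hf₁', ← ht]
          have := add_self' h2 (t ^ 2 + t)
          linear_combination this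
        have h4 : f₁ + t • e ≠ 0 := by
          intro h5
          have h6 : B e (f₁ + t • e) = 1 := by
            rw [map_add, map_smul, smul_eq_mul, hf₁, hB e]; simp
          rw [h5] at h6
          simp at h6
        exact hsing _ h4 h3
      obtain ⟨t, ht⟩ := as_add h2 hnot hc₀
      have hf : B e (f₁ + t • e) = 1 := by
        rw [map_add, map_smul, smul_eq_mul, hf₁, hB e]; simp
      have hQf : Q (f₁ + t • e) = c₀ := by
        rw [pol_add_smul hQ, hQe, hf₁']
        have h5 := add_self' h2 (Q f₁)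
        linear_combination ht + h5
      refine ⟨fun _ => e, fun _ => f₁ + t • e, ?_, ?_, ?_, ?_, Or.inr ⟨hQe, hQf⟩⟩
      · intro i j
        simp [huniq i, huniq j, hf]
      · intro i j; exact hB e
      · intro i j; exact hB _
      · intro i hi; exact absurd (huniq i) hi
  | succ n ih =>
    intro V _ _ _ ι _ _ i₀ hcard hdim B hB hN Q hQ
    obtain ⟨j, hj⟩ : ∃ j : ι, j ≠ i₀ := by
      apply Fintype.exists_ne_of_one_lt_card
      omega
    obtain ⟨e₀, he₀, hQe₀⟩ := exists_singular h2 hQ (by omega)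
    obtain ⟨f₀, hf₀, hQf₀⟩ := exists_hyperbolic_partner h2 hB hN hQ he₀ hQe₀
    have hf₀' : B f₀ e₀ = 1 := by rw [alt_flip h2 hB e₀ f₀, hf₀]
    -- the perp of the hyperbolic pair
    let π : V →ₗ[F] F × F := (B e₀).prod (B f₀)
    have hπ : ∀ x, π x = (B e₀ x, B f₀ x) := fun _ => rfl
    have hsurj : Function.Surjective π := by
      rintro ⟨a, b⟩
      refine ⟨a • f₀ + b • e₀, ?_⟩
      rw [hπ]
      simp [hf₀, hf₀', hB e₀, hB f₀]
    let W : Submodule F V := LinearMap.ker π
    have hmemW : ∀ x, x ∈ W ↔ B e₀ x = 0 ∧ B f₀ x = 0 := by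
      intro x
      show π x = 0 ↔ _
      rw [hπ, Prod.mk_eq_zero]
    have hdimW : finrank F W = 2 * (n + 1) := by
      have h1 := LinearMap.finrank_range_add_finrank_ker π
      rw [LinearMap.range_eq_top.2 hsurj, finrank_top, finrank_prod, finrank_self] at h1
      have : finrank F W = finrank F (LinearMap.ker π) := rfl
      omega
    let B' : LinearMap.BilinForm F W := B.restrict W
    have hB'apply : ∀ x y : W, B' x y = B x y := fun _ _ => rfl
    have hB' : B'.IsAlt := fun x => hB x
    have hN' : B'.Nondegenerate := by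
      refine (LinearMap.IsRefl.nondegenerate_iff_separatingLeft hB'.isRefl).2 ?_
      intro z hz
      apply Subtype.ext
      show (z : V) = 0
      apply hN.1
      intro v
      have hz1 := (hmemW z).1 z.2
      let p : V := v + B e₀ v • f₀ + B f₀ v • e₀
      have hp : p ∈ W := by
        rw [hmemW]
        constructor
        · simp only [p, map_add, map_smul, smul_eq_mul, hf₀, hB e₀]
          simp [add_self' h2]
        · simp only [p, map_add, map_smul, smul_eq_mul, hf₀', hB f₀]
          simp [add_self' h2]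
      have h5 := hz ⟨p, hp⟩
      rw [hB'apply] at h5
      have h5' : B z p = 0 := h5
      have h6 : B z f₀ = 0 := by rw [alt_flip h2 hB f₀ z, hz1.2]
      have h7 : B z e₀ = 0 := by rw [alt_flip h2 hB e₀ z, hz1.1]
      simp only [p, map_add, map_smul, smul_eq_mul, h6, h7] at h5'
      simpa using h5'
    let Q' : W → F := fun x => Q x
    have hQ' : IsPol B' Q' := by
      refine ⟨fun x y => hQ.add x y, fun c x => hQ.smul c x⟩
    have hcard' : Fintype.card { i // i ≠ j } = n + 1 := by
      rw [Fintype.card_subtype_compl]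
      simp
      omega
    obtain ⟨e', f', h1, h3, h4, h5, h6⟩ :=
      ih W { i // i ≠ j } ⟨i₀, hj.symm⟩ hcard' hdimW B' hB' hN' Q' hQ'
    have hW : ∀ x : W, B e₀ x = 0 ∧ B f₀ x = 0 ∧ B x e₀ = 0 ∧ B x f₀ = 0 := by
      intro x
      have := (hmemW x).1 x.2
      refine ⟨this.1, this.2, ?_, ?_⟩
      · rw [alt_flip h2 hB e₀ x, this.1]
      · rw [alt_flip h2 hB f₀ x, this.2]
    let E : ι → V := fun i => if h : i = j then e₀ else (e' ⟨i, h⟩ : V)
    let G : ι → V := fun i => if h : i = j then f₀ else (f' ⟨i, h⟩ : V)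
    have hEj : E j = e₀ := by simp [E]
    have hGj : G j = f₀ := by simp [G]
    have hEi : ∀ i (h : i ≠ j), E i = (e' ⟨i, h⟩ : V) := by intro i h; simp [E, h]
    have hGi : ∀ i (h : i ≠ j), G i = (f' ⟨i, h⟩ : V) := by intro i h; simp [G, h]
    refine ⟨E, G, ?_, ?_, ?_, ?_, ?_⟩
    · intro a b
      by_cases ha : a = j
      · by_cases hb : b = j
        · subst ha; subst hb
          rw [hEj, hGj, hf₀]; simp
        · subst ha
          rw [hEj, hGi b hb, (hW _).1, if_neg (Ne.symm hb)]
      · by_cases hb : b = j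
        · subst hb
          rw [hEi a ha, hGj, (hW _).2.2.2, if_neg ha]
        · rw [hEi a ha, hGi b hb]
          have := h1 ⟨a, ha⟩ ⟨b, hb⟩
          rw [hB'apply] at this
          rw [this]
          simp
    · intro a b
      by_cases ha : a = j
      · by_cases hb : b = j
        · subst ha; subst hb
          rw [hEj]; exact hB _
        · subst ha
          rw [hEj, hEi b hb, (hW _).1]
      · by_cases hb : b = j
        · subst hb
          rw [hEi a ha, hEj, (hW _).2.2.1]
        · rw [hEi a ha, hEi b hb]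
          exact h3 ⟨a, ha⟩ ⟨b, hb⟩
    · intro a b
      by_cases ha : a = j
      · by_cases hb : b = j
        · subst ha; subst hb
          rw [hGj]; exact hB _
        · subst ha
          rw [hGj, hGi b hb, (hW _).2.1]
      · by_cases hb : b = j
        · subst hb
          rw [hGi a ha, hGj, (hW _).2.2.2]
        · rw [hGi a ha, hGi b hb]
          exact h4 ⟨a, ha⟩ ⟨b, hb⟩
    · intro a ha0
      by_cases ha : a = j
      · subst ha
        rw [hEj, hGj]
        exact ⟨hQe₀, hQf₀⟩
      · rw [hEi a ha, hGi a ha]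
        exact h5 ⟨a, ha⟩ (fun h => ha0 (congrArg Subtype.val h))
    · rw [hEi i₀ hj.symm, hGi i₀ hj.symm]
      exact h6

/-- Quadratic form on a sum of orthogonal vectors. -/
theorem pol_sum {B : LinearMap.BilinForm F V} {Q : V → F} (hQ : IsPol B Q) {ι : Type*}
    (s : Finset ι) (v : ι → V) (hv : ∀ i ∈ s, ∀ j ∈ s, i ≠ j → B (v i) (v j) = 0) :
    Q (∑ i ∈ s, v i) = ∑ i ∈ s, Q (v i) := by
  classical
  induction s using Finset.induction_on with
  | empty => simpa using pol_zero hQ
  | insert a s ha ih =>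
    rw [Finset.sum_insert ha, Finset.sum_insert ha, hQ.add,
      ih (fun i hi j hj => hv i (Finset.mem_insert_of_mem hi) j (Finset.mem_insert_of_mem hj))]
    have : B (v a) (∑ i ∈ s, v i) = 0 := by
      rw [map_sum]
      refine Finset.sum_eq_zero fun i hi => ?_
      exact hv a (Finset.mem_insert_self _ _) i (Finset.mem_insert_of_mem hi)
        (fun h => ha (h ▸ hi))
    rw [this, add_zero]

theorem B2_pol_normal (h2 : (2 : F) = 0) {B : LinearMap.BilinForm F V} (hB : B.IsAlt) (hN : B.Nondegenerate)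
    (m : ℕ) (hdim : finrank F V = 2 * m) (i₀ : Fin m) (c₀ : F) (hc₀ : ∀ t : F, t ^ 2 + t ≠ c₀)
    {Q : V → F} (hQ : IsPol B Q) :
    ∃ ψ : (Fin m ⊕ Fin m → F) ≃ₗ[F] V, (∀ x y, B (ψ x) (ψ y) = Cfsg.sympForm m F x y) ∧
      ((∀ x, Q (ψ x) = Qplus m F x) ∨ ∀ x, Q (ψ x) = Qminus m i₀ c₀ x) := by
  obtain ⟨n, rfl⟩ : ∃ n, m = n + 1 := ⟨m - 1, by have := i₀.2; omega⟩
  obtain ⟨e, f, h1, h3, h4, h5, h6⟩ :=
    family h2 c₀ hc₀ n V (Fin (n + 1)) i₀ (by simp) hdim B hB hN Q hQ
  let g : Fin (n + 1) ⊕ Fin (n + 1) → V := Sum.elim e f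
  let ψ₀ : (Fin (n + 1) ⊕ Fin (n + 1) → F) →ₗ[F] V := Fintype.linearCombination F g
  have hψ₀ : ∀ x, ψ₀ x = ∑ i, (x (Sum.inl i) • e i + x (Sum.inr i) • f i) := by
    intro x
    show Fintype.linearCombination F g x = _
    rw [Fintype.linearCombination_apply, Fintype.sum_sum_type, Finset.sum_add_distrib]
    rfl
  -- pairing with the basis vectors
  have hBe : ∀ x j, B (ψ₀ x) (e j) = x (Sum.inr j) := by
    intro x j
    rw [hψ₀, map_sum, LinearMap.sum_apply, Finset.sum_eq_single j]
    · simp only [map_add, map_smul, LinearMap.add_apply, LinearMap.smul_apply, smul_eq_mul]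
      rw [h3, alt_flip h2 hB (e j) (f j), h1]
      simp
    · intro i _ hi
      simp only [map_add, map_smul, LinearMap.add_apply, LinearMap.smul_apply, smul_eq_mul]
      rw [h3, alt_flip h2 hB (e j) (f i), h1, if_neg (Ne.symm hi)]
      simp
    · simp
  have hBf : ∀ x j, B (ψ₀ x) (f j) = x (Sum.inl j) := by
    intro x j
    rw [hψ₀, map_sum, LinearMap.sum_apply, Finset.sum_eq_single j]
    · simp only [map_add, map_smul, LinearMap.add_apply, LinearMap.smul_apply, smul_eq_mul]
      rw [h4, h1]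
      simp
    · intro i _ hi
      simp only [map_add, map_smul, LinearMap.add_apply, LinearMap.smul_apply, smul_eq_mul]
      rw [h4, h1, if_neg hi]
      simp
    · simp
  have hinj : Function.Injective ψ₀ := by
    rw [injective_iff_map_eq_zero]
    intro x hx
    ext (j | j)
    · have := hBf x j
      rw [hx] at this
      simpa using this.symm
    · have := hBe x j
      rw [hx] at this
      simpa using this.symm
  have hfr : finrank F (Fin (n + 1) ⊕ Fin (n + 1) → F) = finrank F V := by
    rw [hdim, Module.finrank_fintype_fun_eq_card]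
    simp
    ring
  let ψ := LinearMap.linearEquivOfInjective ψ₀ hinj hfr
  have hψ : ∀ x, ψ x = ψ₀ x := fun x => rfl
  have hQψ : ∀ x, Q (ψ₀ x) = ∑ i, (x (Sum.inl i) ^ 2 * Q (e i) + x (Sum.inr i) ^ 2 * Q (f i) +
      x (Sum.inl i) * x (Sum.inr i)) := by
    intro x
    rw [hψ₀, pol_sum hQ]
    · refine Finset.sum_congr rfl fun i _ => ?_
      rw [hQ.add, hQ.smul, hQ.smul, map_smul, map_smul, LinearMap.smul_apply, h1]
      simp
      ring
    · intro i _ j _ hij
      simp only [map_add, map_smul, LinearMap.add_apply, LinearMap.smul_apply, smul_eq_mul]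
      rw [h3, h4, h1, alt_flip h2 hB (e j) (f i), h1, if_neg hij, if_neg (Ne.symm hij)]
      simp
  refine ⟨ψ, ?_, ?_⟩
  · intro x y
    rw [hψ, hψ, Cfsg.Agent.Lib.Classical.SympForm.sympForm_eq_sum, hψ₀ y, map_sum]
    refine Finset.sum_congr rfl fun i _ => ?_
    rw [map_add, map_smul, map_smul, hBe, hBf, smul_eq_mul, smul_eq_mul, sub_eq_add_neg, neg_eq h2]
    ring
  · rcases h6 with ⟨ha, hb⟩ | ⟨ha, hb⟩
    · left
      intro x
      rw [hψ, hQψ]
      unfold Qplus
      refine Finset.sum_congr rfl fun i _ => ?_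
      by_cases hi : i = i₀
      · subst hi; rw [ha, hb]; ring
      · rw [(h5 i hi).1, (h5 i hi).2]; ring
    · right
      intro x
      rw [hψ, hQψ]
      have hterm : ∀ i, x (Sum.inl i) ^ 2 * Q (e i) + x (Sum.inr i) ^ 2 * Q (f i) +
          x (Sum.inl i) * x (Sum.inr i) = x (Sum.inl i) * x (Sum.inr i) +
            (if i = i₀ then x (Sum.inl i) ^ 2 + c₀ * x (Sum.inr i) ^ 2 else 0) := by
        intro i
        by_cases hi : i = i₀
        · subst hi; rw [ha, hb, if_pos rfl]; ring
        · rw [(h5 i hi).1, (h5 i hi).2, if_neg hi]; ring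
      rw [Finset.sum_congr rfl (fun i _ => hterm i), Finset.sum_add_distrib, Finset.sum_ite_eq']
      simp only [Finset.mem_univ, if_true, Qminus, Qplus]
      ring

end main

end Cfsg.Agent.Lib.NCov.B2
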