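/-
Cubic extensions of finite fields in characteristic 3: the Frobenius, the trace, and the model
`E × E` of a 6-dimensional symplectic space.
-/
import Cfsg.Agent.Lib.NCov.Defs

set_option autoImplicit false

open Polynomial Module Cfsg.Agent.Lib.NCov.Defs

namespace Cfsg.Agent.Lib.NCov.Cubic

variable {F E : Type*} [Field F] [Fintype F] [Field E] [Fintype E] [Algebra F E]

/-- The Frobenius of `E / F`. -/
noncomputable def sig (F E : Type*) [Field F] [Fintype F] [Field E] [Fintype E] [Algebra F E] :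
    E ≃ₐ[F] E := FiniteField.frobeniusAlgEquivOfAlgebraic F E

theorem sig_apply (x : E) : sig F E x = x ^ Fintype.card F := rfl

theorem sig_sig_apply (x : E) : sig F E (sig F E x) = x ^ (Fintype.card F ^ 2) := by
  rw [sig_apply, sig_apply, ← pow_mul, sq]

theorem tr_eq (h3 : finrank F E = 3) (x : E) :
    algebraMap F E (Algebra.trace F E x) = x + sig F E x + sig F E (sig F E x) := by
  rw [FiniteField.algebraMap_trace_eq_sum_pow, h3, sig_sig_apply, sig_apply,
    Nat.card_eq_fintype_card]
  simp [Finset.sum_range_succ]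

theorem sig3 (h3 : finrank F E = 3) (x : E) : sig F E (sig F E (sig F E x)) = x := by
  rw [sig_apply, sig_sig_apply, ← pow_mul]
  have hc : Fintype.card E = Fintype.card F ^ 3 := by
    rw [← h3]; exact Module.card_eq_pow_finrank (K := F) (V := E)
  have : Fintype.card F * Fintype.card F ^ 2 = Fintype.card E := by rw [hc]; ring
  rw [show (Fintype.card F) ^ 2 * (Fintype.card F) = Fintype.card E by rw [← this]; ring]
  exact FiniteField.pow_card x

theorem tr_sig (h3 : finrank F E = 3) (x : E) :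
    Algebra.trace F E (sig F E x) = Algebra.trace F E x := by
  apply (algebraMap F E).injective
  rw [tr_eq h3, tr_eq h3, sig3 h3]
  ring

theorem tr_mul_sig (h3 : finrank F E = 3) (x y : E) :
    Algebra.trace F E (sig F E x * y) =
      Algebra.trace F E (x * sig F E (sig F E y)) := by
  rw [← tr_sig h3 (x * sig F E (sig F E y)), map_mul (sig F E), sig3 h3]

theorem tr_nondeg {x : E} (h : ∀ y : E, Algebra.trace F E (x * y) = 0) : x = 0 := by
  have hnd := traceForm_nondegenerate F E
  have := hnd.1 x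
  exact this (fun y => by simpa [Algebra.traceForm_apply] using h y)

theorem tr_surj : Function.Surjective (Algebra.trace F E) := Algebra.trace_surjective F E

theorem tr_algebraMap (h3 : finrank F E = 3) (t : F) : Algebra.trace F E (algebraMap F E t) = 3 * t := by
  rw [Algebra.trace_algebraMap, h3]; simp

/-- In characteristic 3, an element of trace 1 and with prescribed trace of the square. -/
theorem exists_tr_sq (hF3 : (3 : F) = 0) (h3 : finrank F E = 3) (A : F) :
    ∃ θ : E, Algebra.trace F E θ = 1 ∧ Algebra.trace F E (θ * θ) = A := by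
  obtain ⟨v, hv⟩ := tr_surj (F := F) (E := E) 1
  have h2 : (2 : F) ≠ 0 := by
    intro h
    have : (1 : F) = 3 - 2 := by norm_num
    rw [hF3, h] at this
    simp at this
  refine ⟨v + algebraMap F E ((A - Algebra.trace F E (v * v)) / 2), ?_, ?_⟩
  · rw [map_add, hv, tr_algebraMap h3, hF3]; simp
  · set t := (A - Algebra.trace F E (v * v)) / 2 with ht
    have : (v + algebraMap F E t) * (v + algebraMap F E t) =
        v * v + t • (v + v) + algebraMap F E t * algebraMap F E t := by
      rw [Algebra.smul_def]; ring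
    rw [this, map_add, map_add, map_smul, map_add, hv, ← map_mul, tr_algebraMap h3, hF3,
      smul_eq_mul, ht]
    field_simp
    ring

/-- An orthonormal basis `θ, σ θ, σ² θ` of `E / F` for the trace form. -/
theorem exists_orth (hF3 : (3 : F) = 0) (h3 : finrank F E = 3) :
    ∃ θ : E, (∀ x : E, x = Algebra.trace F E (x * θ) • θ +
        Algebra.trace F E (x * sig F E θ) • sig F E θ +
        Algebra.trace F E (x * sig F E (sig F E θ)) • sig F E (sig F E θ)) ∧
      (∀ x y : E, Algebra.trace F E (x * y) =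
        Algebra.trace F E (x * θ) * Algebra.trace F E (y * θ) +
        Algebra.trace F E (x * sig F E θ) * Algebra.trace F E (y * sig F E θ) +
        Algebra.trace F E (x * sig F E (sig F E θ)) * Algebra.trace F E (y * sig F E (sig F E θ))) := by
  obtain ⟨θ, h1, h2⟩ := exists_tr_sq (E := E) hF3 h3 1
  set θ₁ := sig F E θ with hθ₁
  set θ₂ := sig F E θ₁ with hθ₂
  have hσθ₂ : sig F E θ₂ = θ := sig3 h3 θ
  -- norms
  have t0 : Algebra.trace F E θ₁ = 1 := by rw [hθ₁, tr_sig h3, h1]
  have t00 : Algebra.trace F E (θ₁ * θ₁) = 1 := by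
    rw [hθ₁, ← map_mul, tr_sig h3, h2]
  have t11 : Algebra.trace F E (θ₂ * θ₂) = 1 := by
    rw [hθ₂, ← map_mul, tr_sig h3, t00]
  -- orthogonality
  have hsum : θ + θ₁ + θ₂ = algebraMap F E 1 := by
    rw [← h1, tr_eq h3]
  have o0 : Algebra.trace F E (θ * θ₁) = 0 := by
    -- `τ θ · τ θ = τ θ² + 2 τ (θ σ θ)`
    have h4 : θ * (θ + θ₁ + θ₂) = θ := by rw [hsum]; simp
    have h5 := congrArg (Algebra.trace F E) h4
    rw [mul_add, mul_add, map_add, map_add, h1, h2] at h5
    have h6 : Algebra.trace F E (θ * θ₂) = Algebra.trace F E (θ * θ₁) := by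
      have := tr_sig h3 (θ * θ₂)
      rw [map_mul, hσθ₂, ← hθ₁, mul_comm] at this
      exact this.symm
    rw [h6] at h5
    have h7 : (2 : F) * Algebra.trace F E (θ * θ₁) = 0 := by linear_combination h5
    have h8 : (2 : F) ≠ 0 := by
      intro h
      have : (1 : F) = 3 - 2 := by norm_num
      rw [hF3, h] at this
      simp at this
    exact (mul_eq_zero.1 h7).resolve_left h8
  have o1 : Algebra.trace F E (θ₁ * θ₂) = 0 := by
    rw [hθ₂, hθ₁, ← map_mul, tr_sig h3, ← hθ₁, o0]
  have o2 : Algebra.trace F E (θ * θ₂) = 0 := by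
    have := tr_sig h3 (θ * θ₂)
    rw [map_mul, hσθ₂, ← hθ₁, mul_comm] at this
    rw [← this, o0]
  -- the map from coordinates
  let L : (Fin 3 → F) →ₗ[F] E :=
    { toFun := fun c => c 0 • θ + c 1 • θ₁ + c 2 • θ₂
      map_add' := fun c d => by simp only [Pi.add_apply, add_smul]; abel
      map_smul' := fun r c => by
        simp only [Pi.smul_apply, smul_eq_mul, mul_smul, RingHom.id_apply, smul_add] }
  have hL : ∀ c, L c = c 0 • θ + c 1 • θ₁ + c 2 • θ₂ := fun _ => rfl
  have coord0 : ∀ c, Algebra.trace F E (L c * θ) = c 0 := by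
    intro c
    rw [hL, add_mul, add_mul, smul_mul_assoc, smul_mul_assoc, smul_mul_assoc, map_add, map_add,
      map_smul, map_smul, map_smul, h2, mul_comm θ₁ θ, o0, mul_comm θ₂ θ, o2]
    simp
  have coord1 : ∀ c, Algebra.trace F E (L c * θ₁) = c 1 := by
    intro c
    rw [hL, add_mul, add_mul, smul_mul_assoc, smul_mul_assoc, smul_mul_assoc, map_add, map_add,
      map_smul, map_smul, map_smul, o0, t00, mul_comm θ₂ θ₁, o1]
    simp
  have coord2 : ∀ c, Algebra.trace F E (L c * θ₂) = c 2 := by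
    intro c
    rw [hL, add_mul, add_mul, smul_mul_assoc, smul_mul_assoc, smul_mul_assoc, map_add, map_add,
      map_smul, map_smul, map_smul, o2, o1, t11]
    simp
  have hLinj : Function.Injective L := by
    rw [← LinearMap.ker_eq_bot, LinearMap.ker_eq_bot']
    intro c hc
    funext i
    have h0 := coord0 c
    have h1' := coord1 c
    have h2' := coord2 c
    rw [hc] at h0 h1' h2'
    simp only [zero_mul, map_zero] at h0 h1' h2'
    fin_cases i
    · exact h0.symm
    · exact h1'.symm
    · exact h2'.symm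
  have hLsurj : Function.Surjective L :=
    (LinearMap.injective_iff_surjective_of_finrank_eq_finrank (by simp [h3])).1 hLinj
  refine ⟨θ, fun x => ?_, fun x y => ?_⟩
  · obtain ⟨c, rfl⟩ := hLsurj x
    rw [coord0, coord1, coord2]
    rfl
  · obtain ⟨c, rfl⟩ := hLsurj x
    rw [coord0, coord1, coord2]
    have : L c * y = c 0 • (θ * y) + c 1 • (θ₁ * y) + c 2 • (θ₂ * y) := by
      rw [hL, add_mul, add_mul, smul_mul_assoc, smul_mul_assoc, smul_mul_assoc]
    rw [this, map_add, map_add, map_smul, map_smul, map_smul, smul_eq_mul, smul_eq_mul, smul_eq_mul,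
      mul_comm θ y, mul_comm θ₁ y, mul_comm θ₂ y]

/-! ### The model -/

section Model

variable {V : Type*} [AddCommGroup V] [Module F V]

/-- The `E`-structure transported along `Ψ`. -/
noncomputable def mOf (Ψ : (E × E) ≃ₗ[F] V) : E →ₐ[F] Module.End F V :=
  (Ψ.conjAlgEquiv F).toAlgHom.comp (Algebra.lsmul F F (E × E))

theorem mOf_apply (Ψ : (E × E) ≃ₗ[F] V) (a : E) (p : E × E) : mOf Ψ a (Ψ p) = Ψ (a • p) := by
  simp [mOf, LinearEquiv.conjAlgEquiv_apply]

theorem mOf_selfadj (Ψ : (E × E) ≃ₗ[F] V) (B : LinearMap.BilinForm F V)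
    (hΨ : ∀ p q : E × E, B (Ψ p) (Ψ q) =
      Algebra.trace F E (p.1 * q.2) - Algebra.trace F E (p.2 * q.1)) (a : E) (x y : V) :
    B (mOf Ψ a x) y = B x (mOf Ψ a y) := by
  obtain ⟨p, rfl⟩ := Ψ.surjective x
  obtain ⟨q, rfl⟩ := Ψ.surjective y
  rw [mOf_apply, mOf_apply, hΨ, hΨ]
  simp only [Prod.smul_fst, Prod.smul_snd, smul_eq_mul]
  congr 2 <;> ring

theorem mOf_comm (Ψ : (E × E) ≃ₗ[F] V) (g : V → V) (G : E × E → E × E)
    (hg : ∀ p, g (Ψ p) = Ψ (G p)) (hG : ∀ (a : E) p, G (a • p) = a • G p) (a : E) (v : V) :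
    g (mOf Ψ a v) = mOf Ψ a (g v) := by
  obtain ⟨p, rfl⟩ := Ψ.surjective v
  rw [mOf_apply, hg, hG, hg, mOf_apply]

theorem mOf_normalizes (Ψ : (E × E) ≃ₗ[F] V) (g : V →ₗ[F] V) (G : E × E → E × E)
    (hg : ∀ p, g (Ψ p) = Ψ (G p)) (τ : E → E) (hG : ∀ (a : E) p, G (a • p) = τ a • G p) :
    Normalizes g (mOf Ψ) := by
  intro a
  refine ⟨τ a, fun v => ?_⟩
  obtain ⟨p, rfl⟩ := Ψ.surjective v
  rw [mOf_apply, hg, hG, hg, mOf_apply]

end Model

end Cfsg.Agent.Lib.NCov.Cubic
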