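import Cfsg.Agent.Lib.NCov.Defs
import Cfsg.Agent.Lib.HermCount.Lines

/-!
An irreducible isometry of a Hermitian space over a field with `q²` elements lives in odd
dimension. On the field `F[T]` the adjoint is an involution, so it is `x ↦ x ^ r`
with `r² = q^(2n)`, and on `F` it is `x ↦ x ^ q`.
-/

set_option autoImplicit false

namespace Cfsg.Agent.Lib.NCov.D1

open Module Polynomial Cfsg.Agent.Lib.HermCount.Space Cfsg.Agent.Lib.HermCount.Field

/-- An involutive non-trivial ring automorphism of a finite field is a Frobenius power `x ↦ x ^ r`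
with `r² = |E|`. -/
theorem inv_eq_pow {E : Type*} [Field E] [Finite E] (τ : E →+* E) (hτ : ∀ x, τ (τ x) = x)
    (hne : ∃ x, τ x ≠ x) : ∃ r : ℕ, Nat.card E = r ^ 2 ∧ ∀ x, τ x = x ^ r := by
  classical
  haveI := Fintype.ofFinite E
  let E₀ : Subfield E := τ.eqLocusField (RingHom.id E)
  have hmem : ∀ x, x ∈ E₀ ↔ τ x = x := fun x => Iff.rfl
  haveI : Fintype E₀ := Fintype.ofFinite _
  obtain ⟨r, hr⟩ : ∃ r, r = Fintype.card E₀ := ⟨_, rfl⟩
  have hr1 : 1 < r := by rw [hr]; exact Fintype.one_lt_card
  let φ := FiniteField.frobeniusAlgHom E₀ E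
  have hφ : ∀ x, φ x = x ^ r := by
    intro x
    rw [hr]
    rfl
  have hφt : ∀ t : E₀, (t : E) ^ r = t := by
    intro t
    have := FiniteField.pow_card t
    rw [← hr] at this
    exact congrArg Subtype.val this
  have hfix : ∀ x : E, x ^ r = x → τ x = x := by
    intro x hx
    have hP : (X ^ r - X : E[X]) ≠ 0 := FiniteField.X_pow_card_sub_X_ne_zero E hr1
    let A : Finset E := Finset.univ.image (Subtype.val : E₀ → E)
    have hAc : A.card = r := by
      rw [Finset.card_image_of_injective _ Subtype.val_injective, Finset.card_univ, hr]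
    have hsub : A ⊆ (X ^ r - X : E[X]).roots.toFinset := by
      intro y hy
      obtain ⟨t, -, rfl⟩ := Finset.mem_image.mp hy
      rw [Multiset.mem_toFinset, mem_roots hP]
      simp [IsRoot, hφt t]
    have hle : (X ^ r - X : E[X]).roots.toFinset.card ≤ A.card := by
      rw [hAc]
      refine (Multiset.toFinset_card_le _).trans ((card_roots' _).trans ?_)
      rw [FiniteField.X_pow_card_sub_X_natDegree_eq E hr1]
    have heq := Finset.eq_of_subset_of_card_le hsub hle
    have hxm : x ∈ A := by
      rw [heq, Multiset.mem_toFinset, mem_roots hP]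
      simp [IsRoot, hx]
    obtain ⟨t, -, rfl⟩ := Finset.mem_image.mp hxm
    exact t.2
  have hpow : ∀ x, τ x = x ^ r := by
    intro x
    have ht : τ (x + τ x) = x + τ x := by rw [map_add, hτ, add_comm]
    have hn : τ (x * τ x) = x * τ x := by rw [map_mul, hτ, mul_comm]
    let t : E₀ := ⟨x + τ x, ht⟩
    let n : E₀ := ⟨x * τ x, hn⟩
    have h0 : x ^ 2 - (t : E) * x + (n : E) = 0 := by
      change x ^ 2 - (x + τ x) * x + (x * τ x) = 0
      ring
    have h1 : (x ^ r) ^ 2 - (t : E) * x ^ r + (n : E) = 0 := by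
      have := congrArg φ h0
      rw [map_add, map_sub, map_mul, map_pow, hφ, map_zero] at this
      have e1 : φ (t : E) = t := by rw [hφ]; exact hφt t
      have e2 : φ (n : E) = n := by rw [hφ]; exact hφt n
      rwa [e1, e2] at this
    have h2 : (x ^ r - x) * (x ^ r - τ x) = 0 := by
      have e1 : (t : E) = x + τ x := rfl
      have e2 : (n : E) = x * τ x := rfl
      rw [e1, e2] at h1
      linear_combination h1
    rcases mul_eq_zero.mp h2 with h3 | h3
    · have h4 : x ^ r = x := sub_eq_zero.mp h3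
      rw [hfix x h4, h4]
    · exact (sub_eq_zero.mp h3).symm
  refine ⟨r, ?_, hpow⟩
  have hsq : ∀ x : E, x ^ (r ^ 2) = x := by
    intro x
    have h1 := hτ x
    rw [hpow (τ x), hpow x, ← pow_mul, ← pow_two] at h1
    exact h1
  have hr2 : 1 < r ^ 2 := Nat.one_lt_pow (by norm_num) hr1
  have hle : Nat.card E ≤ r ^ 2 := by
    have hP : (X ^ (r ^ 2) - X : E[X]) ≠ 0 := FiniteField.X_pow_card_sub_X_ne_zero E hr2
    have hsub : (Finset.univ : Finset E) ⊆ (X ^ (r ^ 2) - X : E[X]).roots.toFinset := by
      intro x _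
      rw [Multiset.mem_toFinset, mem_roots hP]
      simp [IsRoot, hsq x]
    have h1 := Finset.card_le_card hsub
    have h2 : (X ^ (r ^ 2) - X : E[X]).roots.toFinset.card ≤ r ^ 2 := by
      refine (Multiset.toFinset_card_le _).trans ((card_roots' _).trans ?_)
      rw [FiniteField.X_pow_card_sub_X_natDegree_eq E hr2]
    rw [Nat.card_eq_fintype_card]
    rw [Finset.card_univ] at h1
    exact h1.trans h2
  have hcard : Nat.card E = r ^ finrank E₀ E := by
    rw [Nat.card_eq_fintype_card, Module.card_eq_pow_finrank (K := E₀) (V := E), hr]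
  have hd0 : finrank E₀ E ≠ 0 := by
    intro h0
    rw [h0, pow_zero] at hcard
    have := Finite.one_lt_card (α := E)
    omega
  have hd1 : finrank E₀ E ≠ 1 := by
    intro h0
    rw [h0, pow_one] at hcard
    obtain ⟨x, hx⟩ := hne
    apply hx
    apply hfix
    have := FiniteField.pow_card x
    rwa [← Nat.card_eq_fintype_card, hcard] at this
  have hd2 : finrank E₀ E ≤ 2 := by
    rw [hcard] at hle
    exact (Nat.pow_le_pow_iff_right hr1).mp hle
  have hd : finrank E₀ E = 2 := by omega
  rw [hcard, hd]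

variable {F V : Type*} [Field F] [Fintype F] [AddCommGroup V] [Module F V] [Finite V] {q : ℕ}
  {h : V → V → F}

theorem D1_irr_odd (hF : Fintype.card F = q ^ 2) (S : HSpace q h) [Nontrivial V] (T : V →ₗ[F] V)
    (hT : ∀ x y, h (T x) (T y) = h x y)
    (hirr : ∀ W : Submodule F V, W.map T ≤ W → W = ⊥ ∨ W = ⊤) : Odd (finrank F V) := by
  classical
  have : Module.Finite F V := Module.Finite.of_finite
  have hTinj : Function.Injective T := by
    rw [injective_iff_map_eq_zero]
    intro x hx
    apply S.nd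
    intro y
    rw [← hT, hx, S.zero_left]
  have hint : IsIntegral F T := Algebra.IsIntegral.isIntegral T
  obtain ⟨p, hp⟩ : ∃ p, p = minpoly F T := ⟨_, rfl⟩
  have hpm : p.Monic := hp ▸ minpoly.monic hint
  have hpT : aeval T p = 0 := hp ▸ minpoly.aeval F T
  have hpdvd : ∀ f : F[X], aeval T f = 0 → p ∣ f := fun f hf => hp ▸ minpoly.dvd F T hf
  have hpirr : Irreducible p := by
    have hcomm : ∀ f : F[X], ∀ x, T (aeval T f x) = aeval T f (T x) := by
      intro f x
      have h1 : T * aeval T f = aeval T f * T := by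
        calc T * aeval T f = aeval T X * aeval T f := by rw [aeval_X]
          _ = aeval T (X * f) := (map_mul _ _ _).symm
          _ = aeval T (f * X) := by rw [mul_comm]
          _ = aeval T f * T := by rw [map_mul, aeval_X]
      exact congrArg (fun g : Module.End F V => g x) h1
    rw [irreducible_iff]
    refine ⟨hp ▸ minpoly.not_isUnit F T, ?_⟩
    intro f g hfg
    have hfgT : aeval T f * aeval T g = 0 := by rw [← map_mul, ← hfg, hpT]
    have hW : (LinearMap.ker (aeval T f)).map T ≤ LinearMap.ker (aeval T f) := by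
      rintro _ ⟨x, hx, rfl⟩
      have hx' : aeval T f x = 0 := hx
      change aeval T f (T x) = 0
      rw [← hcomm, hx', map_zero]
    rcases hirr _ hW with h0 | h0
    · left
      have hg0 : aeval T g = 0 := by
        apply LinearMap.ext
        intro x
        have h1 : aeval T f (aeval T g x) = 0 := by
          have := congrArg (fun k : Module.End F V => k x) hfgT
          simpa using this
        have h2 : aeval T g x ∈ LinearMap.ker (aeval T f) := h1
        rw [h0, Submodule.mem_bot] at h2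
        simpa using h2
      obtain ⟨c, rfl⟩ := hpdvd g hg0
      have h3 : p * (f * c) = p * 1 := by rw [mul_one]; nth_rw 2 [hfg]; ring
      have h4 := mul_left_cancel₀ hpm.ne_zero h3
      exact IsUnit.of_mul_eq_one _ h4
    · right
      have hf0 : aeval T f = 0 := LinearMap.ker_eq_top.mp h0
      obtain ⟨c, rfl⟩ := hpdvd f hf0
      have h3 : p * (c * g) = p * 1 := by rw [mul_one]; nth_rw 2 [hfg]; ring
      have h4 := mul_left_cancel₀ hpm.ne_zero h3
      rw [mul_comm] at h4
      exact IsUnit.of_mul_eq_one _ h4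
  haveI : Fact (Irreducible p) := ⟨hpirr⟩
  have hnt : Nontrivial (Module.End F V) := inferInstance
  obtain ⟨ev, hev⟩ : ∃ ev : AdjoinRoot p →+* Module.End F V,
      ∀ f, ev (AdjoinRoot.mk p f) = aeval T f := by
    refine ⟨Ideal.Quotient.lift _ (aeval T : F[X] →ₐ[F] Module.End F V).toRingHom ?_, ?_⟩
    · intro a ha
      obtain ⟨c, rfl⟩ := Ideal.mem_span_singleton.mp ha
      change aeval T (p * c) = 0
      rw [map_mul, hpT, zero_mul]
    · intro f
      rfl
  have hevinj : Function.Injective ev := ev.injective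
  have hevθ : ev (AdjoinRoot.root p) = T := by
    rw [← AdjoinRoot.mk_X, hev, aeval_X]
  have hevof : ∀ c, ev (AdjoinRoot.of p c) = algebraMap F _ c := by
    intro c
    rw [AdjoinRoot.of, RingHom.comp_apply, hev]
    simp
  obtain ⟨θ, hθ⟩ : ∃ θ, θ = AdjoinRoot.root p := ⟨_, rfl⟩
  rw [← hθ] at hevθ
  have hθ0 : θ ≠ 0 := by
    intro h0
    rw [h0, map_zero] at hevθ
    obtain ⟨x, hx⟩ := exists_ne (0 : V)
    apply hx
    apply hTinj
    rw [← hevθ, map_zero]
    rfl
  have hcommev : ∀ x z, T (ev x z) = ev x (T z) := by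
    intro x z
    have h1 : ev θ * ev x = ev x * ev θ := by rw [← map_mul, ← map_mul, mul_comm]
    rw [hevθ] at h1
    exact congrArg (fun k : Module.End F V => k z) h1
  have hTT' : ∀ x, T (ev θ⁻¹ x) = x := by
    intro x
    have h1 : ev θ * ev θ⁻¹ = 1 := by rw [← map_mul, mul_inv_cancel₀ hθ0, map_one]
    rw [hevθ] at h1
    exact congrArg (fun k : Module.End F V => k x) h1
  -- the adjoint on polynomials
  obtain ⟨σ, hσ⟩ : ∃ σ : F →+* AdjoinRoot p, σ = (AdjoinRoot.of p).comp (frobHom hF) := ⟨_, rfl⟩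
  have hσc : ∀ c, σ c = AdjoinRoot.of p (c ^ q) := by intro c; rw [hσ]; rfl
  have key : ∀ (f : F[X]) (a b : V), h (aeval T f a) b = h a (ev (f.eval₂ σ θ⁻¹) b) := by
    intro f
    induction f using Polynomial.induction_on with
    | C c =>
      intro a b
      rw [eval₂_C, aeval_C, hσc, hevof, Module.algebraMap_end_apply, Module.algebraMap_end_apply,
        S.smul_left, S.smul_right hF, frob_frob hF]
    | add f g hf hg =>
      intro a b
      rw [map_add, eval₂_add, map_add, LinearMap.add_apply, LinearMap.add_apply, S.add_left,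
        S.add_right hF, hf, hg]
    | monomial n c hn =>
      intro a b
      have e1 : aeval T (C c * X ^ (n + 1)) a = aeval T (C c * X ^ n) (T a) := by
        rw [pow_succ, ← mul_assoc, map_mul, aeval_X]
        rfl
      have e2 : (C c * X ^ (n + 1) : F[X]).eval₂ σ θ⁻¹
          = (C c * X ^ n : F[X]).eval₂ σ θ⁻¹ * θ⁻¹ := by
        simp only [eval₂_mul, eval₂_C, eval₂_pow, eval₂_X, pow_succ]
        ring
      rw [e1, e2, hn, map_mul, Module.End.mul_apply, ← hT a, hcommev, hTT']
  have hzero : p.eval₂ σ θ⁻¹ = 0 := by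
    apply hevinj
    rw [map_zero]
    apply LinearMap.ext
    intro b
    apply S.nd
    intro a
    apply S.zero_of_zero hF
    rw [← key p a b, hpT]
    simp [S.zero_left]
  obtain ⟨τ, hτmk⟩ : ∃ τ : AdjoinRoot p →+* AdjoinRoot p,
      ∀ f, τ (AdjoinRoot.mk p f) = f.eval₂ σ θ⁻¹ :=
    ⟨AdjoinRoot.lift σ θ⁻¹ hzero, fun f => AdjoinRoot.lift_mk hzero f⟩
  have rel : ∀ x a b, h (ev x a) b = h a (ev (τ x) b) := by
    intro x a b
    obtain ⟨f, rfl⟩ := AdjoinRoot.mk_surjective x
    rw [hev, hτmk, key]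
  have hττ : ∀ x, τ (τ x) = x := by
    intro x
    apply hevinj
    apply LinearMap.ext
    intro b
    have h0 : ev (τ (τ x)) b - ev x b = 0 := by
      apply S.nd
      intro a
      apply S.zero_of_zero hF
      rw [S.sub_right hF, ← rel (τ x) a b, S.conj b (ev (τ x) a), ← rel x b a, ← S.conj (ev x b) a, sub_self]
    exact sub_eq_zero.mp h0
  have hτof : ∀ c, τ (AdjoinRoot.of p c) = AdjoinRoot.of p (c ^ q) := by
    intro c
    rw [← AdjoinRoot.mk_C, hτmk, eval₂_C, hσc]
  have hofinj : Function.Injective (AdjoinRoot.of p) := (AdjoinRoot.of p).injective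
  obtain ⟨c₀, hc₀⟩ := exists_frob_ne hF
  have hne : ∃ x, τ x ≠ x := by
    refine ⟨AdjoinRoot.of p c₀, ?_⟩
    rw [hτof]
    exact fun h0 => hc₀ (hofinj h0)
  obtain ⟨v, hv⟩ := exists_ne (0 : V)
  have hψinj : Function.Injective (fun x => ev x v) := by
    intro x y hxy
    by_contra hne'
    have hz : x - y ≠ 0 := sub_ne_zero.mpr hne'
    have h1 : ev (x - y) v = 0 := by
      rw [map_sub, LinearMap.sub_apply]
      exact sub_eq_zero.mpr hxy
    have h2 : ev ((x - y)⁻¹ * (x - y)) v = 0 := by
      rw [map_mul, Module.End.mul_apply, h1, map_zero]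
    rw [inv_mul_cancel₀ hz, map_one] at h2
    exact hv h2
  have hEfin : Finite (AdjoinRoot p) := Finite.of_injective _ hψinj
  let W : Submodule F V :=
    { carrier := {y | ∃ x, ev x v = y}
      add_mem' := by
        rintro _ _ ⟨x, rfl⟩ ⟨y, rfl⟩
        exact ⟨x + y, by rw [map_add, LinearMap.add_apply]⟩
      zero_mem' := ⟨0, by rw [map_zero]; rfl⟩
      smul_mem' := by
        rintro c _ ⟨x, rfl⟩
        exact ⟨AdjoinRoot.of p c * x, by
          rw [map_mul, hevof, Module.End.mul_apply, Module.algebraMap_end_apply]⟩ }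
  have hWT : W.map T ≤ W := by
    rintro _ ⟨_, ⟨x, rfl⟩, rfl⟩
    exact ⟨θ * x, by rw [map_mul, Module.End.mul_apply, hevθ]⟩
  have hψsurj : Function.Surjective (fun x => ev x v) := by
    intro y
    rcases hirr W hWT with h0 | h0
    · exfalso
      have h1 : v ∈ W := ⟨1, by rw [map_one]; rfl⟩
      rw [h0, Submodule.mem_bot] at h1
      exact hv h1
    · have h1 : y ∈ W := by rw [h0]; trivial
      exact h1
  have hcardE : Nat.card (AdjoinRoot p) = Nat.card V :=
    Nat.card_congr (Equiv.ofBijective _ ⟨hψinj, hψsurj⟩)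
  obtain ⟨r, hr, hτr⟩ := inv_eq_pow τ hττ hne
  have hcardV : Nat.card V = (q ^ finrank F V) ^ 2 := by
    haveI := Fintype.ofFinite V
    rw [Nat.card_eq_fintype_card, Module.card_eq_pow_finrank (K := F) (V := V), hF, ← pow_mul,
      ← pow_mul, mul_comm]
  have hr' : r = q ^ finrank F V := by
    rw [hcardE, hcardV] at hr
    exact ((Nat.pow_left_inj (by norm_num : 2 ≠ 0)).mp hr).symm
  by_contra hodd
  rw [Nat.not_odd_iff_even] at hodd
  obtain ⟨m, hm⟩ := hodd
  apply hc₀
  have h1 := hτr (AdjoinRoot.of p c₀)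
  rw [hτof, ← map_pow, hr'] at h1
  have h2 := hofinj h1
  rw [h2, hm]
  have e : q ^ (m + m) = Fintype.card F ^ m := by rw [hF, ← pow_mul]; ring_nf
  rw [e, FiniteField.pow_card_pow]

end Cfsg.Agent.Lib.NCov.D1
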