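import Cfsg.Agent.Lib.NCov.D1

/-!
An isometry of a 4-dimensional Hermitian space has an anisotropic eigenvector or an invariant
totally isotropic plane.
-/

set_option autoImplicit false

namespace Cfsg.Agent.Lib.NCov.E1

open Module Cfsg.Agent.Lib.HermCount.Space Cfsg.Agent.Lib.HermCount.Field
open Cfsg.Agent.Lib.HermCount.Lines Cfsg.Agent.Lib.NCov.D1

variable {F V : Type*} [Field F] [Fintype F] [AddCommGroup V] [Module F V] [Finite V] {q : ℕ}
  {h : V → V → F}

/-- The orthogonal complement of a subspace, in the first variable. -/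
def perpS (S : HSpace q h) (W : Submodule F V) : Submodule F V where
  carrier := {x | ∀ w ∈ W, h x w = 0}
  add_mem' {a b} ha hb := by
    intro w hw
    rw [S.add_left, ha w hw, hb w hw, add_zero]
  zero_mem' := fun w _ => S.zero_left w
  smul_mem' c {x} hx := by
    intro w hw
    rw [S.smul_left, hx w hw, mul_zero]

theorem mem_perpS (S : HSpace q h) (W : Submodule F V) (x : V) :
    x ∈ perpS S W ↔ ∀ w ∈ W, h x w = 0 := Iff.rfl

theorem finrank_perpS (S : HSpace q h) (hF : Fintype.card F = q ^ 2) (W : Submodule F V) :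
    finrank F W + finrank F (perpS S W) = finrank F V := by
  classical
  have : Module.Finite F V := Module.Finite.of_finite
  have hq2 := two_le hF
  let b := Module.finBasis F W
  let φ : V →ₗ[F] (Fin (finrank F W) → F) :=
    { toFun := fun y i => h y (b i)
      map_add' := fun x y => by ext i; simp [S.add_left]
      map_smul' := fun a x => by ext i; simp [S.smul_left] }
  have hφ : ∀ y i, φ y i = h y (b i) := fun _ _ => rfl
  have hker : LinearMap.ker φ = perpS S W := by
    ext y
    rw [LinearMap.mem_ker, mem_perpS]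
    constructor
    · intro hy w hw
      have h1 : ∀ i, h y (b i) = 0 := fun i => by rw [← hφ, hy]; rfl
      have h3 : w = ∑ i, b.repr ⟨w, hw⟩ i • ((b i : W) : V) := by
        have e := congrArg Subtype.val (b.sum_repr ⟨w, hw⟩)
        simp only [Submodule.coe_sum, Submodule.coe_smul] at e
        exact e.symm
      have key : ∀ s : Finset (Fin (finrank F W)), h y (∑ i ∈ s, b.repr ⟨w, hw⟩ i • ((b i : W) : V)) = 0 := by
        intro s
        induction s using Finset.induction_on with
        | empty => simp [S.zero_right hF]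
        | insert a s ha ih =>
          rw [Finset.sum_insert ha, S.add_right hF, ih, S.smul_right hF, h1, mul_zero, add_zero]
      rw [h3]
      exact key _
    · intro hy
      ext i
      exact hy _ (b i).2
  have hsurj : Function.Surjective φ := by
    rw [← LinearMap.range_eq_top]
    by_contra hne
    obtain ⟨f, hf0, hf⟩ := Submodule.exists_le_ker_of_lt_top _ (lt_top_iff_ne_top.mpr hne)
    apply hf0
    -- the coefficients
    let c : Fin (finrank F W) → F := fun i => f (fun j => if i = j then 1 else 0)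
    have hfy : ∀ y : Fin (finrank F W) → F, f y = ∑ i, y i * c i := by
      intro y
      rw [LinearMap.pi_apply_eq_sum_univ f y]
      simp only [smul_eq_mul, c]
    have hzero : ∀ x, ∑ i, h x (b i) * c i = 0 := by
      intro x
      have h1 : φ x ∈ LinearMap.ker f := hf ⟨x, rfl⟩
      rw [LinearMap.mem_ker, hfy] at h1
      exact h1
    have hw0 : ∑ i, (c i) ^ q • ((b i : W) : V) = 0 := by
      apply S.nd
      intro x
      apply S.zero_of_zero hF
      have key : ∀ s : Finset (Fin (finrank F W)),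
          h x (∑ i ∈ s, (c i) ^ q • ((b i : W) : V)) = ∑ i ∈ s, h x (b i) * c i := by
        intro s
        induction s using Finset.induction_on with
        | empty => simp [S.zero_right hF]
        | insert a s ha ih =>
          rw [Finset.sum_insert ha, Finset.sum_insert ha, S.add_right hF, ih, S.smul_right hF,
            frob_frob hF, mul_comm]
      rw [key, hzero]
    have hci : ∀ i, (c i) ^ q = 0 := by
      apply Fintype.linearIndependent_iff.mp b.linearIndependent
      apply Subtype.ext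
      simpa only [Submodule.coe_sum, Submodule.coe_smul, Submodule.coe_zero] using hw0
    apply LinearMap.ext
    intro y
    rw [hfy, LinearMap.zero_apply]
    apply Finset.sum_eq_zero
    intro i _
    rw [pow_eq_zero_iff (by omega) |>.mp (hci i), mul_zero]
  have h1 := LinearMap.finrank_range_add_finrank_ker φ
  rw [LinearMap.range_eq_top.mpr hsurj, finrank_top, hker] at h1
  rw [← h1]
  simp

/-- The case of an invariant isotropic line. -/
theorem case_line (hF : Fintype.card F = q ^ 2) (S : HSpace q h) (hdim : finrank F V = 4)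
    (T : V →ₗ[F] V) (hT : ∀ x y, h (T x) (T y) = h x y)
    (v : V) (hv0 : v ≠ 0) (hvv : h v v = 0) (l : F) (hTv : T v = l • v) :
    (∃ v, h v v ≠ 0 ∧ ∃ c : F, T v = c • v) ∨
    (∃ W : Submodule F V, finrank F W = 2 ∧ (∀ a ∈ W, ∀ b ∈ W, h a b = 0) ∧ W.map T ≤ W) := by
  classical
  have hq2 := two_le hF
  obtain ⟨v', hv'v, hv'v'⟩ := exists_partner S hF v hv0 hvv
  have hvv' : h v v' = 1 := by rw [S.conj v' v, hv'v, one_pow]
  have hfU := finrank_U S hvv hv'v hv'v'
  rw [hdim] at hfU
  have hfU2 : finrank F (U S v v') = 2 := by omega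
  have hlq : l ^ q ≠ 0 := by
    intro h0
    have h1 := hT v' v
    rw [hTv, S.smul_right hF, hv'v, h0, zero_mul] at h1
    exact zero_ne_one h1
  have hl0 : l ≠ 0 := by
    intro h0
    rw [h0, zero_pow (by omega)] at hlq
    exact hlq rfl
  have hTz : ∀ z, h z v = 0 → h (T z) v = 0 := by
    intro z hz
    have h1 := hT z v
    rw [hTv, S.smul_right hF, hz] at h1
    exact (mul_eq_zero.mp h1).resolve_left hlq
  have hvU : ∀ z ∈ U S v v', h v z = 0 := fun z hz => S.zero_of_zero hF hz.1
  have hv'U : ∀ z ∈ U S v v', h v' z = 0 := fun z hz => S.zero_of_zero hF hz.2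
  -- the isotropic case
  have iso_case : ∀ z ∈ U S v v', z ≠ 0 → h z z = 0 → ∀ (μ α : F), T z = μ • z + α • v →
      (∃ W : Submodule F V, finrank F W = 2 ∧ (∀ a ∈ W, ∀ b ∈ W, h a b = 0) ∧ W.map T ≤ W) := by
    intro z hzU hz0 hzz μ α hTz'
    refine ⟨Submodule.span F {v, z}, ?_, ?_, ?_⟩
    · have hli : LinearIndependent F ![v, z] := by
        rw [LinearIndependent.pair_iff]
        intro a b hab
        have e1 := congrArg (fun x => h x v') hab
        simp only [S.add_left, S.smul_left, S.zero_left, hvv', hzU.2] at e1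
        have ha : a = 0 := by simpa using e1
        subst ha
        rw [zero_smul, zero_add] at hab
        exact ⟨rfl, (smul_eq_zero.mp hab).resolve_right hz0⟩
      have e : Set.range ![v, z] = {v, z} := by
        ext x
        simp [Fin.exists_fin_two, eq_comm]
        exact or_comm
      have := finrank_span_eq_card hli
      rw [e] at this
      simpa using this
    · intro a ha b hb
      obtain ⟨c, d, rfl⟩ := Submodule.mem_span_pair.mp ha
      obtain ⟨e, f, rfl⟩ := Submodule.mem_span_pair.mp hb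
      simp only [S.add_left, S.add_right hF, S.smul_left, S.smul_right hF]
      rw [hvv, hvU z hzU, hzU.1, hzz]
      simp
    · rintro _ ⟨a, ha, rfl⟩
      obtain ⟨c, d, rfl⟩ := Submodule.mem_span_pair.mp ha
      refine Submodule.mem_span_pair.mpr ⟨c * l + d * α, d * μ, ?_⟩
      simp only [map_add, map_smul, hTv, hTz', smul_add, smul_smul, add_smul]
      abel
  -- the anisotropic case
  have aniso_case : ∀ z ∈ U S v v', h z z ≠ 0 → ∀ (μ α : F), T z = μ • z + α • v → μ ≠ l →
      (∃ v, h v v ≠ 0 ∧ ∃ c : F, T v = c • v) := by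
    intro z hzU hzz μ α hTz' hμ
    have hne : μ - l ≠ 0 := sub_ne_zero.mpr hμ
    refine ⟨z + (α / (μ - l)) • v, ?_, μ, ?_⟩
    · simp only [S.add_left, S.add_right hF, S.smul_left, S.smul_right hF]
      rw [hvv, hvU z hzU, hzU.1]
      simpa using hzz
    · rw [map_add, map_smul, hTz', hTv, smul_add, smul_smul, smul_smul]
      have h5 : μ * (α / (μ - l)) = α + α / (μ - l) * l := by
        field_simp
        ring
      rw [h5, add_smul]
      abel
  -- the compression of `T` to `U`
  have hRmem : ∀ x : U S v v', T x - h (T x) v' • v ∈ U S v v' := by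
    intro x
    constructor
    · rw [S.sub_left, S.smul_left, hvv, hTz x x.2.1]
      ring
    · rw [S.sub_left, S.smul_left, hvv']
      ring
  let R : U S v v' →ₗ[F] U S v v' :=
    { toFun := fun x => ⟨T x - h (T x) v' • v, hRmem x⟩
      map_add' := fun x y => by
        apply Subtype.ext
        simp only [Submodule.coe_add, map_add, S.add_left, add_smul]
        abel
      map_smul' := fun a x => by
        apply Subtype.ext
        simp only [Submodule.coe_smul, map_smul, S.smul_left, RingHom.id_apply, smul_sub, smul_smul] }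
  have hRv : ∀ x : U S v v', ((R x : U S v v') : V) = T x - h (T x) v' • v := fun _ => rfl
  have hTR : ∀ x : U S v v', ∀ μ : F, R x = μ • x → T x = μ • (x : V) + h (T x) v' • v := by
    intro x μ hx
    have := congrArg Subtype.val hx
    rw [hRv] at this
    simp only [Submodule.coe_smul] at this
    rw [← this]
    abel
  have hRiso : ∀ x y : U S v v', h (R x) (R y) = h x y := by
    intro x y
    rw [hRv, hRv]
    simp only [S.sub_left, S.sub_right hF, S.smul_left, S.smul_right hF]
    rw [hT, hvv, hTz x x.2.1, S.zero_of_zero hF (hTz y y.2.1)]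
    ring
  have hUnd := U_nd S hF hvv hv'v hv'v'
  have SU : HSpace q (fun a b : U S v v' => h a b) := S.restrict _ hUnd
  have hUfin : Finite (U S v v') := inferInstance
  have hUnt : Nontrivial (U S v v') := by
    apply Module.nontrivial_of_finrank_pos (R := F)
    omega
  -- reducibility of `R`
  have hred : ¬ ∀ W : Submodule F (U S v v'), W.map R ≤ W → W = ⊥ ∨ W = ⊤ := by
    intro hirr
    have := D1_irr_odd hF SU R hRiso hirr
    rw [hfU2] at this
    exact absurd this (by decide)
  push Not at hred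
  obtain ⟨W'', hW1, hW2, hW3⟩ := hred
  have hfW : finrank F W'' = 1 := by
    have h1 := Submodule.finrank_lt hW3
    have h2 : 0 < finrank F W'' := by
      rw [Module.finrank_pos_iff (R := F)]
      exact Submodule.nontrivial_iff_ne_bot.mpr hW2
    rw [hfU2] at h1
    omega
  obtain ⟨ub, hub0, hubs⟩ := finrank_eq_one_iff'.mp hfW
  obtain ⟨u₁, hu₁W⟩ := ub
  have hu₁0 : u₁ ≠ 0 := fun h0 => hub0 (Subtype.ext h0)
  obtain ⟨μ, hμ⟩ := hubs ⟨R u₁, hW1 ⟨u₁, hu₁W, rfl⟩⟩
  have hμ' : R u₁ = μ • u₁ := (congrArg Subtype.val hμ).symm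
  have hu₁V : (u₁ : V) ≠ 0 := fun h0 => hu₁0 (Subtype.ext h0)
  have hTu₁ := hTR u₁ μ hμ'
  by_cases hiso : h u₁ u₁ = 0
  · exact Or.inr (iso_case _ u₁.2 hu₁V hiso μ _ hTu₁)
  by_cases hμl : μ = l
  swap
  · exact Or.inl (aniso_case _ u₁.2 hiso μ _ hTu₁ hμl)
  subst hμl
  -- a second eigenvector
  obtain ⟨y, hy⟩ : ∃ y : U S v v', y ∉ Submodule.span F {u₁} := by
    by_contra hc
    push Not at hc
    have htop : Submodule.span F {u₁} = ⊤ := eq_top_iff.mpr (fun y _ => hc y)
    have h1 := finrank_span_singleton (K := F) hu₁0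
    rw [htop, finrank_top, hfU2] at h1
    omega
  obtain ⟨u₂, hu₂⟩ : ∃ u₂ : U S v v', u₂ = y - (h y u₁ / h u₁ u₁) • u₁ := ⟨_, rfl⟩
  have hu₂V : ((u₂ : U S v v') : V) = y - (h y u₁ / h u₁ u₁) • (u₁ : V) := by rw [hu₂]; rfl
  have hu₂1 : h u₂ u₁ = 0 := by
    rw [hu₂V, S.sub_left, S.smul_left]
    field_simp
    ring
  have hu₂0 : u₂ ≠ 0 := by
    intro h0
    apply hy
    have h1 : y = (h y u₁ / h u₁ u₁) • u₁ := by
      rw [h0] at hu₂
      exact sub_eq_zero.mp hu₂.symm
    rw [h1]
    exact Submodule.smul_mem _ _ (Submodule.mem_span_singleton_self _)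
  have hu₂V0 : (u₂ : V) ≠ 0 := fun h0 => hu₂0 (Subtype.ext h0)
  have hu₁2 : h u₁ u₂ = 0 := S.zero_of_zero hF hu₂1
  have hli : LinearIndependent F ![u₁, u₂] := by
    rw [LinearIndependent.pair_iff]
    intro a b hab
    have e0 := congrArg Subtype.val hab
    simp only [Submodule.coe_add, Submodule.coe_smul, Submodule.coe_zero] at e0
    have e1 := congrArg (fun x => h x u₁) e0
    simp only [S.add_left, S.smul_left, S.zero_left, hu₂1] at e1
    have ha : a = 0 := by
      have : a * h u₁ u₁ = 0 := by simpa using e1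
      exact (mul_eq_zero.mp this).resolve_right hiso
    subst ha
    rw [zero_smul, zero_add] at hab
    exact ⟨rfl, (smul_eq_zero.mp hab).resolve_right hu₂0⟩
  have htop : Submodule.span F (Set.range ![u₁, u₂]) = ⊤ :=
    hli.span_eq_top_of_card_eq_finrank' (by simp [hfU2])
  have hspan : ∀ z : U S v v', ∃ a b : F, a • u₁ + b • u₂ = z := by
    intro z
    have hz : z ∈ Submodule.span F (Set.range ![u₁, u₂]) := by rw [htop]; trivial
    have e : Set.range ![u₁, u₂] = {u₁, u₂} := by
      ext x
      simp [Fin.exists_fin_two, eq_comm]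
      exact or_comm
    rw [e] at hz
    exact Submodule.mem_span_pair.mp hz
  have hu₂2 : h u₂ u₂ ≠ 0 := by
    intro h0
    apply hu₂V0
    apply hUnd _ u₂.2
    intro w hw
    obtain ⟨a, b, hab⟩ := hspan ⟨w, hw⟩
    have e0 : a • (u₁ : V) + b • (u₂ : V) = w := congrArg Subtype.val hab
    rw [← e0, S.add_right hF, S.smul_right hF, S.smul_right hF, hu₂1, h0]
    ring
  obtain ⟨a, b, hab⟩ := hspan (R u₂)
  have hab' : a • (u₁ : V) + b • (u₂ : V) = (R u₂ : U S v v') := congrArg Subtype.val hab
  have ha0 : a = 0 := by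
    have h1 := hRiso u₂ u₁
    rw [hμ', hu₂1] at h1
    have e2 : ((μ • u₁ : U S v v') : V) = μ • (u₁ : V) := rfl
    rw [e2, S.smul_right hF] at h1
    have h2 := (mul_eq_zero.mp h1).resolve_left hlq
    rw [← hab'] at h2
    simp only [S.add_left, S.smul_left, hu₂1] at h2
    have h3 : a * h u₁ u₁ = 0 := by simpa using h2
    exact (mul_eq_zero.mp h3).resolve_right hiso
  subst ha0
  rw [zero_smul, zero_add] at hab
  have hTu₂ := hTR u₂ b hab.symm
  by_cases hbl : b = μ
  swap
  · exact Or.inl (aniso_case _ u₂.2 hu₂2 b _ hTu₂ hbl)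
  subst hbl
  -- `R` is a scalar: an isotropic vector of `U`
  have ht : (-(h u₁ u₁ / h u₂ u₂)) ^ q = -(h u₁ u₁ / h u₂ u₂) := by
    have := map_neg (frobHom hF) (h u₁ u₁ / h u₂ u₂)
    rw [frobHom_apply, frobHom_apply, div_pow, S.self_fix, S.self_fix] at this
    exact this
  have ht0 : -(h u₁ u₁ / h u₂ u₂) ≠ 0 := neg_ne_zero.mpr (div_ne_zero hiso hu₂2)
  have hne : Nonempty {c : F // c ^ (q + 1) = -(h u₁ u₁ / h u₂ u₂)} := by
    apply (Nat.card_pos_iff.mp _).1
    rw [card_norm_fiber hF _ ht ht0]
    omega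
  obtain ⟨⟨c, hc⟩⟩ := hne
  right
  have hzU : (u₁ : V) + c • (u₂ : V) ∈ U S v v' := (u₁ + c • u₂).2
  obtain ⟨α₁, hα₁⟩ : ∃ α₁, α₁ = h (T u₁) v' := ⟨_, rfl⟩
  obtain ⟨α₂, hα₂⟩ : ∃ α₂, α₂ = h (T u₂) v' := ⟨_, rfl⟩
  rw [← hα₁] at hTu₁
  rw [← hα₂] at hTu₂
  refine iso_case _ hzU ?_ ?_ b (α₁ + c * α₂) ?_
  · intro h0
    have e1 := congrArg (fun x => h x u₁) h0
    simp only [S.add_left, S.smul_left, S.zero_left, hu₂1] at e1
    apply hiso
    simpa using e1
  · simp only [S.add_left, S.add_right hF, S.smul_left, S.smul_right hF]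
    rw [hu₂1, hu₁2]
    have e3 : c * c ^ q = c ^ (q + 1) := by rw [pow_succ]; ring
    have e4 : h u₁ u₁ + c * (c ^ q * h u₂ u₂) = 0 := by
      rw [← mul_assoc, e3, hc]
      field_simp
      ring
    linear_combination e4
  · rw [map_add, map_smul, hTu₁, hTu₂]
    simp only [smul_add, smul_smul, add_smul, mul_comm c b]
    abel

theorem E1_aniso_or_ti (hF : Fintype.card F = q ^ 2) (S : HSpace q h) (hdim : finrank F V = 4)
    (T : V →ₗ[F] V)
    (hT : ∀ x y, h (T x) (T y) = h x y) :
    (∃ v, h v v ≠ 0 ∧ ∃ c : F, T v = c • v) ∨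
    (∃ W : Submodule F V, finrank F W = 2 ∧ (∀ a ∈ W, ∀ b ∈ W, h a b = 0) ∧ W.map T ≤ W) := by
  classical
  have : Module.Finite F V := Module.Finite.of_finite
  have hTinj : Function.Injective T := by
    rw [injective_iff_map_eq_zero]
    intro x hx
    apply S.nd
    intro y
    rw [← hT, hx, S.zero_left]
  have hVnt : Nontrivial V := by
    apply Module.nontrivial_of_finrank_pos (R := F)
    omega
  -- a minimal invariant subspace
  have ex : ∃ d, ∃ W : Submodule F V, W ≠ ⊥ ∧ W.map T ≤ W ∧ finrank F W = d :=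
    ⟨_, ⊤, top_ne_bot, le_top, rfl⟩
  obtain ⟨W, hW0, hWT, hWd⟩ := Nat.find_spec ex
  have hmin : ∀ W' : Submodule F V, W' ≤ W → W'.map T ≤ W' → W' = ⊥ ∨ W' = W := by
    intro W' hle hW'
    by_cases h0 : W' = ⊥
    · exact Or.inl h0
    · right
      refine Submodule.eq_of_le_of_finrank_le hle ?_
      rw [hWd]
      exact Nat.find_min' ex ⟨W', h0, hW', rfl⟩
  -- `T` is onto `W`
  have hWonto : ∀ w ∈ W, ∃ w₀ ∈ W, T w₀ = w := by
    have hmaps : ∀ x ∈ W, T x ∈ W := fun x hx => hWT ⟨x, hx, rfl⟩
    have hinj : Function.Injective (T.restrict hmaps) := by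
      intro x y hxy
      apply Subtype.ext
      apply hTinj
      exact congrArg Subtype.val hxy
    have hsurj := LinearMap.injective_iff_surjective.mp hinj
    intro w hw
    obtain ⟨w₀, hw₀⟩ := hsurj ⟨w, hw⟩
    exact ⟨w₀, w₀.2, congrArg Subtype.val hw₀⟩
  have hperpT : ∀ x ∈ perpS S W, T x ∈ perpS S W := by
    intro x hx w hw
    obtain ⟨w₀, hw₀, rfl⟩ := hWonto w hw
    rw [hT]
    exact hx w₀ hw₀
  have hmeet : (W ⊓ perpS S W).map T ≤ W ⊓ perpS S W := by
    rintro _ ⟨x, hx, rfl⟩
    exact ⟨hWT ⟨x, hx.1, rfl⟩, hperpT x hx.2⟩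
  have hfp := finrank_perpS S hF W
  rw [hdim] at hfp
  have hposW : 0 < finrank F W := by
    rw [Module.finrank_pos_iff (R := F)]
    exact Submodule.nontrivial_iff_ne_bot.mpr hW0
  rcases hmin _ inf_le_left hmeet with hm | hm
  · -- `W` is non-degenerate
    have hnd : ∀ u ∈ W, (∀ v ∈ W, h u v = 0) → u = 0 := by
      intro u hu huv
      have : u ∈ W ⊓ perpS S W := ⟨hu, huv⟩
      rw [hm] at this
      simpa using this
    have SW := S.restrict W hnd
    have hmaps : ∀ x ∈ W, T x ∈ W := fun x hx => hWT ⟨x, hx, rfl⟩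
    have hWnt : Nontrivial W := Submodule.nontrivial_iff_ne_bot.mpr hW0
    have hirr : ∀ W₁ : Submodule F W, W₁.map (T.restrict hmaps) ≤ W₁ → W₁ = ⊥ ∨ W₁ = ⊤ := by
      intro W₁ hW₁
      have hinv : (W₁.map W.subtype).map T ≤ W₁.map W.subtype := by
        rintro _ ⟨_, ⟨x, hx, rfl⟩, rfl⟩
        have h1 : T.restrict hmaps x ∈ W₁ := hW₁ ⟨x, hx, rfl⟩
        exact ⟨_, h1, rfl⟩
      have hle : W₁.map W.subtype ≤ W := by
        rintro _ ⟨x, _, rfl⟩
        exact x.2
      rcases hmin _ hle hinv with h0 | h0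
      · left
        apply Submodule.map_injective_of_injective W.injective_subtype
        rw [h0, Submodule.map_bot]
      · right
        apply Submodule.map_injective_of_injective W.injective_subtype
        rw [h0, Submodule.map_subtype_top]
    have hodd := D1_irr_odd hF SW (T.restrict hmaps) (fun x y => hT x y) hirr
    have hle4 : finrank F W ≤ 4 := by omega
    have hcases : finrank F W = 1 ∨ finrank F W = 3 := by
      obtain ⟨k, hk⟩ := hodd
      omega
    left
    rcases hcases with h1 | h3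
    · obtain ⟨ub, hub0, hubs⟩ := finrank_eq_one_iff'.mp h1
      obtain ⟨u, huW⟩ := ub
      have hu0 : u ≠ 0 := fun h0 => hub0 (Subtype.ext h0)
      refine ⟨u, ?_, ?_⟩
      · intro huu
        apply hu0
        apply hnd u huW
        intro w hw
        obtain ⟨c, hc⟩ := hubs ⟨w, hw⟩
        have hc' : c • u = w := congrArg Subtype.val hc
        rw [← hc', S.smul_right hF, huu, mul_zero]
      · obtain ⟨c, hc⟩ := hubs ⟨T u, hmaps u huW⟩
        exact ⟨c, (congrArg Subtype.val hc).symm⟩
    · have hfp1 : finrank F (perpS S W) = 1 := by omega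
      obtain ⟨ub, hub0, hubs⟩ := finrank_eq_one_iff'.mp hfp1
      obtain ⟨x, hxP⟩ := ub
      have hx0 : x ≠ 0 := fun h0 => hub0 (Subtype.ext h0)
      refine ⟨x, ?_, ?_⟩
      · intro hxx
        have hle : W ≤ perpS S (perpS S W) := by
          intro w hw z hz
          exact S.zero_of_zero hF (hz w hw)
        have hf2 := finrank_perpS S hF (perpS S W)
        rw [hdim, hfp1] at hf2
        have heq : W = perpS S (perpS S W) :=
          Submodule.eq_of_le_of_finrank_le hle (by omega)
        have hxW : x ∈ W := by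
          rw [heq]
          intro z hz
          obtain ⟨c, hc⟩ := hubs ⟨z, hz⟩
          have hc' : c • x = z := congrArg Subtype.val hc
          rw [← hc', S.smul_right hF, hxx, mul_zero]
        have : x ∈ W ⊓ perpS S W := ⟨hxW, hxP⟩
        rw [hm] at this
        exact hx0 (by simpa using this)
      · obtain ⟨c, hc⟩ := hubs ⟨T x, hperpT x hxP⟩
        exact ⟨c, (congrArg Subtype.val hc).symm⟩
  · -- `W` is totally isotropic
    have hti : ∀ a ∈ W, ∀ b ∈ W, h a b = 0 := by
      intro a ha b hb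
      have : a ∈ W ⊓ perpS S W := by rw [hm]; exact ha
      exact this.2 b hb
    have hle : W ≤ perpS S W := fun a ha b hb => hti a ha b hb
    have hle2 : finrank F W ≤ finrank F (perpS S W) := Submodule.finrank_mono hle
    have hcases : finrank F W = 1 ∨ finrank F W = 2 := by omega
    rcases hcases with h1 | h2
    · obtain ⟨ub, hub0, hubs⟩ := finrank_eq_one_iff'.mp h1
      obtain ⟨u, huW⟩ := ub
      have hu0 : u ≠ 0 := fun h0 => hub0 (Subtype.ext h0)
      obtain ⟨c, hc⟩ := hubs ⟨T u, hWT ⟨u, huW, rfl⟩⟩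
      exact case_line hF S hdim T hT u hu0 (hti u huW u huW) c (congrArg Subtype.val hc).symm
    · exact Or.inr ⟨W, h2, hti, hWT⟩

end Cfsg.Agent.Lib.NCov.E1
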