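import Cfsg.Agent.Lib.NCov.Defs
import Cfsg.Agent.Lib.HermCount.Lines

/-!
Regular unipotent isometries of a 3-dimensional Hermitian space in characteristic 3:
a normal form (an orthonormal orbit).
-/

set_option autoImplicit false

namespace Cfsg.Agent.Lib.NCov.F1

open Module Cfsg.Agent.Lib.HermCount.Space Cfsg.Agent.Lib.HermCount.Field

variable {F V : Type*} [Field F] [Fintype F] [AddCommGroup V] [Module F V] [Finite V] {q : ℕ}
  {h : V → V → F}

theorem neg_frob (hF : Fintype.card F = q ^ 2) (x : F) : (-x) ^ q = -(x ^ q) :=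
  map_neg (frobHom hF) x

theorem F1_reg_normal (hF : Fintype.card F = q ^ 2) (h3 : (3 : F) = 0) (S : HSpace q h)
    (hdim : finrank F V = 3)
    (u : V →ₗ[F] V) (hu : ∀ x y, h (u x) (u y) = h x y) (hN3 : (u - 1) ^ 3 = 0)
    (hN2 : (u - 1) ^ 2 ≠ 0) :
    ∃ v, h v v = 1 ∧ h (u v) v = 0 ∧ h (u (u v)) v = 0 := by
  obtain ⟨N, hN⟩ : ∃ N : V →ₗ[F] V, N = u - 1 := ⟨_, rfl⟩
  rw [← hN] at hN3 hN2
  have hq2 := two_le hF
  have hu' : ∀ x, u x = x + N x := by intro x; simp [hN]
  have hN3' : ∀ x, N (N (N x)) = 0 := by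
    intro x
    have := congrArg (fun f : V →ₗ[F] V => f x) hN3
    simpa [pow_succ, Module.End.mul_apply] using this
  have hN2' : ∃ x, N (N x) ≠ 0 := by
    by_contra hc
    push Not at hc
    apply hN2
    ext x
    simpa [pow_succ, Module.End.mul_apply] using hc x
  have star : ∀ x y, h (N x) y + h x (N y) + h (N x) (N y) = 0 := by
    intro x y
    have := hu x y
    rw [hu', hu', S.add_left, S.add_right hF, S.add_right hF] at this
    linear_combination this
  have h22 : ∀ x y, h (N (N x)) (N y) = 0 := by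
    intro x y
    have := star (N (N x)) y
    rw [hN3', S.zero_left, S.zero_left] at this
    simpa using this
  have h22' : ∀ x y, h (N x) (N (N y)) = 0 := by
    intro x y
    exact S.zero_of_zero hF (h22 y x)
  have hself1 : ∀ x y, h (N (N x)) y = - h (N x) (N y) := by
    intro x y
    have := star (N x) y
    rw [h22] at this
    linear_combination this
  have hself2 : ∀ x y, h x (N (N y)) = - h (N x) (N y) := by
    intro x y
    have := star x (N y)
    rw [h22'] at this
    linear_combination this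
  have hself : ∀ x y, h (N (N x)) y = h x (N (N y)) := by
    intro x y
    rw [hself1, hself2]
  have hconj : ∀ x y, h (N (N y)) x = (h (N (N x)) y) ^ q := by
    intro x y
    rw [hself y x, S.conj (N (N x)) y]
  obtain ⟨z, hz⟩ := exists_trace hF (1 : F) (one_pow q)
  -- Step 1: a vector with `h (N² w) w = 1`.
  have step1 : ∃ w, h (N (N w)) w = 1 := by
    have ex : ∃ w, h (N (N w)) w ≠ 0 := by
      by_contra hc
      push Not at hc
      obtain ⟨x, hx⟩ := hN2'
      obtain ⟨y, hy⟩ : ∃ y, h (N (N x)) y ≠ 0 := by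
        by_contra hc2
        push Not at hc2
        exact hx (S.nd _ hc2)
      apply hy
      have key : ∀ a : F, a * h (N (N x)) y + (a * h (N (N x)) y) ^ q = 0 := by
        intro a
        have h1 := hc (a • x + y)
        simp only [map_add, map_smul] at h1
        rw [S.add_left, S.add_right hF, S.add_right hF, S.smul_left, S.smul_left, S.smul_right hF,
          S.smul_right hF, hc x, hc y, hconj x y] at h1
        rw [mul_pow]
        linear_combination h1
      set c := h (N (N x)) y with hcdef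
      by_contra hc0
      have h2 := key (z / c)
      have h3 : z / c * c = z := div_mul_cancel₀ z hc0
      rw [h3, hz] at h2
      exact one_ne_zero h2
    obtain ⟨w, hw⟩ := ex
    set A := h (N (N w)) w with hA
    have hAq : A ^ q = A := by
      rw [hA, ← hconj]
    have hAi : (A⁻¹) ^ q = A⁻¹ := by rw [inv_pow, hAq]
    have hcard := card_norm_fiber hF A⁻¹ hAi (inv_ne_zero hw)
    have hne : Nonempty {a : F // a ^ (q + 1) = A⁻¹} := by
      apply (Nat.card_pos_iff.mp _).1
      rw [hcard]; omega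
    obtain ⟨⟨c, hc⟩⟩ := hne
    refine ⟨c • w, ?_⟩
    simp only [map_smul]
    rw [S.smul_left, S.smul_right hF, ← hA]
    have h1 : c ^ (q + 1) * A = 1 := by rw [hc]; exact inv_mul_cancel₀ hw
    rw [← h1, pow_succ]
    ring
  obtain ⟨w, hw⟩ := step1
  have hNN : h (N w) (N w) = -1 := by
    have := hself1 w w
    rw [hw] at this
    linear_combination this
  obtain ⟨B, hB⟩ : ∃ B, B = h (N w) w := ⟨_, rfl⟩
  have hBq : B + B ^ q = 1 := by
    have h1 := star w w
    rw [S.conj (N w) w, hNN, ← hB] at h1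
    linear_combination h1
  -- Step 2
  have hcq : (B + 1) ^ q = -(B + 1) := by
    rw [frob_add hF, one_pow]
    linear_combination hBq + h3
  obtain ⟨s, hs⟩ : ∃ s, s = -((B + 1) * z) := ⟨_, rfl⟩
  have hsq : s ^ q - s = B + 1 := by
    rw [hs, neg_frob hF, mul_pow, hcq]
    linear_combination (B + 1) * hz
  obtain ⟨w₂, hw₂⟩ : ∃ w₂, w₂ = w + s • N w := ⟨_, rfl⟩
  have hNw₂ : N w₂ = N w + s • N (N w) := by simp [hw₂]
  have hNNw₂ : N (N w₂) = N (N w) := by
    rw [hNw₂]; simp [hN3']
  have hA₂ : h (N (N w₂)) w₂ = 1 := by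
    rw [hNNw₂, hw₂, S.add_right hF, S.smul_right hF, h22, hw]
    ring
  have hB₂ : h (N w₂) w₂ = -1 := by
    rw [hNw₂, hw₂]
    simp only [S.add_left, S.add_right hF, S.smul_left, S.smul_right hF]
    rw [h22, hNN, hw, ← hB]
    linear_combination -hsq
  -- Step 3
  have hX : (h w₂ w₂) ^ q = h w₂ w₂ := S.self_fix w₂
  obtain ⟨X, hXdef⟩ : ∃ X, X = h w₂ w₂ := ⟨_, rfl⟩
  rw [← hXdef] at hX
  have hfix : (1 - X) ^ q = 1 - X := by
    rw [sub_eq_add_neg, frob_add hF, one_pow, neg_frob hF, hX]
  obtain ⟨t, ht⟩ := exists_trace hF (1 - X) hfix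
  obtain ⟨v, hv⟩ : ∃ v, v = w₂ + t • N (N w₂) := ⟨_, rfl⟩
  have hNv : N v = N w₂ := by
    rw [hv]; simp [hN3']
  have hNNv : N (N v) = N (N w₂) := by rw [hNv]
  have hh1 : h w₂ (N (N w₂)) = 1 := by
    rw [← hself]; exact hA₂
  have h4 : h (N (N w₂)) (N (N w₂)) = 0 := h22 _ _
  have hvv : h v v = 1 := by
    rw [hv]
    simp only [S.add_left, S.add_right hF, S.smul_left, S.smul_right hF]
    rw [hh1, hA₂, ← hXdef, h4]
    linear_combination ht
  have hNvv : h (N v) v = -1 := by
    rw [hNv, hv, S.add_right hF, S.smul_right hF, h22', hB₂]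
    ring
  have hNNvv : h (N (N v)) v = 1 := by
    rw [hNNv, hv, S.add_right hF, S.smul_right hF, h22, hA₂]
    ring
  refine ⟨v, hvv, ?_, ?_⟩
  · rw [hu', S.add_left, hvv, hNvv]; ring
  · have h5 : u (u v) = v + N v + (N v + N (N v)) := by
      rw [hu', hu', map_add]
    rw [h5]
    simp only [S.add_left]
    rw [hvv, hNvv, hNNvv]
    linear_combination (-1 : F) * h3 + h3

end Cfsg.Agent.Lib.NCov.F1
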