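/-
The Hermitian trace form `(x, y) ↦ Tr_{E/F}(x y^(q³))` on a cubic extension `E/F`, `|F| = q²`.
-/
import Cfsg.Agent.Lib.NCov.Defs
import Cfsg.Agent.Lib.HermCount.Lines

set_option autoImplicit false

namespace Cfsg.Agent.Lib.NCov.G1

open Module Cfsg.Agent.Lib.NCov.Defs Cfsg.Agent.Lib.HermCount.Space Cfsg.Agent.Lib.HermCount.Field

variable {F E : Type*} [Field F] [Fintype F] [Field E] [Fintype E] [Algebra F E] {q : ℕ}

theorem card_E (hF : Fintype.card F = q ^ 2) (hE3 : finrank F E = 3) :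
    Fintype.card E = (q ^ 3) ^ 2 := by
  rw [Module.card_eq_pow_finrank (K := F) (V := E), hF, hE3]
  ring

/-- The trace as a sum of three powers. -/
theorem trace_alg (hF : Fintype.card F = q ^ 2) (hE3 : finrank F E = 3) (z : E) :
    algebraMap F E (Algebra.trace F E z) = z + z ^ (q ^ 2) + z ^ (q ^ 4) := by
  rw [FiniteField.algebraMap_trace_eq_sum_pow, hE3, Nat.card_eq_fintype_card, hF]
  simp only [Finset.sum_range_succ, Finset.sum_range_zero, zero_add, pow_zero, pow_one]
  congr 2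
  ring

/-- Additivity of `x ↦ x^(q³)` on `E`. -/
theorem sig_add (hF : Fintype.card F = q ^ 2) (hE3 : finrank F E = 3) (x y : E) :
    (x + y) ^ (q ^ 3) = x ^ (q ^ 3) + y ^ (q ^ 3) :=
  frob_add (card_E hF hE3) x y

theorem sig_sig (hF : Fintype.card F = q ^ 2) (hE3 : finrank F E = 3) (x : E) :
    (x ^ (q ^ 3)) ^ (q ^ 3) = x :=
  frob_frob (card_E hF hE3) x

/-- `x ↦ x^(q^2)` fixes `F`. -/
theorem alg_pow_q2 (hF : Fintype.card F = q ^ 2) (c : F) : c ^ (q ^ 2) = c := by
  rw [← hF, FiniteField.pow_card]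

/-- `(Tr z)^q = Tr (z^(q³))`. -/
theorem trace_conj (hF : Fintype.card F = q ^ 2) (hE3 : finrank F E = 3) (z : E) :
    Algebra.trace F E (z ^ (q ^ 3)) = (Algebra.trace F E z) ^ q := by
  apply (algebraMap F E).injective
  rw [trace_alg hF hE3, map_pow, trace_alg hF hE3]
  have hq := two_le hF
  have hz : z ^ (q ^ 6) = z := by
    have := FiniteField.pow_card z
    rwa [card_E hF hE3, ← pow_mul] at this
  have hadd : ∀ a b : E, (a + b) ^ q = a ^ q + b ^ q := by
    intro a b
    obtain ⟨p, hp⟩ := CharP.exists F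
    obtain ⟨n, hpp, hcard⟩ := FiniteField.card F p
    have : Fact p.Prime := ⟨hpp⟩
    have hq' : q ∣ p ^ (n : ℕ) := by
      rw [← hcard, hF]
      exact dvd_pow_self q two_ne_zero
    obtain ⟨j, -, rfl⟩ := (Nat.dvd_prime_pow hpp).mp hq'
    have : CharP E p := charP_of_injective_algebraMap (algebraMap F E).injective p
    exact add_pow_char_pow a b p j
  rw [hadd, hadd]
  have e1 : (z ^ (q ^ 2)) ^ q = z ^ (q ^ 3) := by rw [← pow_mul]; congr 1
  have e2 : (z ^ (q ^ 4)) ^ q = z ^ (q ^ 5) := by rw [← pow_mul]; congr 1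
  have e3 : (z ^ (q ^ 3)) ^ (q ^ 2) = z ^ (q ^ 5) := by rw [← pow_mul]; congr 1; ring
  have e4 : (z ^ (q ^ 3)) ^ (q ^ 4) = z ^ q := by
    rw [← pow_mul]
    have : q ^ 3 * q ^ 4 = q ^ 6 * q := by ring
    rw [this, pow_mul, hz]
  rw [e1, e2, e3, e4]
  ring

theorem hE_space (hF : Fintype.card F = q ^ 2) (hE3 : finrank F E = 3) :
    HSpace q (hE F q : E → E → F) where
  add_left x y z := by
    simp only [hE, add_mul, map_add]
  smul_left a x z := by
    simp only [hE, smul_mul_assoc, map_smul, smul_eq_mul]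
  conj x y := by
    simp only [hE]
    rw [← trace_conj hF hE3, mul_pow, sig_sig hF hE3, mul_comm]
  nd x hx := by
    have hnd := traceForm_nondegenerate F E
    apply hnd.1 x
    intro y
    rw [Algebra.traceForm_apply]
    have := hx (y ^ (q ^ 3))
    simpa only [hE, sig_sig hF hE3] using this

end Cfsg.Agent.Lib.NCov.G1

namespace Cfsg.Agent.Lib.NCov

open Module Cfsg.Agent.Lib.NCov.Defs Cfsg.Agent.Lib.HermCount.Space

/-- The module statement. -/
theorem G1_hE_space {F E : Type*} [Field F] [Fintype F] [Field E] [Fintype E] [Algebra F E] {q : ℕ}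
    (hF : Fintype.card F = q ^ 2) (hE3 : finrank F E = 3) : HSpace q (hE F q : E → E → F) :=
  G1.hE_space hF hE3

end Cfsg.Agent.Lib.NCov
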