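/-
The model of `(E, hE)` in which the Frobenius `x ↦ x^(q²)` is the cyclic shift.
-/
import Cfsg.Agent.Lib.NCov.G1
import Cfsg.Agent.Lib.Witt.HermModel

set_option autoImplicit false

namespace Cfsg.Agent.Lib.NCov.G3

open Module Cfsg.Agent.Lib.NCov.Defs Cfsg.Agent.Lib.HermCount.Space Cfsg.Agent.Lib.HermCount.Field
open Cfsg.Agent.Lib.NCov.G1 Cfsg.Agent.Lib.Witt.HermModel

variable {F E : Type*} [Field F] [Fintype F] [Field E] [Fintype E] [Algebra F E] {q : ℕ}

/-- `x ↦ x^(q²)` is additive on `E`. -/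
theorem fr_add (hF : Fintype.card F = q ^ 2) (x y : E) :
    (x + y) ^ (q ^ 2) = x ^ (q ^ 2) + y ^ (q ^ 2) := by
  obtain ⟨p, hp⟩ := CharP.exists F
  obtain ⟨n, hpp, hcard⟩ := FiniteField.card F p
  have : Fact p.Prime := ⟨hpp⟩
  have hq' : q ^ 2 = p ^ (n : ℕ) := by rw [← hcard, hF]
  have : CharP E p := charP_of_injective_algebraMap (algebraMap F E).injective p
  rw [hq']
  exact add_pow_char_pow x y p n

/-- The Frobenius `x ↦ x^(q²)` as an `F`-linear map. -/
noncomputable def fr (hF : Fintype.card F = q ^ 2) : E →ₗ[F] E where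
  toFun x := x ^ (q ^ 2)
  map_add' := fr_add hF
  map_smul' c x := by
    simp only [RingHom.id_apply]
    rw [Algebra.smul_def, Algebra.smul_def, mul_pow, ← map_pow, alg_pow_q2 hF]

@[simp] theorem fr_apply (hF : Fintype.card F = q ^ 2) (x : E) : fr hF x = x ^ (q ^ 2) := rfl

theorem pow6 (hF : Fintype.card F = q ^ 2) (hE3 : finrank F E = 3) (z : E) : z ^ (q ^ 6) = z := by
  have := FiniteField.pow_card z
  rwa [card_E hF hE3, ← pow_mul] at this

theorem fr_cube (hF : Fintype.card F = q ^ 2) (hE3 : finrank F E = 3) (x : E) :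
    fr hF (fr hF (fr hF x)) = x := by
  simp only [fr_apply, ← pow_mul]
  have : q ^ 2 * q ^ 2 * q ^ 2 = q ^ 6 := by ring
  rw [this, pow6 hF hE3]

theorem trace_fr (hF : Fintype.card F = q ^ 2) (hE3 : finrank F E = 3) (z : E) :
    Algebra.trace F E (fr hF z) = Algebra.trace F E z := by
  apply (algebraMap F E).injective
  rw [trace_alg hF hE3, trace_alg hF hE3, fr_apply]
  have e1 : (z ^ (q ^ 2)) ^ (q ^ 2) = z ^ (q ^ 4) := by rw [← pow_mul]; congr 1; ring
  have e2 : (z ^ (q ^ 2)) ^ (q ^ 4) = z := by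
    rw [← pow_mul]
    have : q ^ 2 * q ^ 4 = q ^ 6 := by ring
    rw [this, pow6 hF hE3]
  rw [e1, e2]
  ring

theorem hE_fr (hF : Fintype.card F = q ^ 2) (hE3 : finrank F E = 3) (x y : E) :
    hE F q (fr hF x) (fr hF y) = hE F q x y := by
  simp only [hE]
  have : fr hF x * (fr hF y) ^ (q ^ 3) = fr hF (x * y ^ (q ^ 3)) := by
    simp only [fr_apply, mul_pow, ← pow_mul]
    congr 2
    ring
  rw [this, trace_fr hF hE3]

/-- The isometry from an orthonormal Frobenius orbit. -/
theorem model_of_theta (hF : Fintype.card F = q ^ 2) (hE3 : finrank F E = 3) (θ : E)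
    (h0 : hE F q θ θ = 1) (h1 : hE F q (fr hF θ) θ = 0) (h2 : hE F q (fr hF (fr hF θ)) θ = 0) :
    ∃ ι : E ≃ₗ[F] (Fin 3 → F), (∀ x y, Cfsg.hermForm 3 F q (ι x) (ι y) = hE F q x y) ∧
      ∀ (x : E) (i : Fin 3), ι (x ^ (q ^ 2)) i = ι x (i - 1) := by
  classical
  have S : HSpace q (hE F q : E → E → F) := hE_space hF hE3
  have hq := two_le hF
  let b : Fin 3 → E := ![θ, fr hF θ, fr hF (fr hF θ)]
  have hb0 : b 0 = θ := rfl
  have hb1 : b 1 = fr hF θ := rfl
  have hb2 : b 2 = fr hF (fr hF θ) := rfl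
  have hfrb : ∀ i : Fin 3, fr hF (b (i - 1)) = b i := by
    intro i
    fin_cases i
    · show fr hF (b 2) = b 0
      rw [hb2, hb0, fr_cube hF hE3]
    · show fr hF (b 0) = b 1
      rfl
    · show fr hF (b 1) = b 2
      rfl
  have e01 : hE F q (b 1) (b 0) = 0 := h1
  have e02 : hE F q (b 2) (b 0) = 0 := h2
  have e12 : hE F q (b 2) (b 1) = 0 := by
    rw [hb2, hb1, hE_fr hF hE3]; exact h1
  have e00 : hE F q (b 0) (b 0) = 1 := h0
  have e11 : hE F q (b 1) (b 1) = 1 := by rw [hb1, hE_fr hF hE3]; exact h0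
  have e22 : hE F q (b 2) (b 2) = 1 := by rw [hb2, hE_fr hF hE3, hE_fr hF hE3]; exact h0
  have e10 : hE F q (b 0) (b 1) = 0 := S.zero_of_zero hF e01
  have e20 : hE F q (b 0) (b 2) = 0 := S.zero_of_zero hF e02
  have e21 : hE F q (b 1) (b 2) = 0 := S.zero_of_zero hF e12
  have hb : ∀ i j, hE F q (b i) (b j) = if i = j then 1 else 0 := by
    intro i j
    fin_cases i <;> fin_cases j <;> simp [e00, e01, e02, e10, e11, e12, e20, e21, e22]
  have hexp := orthonormal_expand S 3 hE3 b hb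
  -- the coordinate map
  let f : E →ₗ[F] (Fin 3 → F) :=
    { toFun := fun x i => hE F q x (b i)
      map_add' := fun x y => by
        funext i
        simp [S.add_left]
      map_smul' := fun c x => by
        funext i
        simp [S.smul_left] }
  have hf : ∀ x i, f x i = hE F q x (b i) := fun _ _ => rfl
  have hinj : Function.Injective f := by
    rw [injective_iff_map_eq_zero]
    intro x hx
    rw [hexp x]
    refine Finset.sum_eq_zero fun i _ => ?_
    have : hE F q x (b i) = f x i := rfl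
    rw [this, hx]
    simp
  have hfin : finrank F E = finrank F (Fin 3 → F) := by rw [hE3]; simp
  refine ⟨LinearMap.linearEquivOfInjective f hinj hfin, ?_, ?_⟩
  · intro x y
    simp only [LinearMap.linearEquivOfInjective_apply, Cfsg.hermForm, hf]
    conv_rhs => rw [hexp x]
    rw [sum_smul_left S]
    refine Finset.sum_congr rfl fun i _ => ?_
    rw [S.conj y (b i)]
  · intro x i
    simp only [LinearMap.linearEquivOfInjective_apply, hf]
    rw [← hfrb i]
    exact hE_fr hF hE3 x (b (i - 1))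

end Cfsg.Agent.Lib.NCov.G3
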