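/-
The model of `(E, hE)` in which the Frobenius `x ↦ x^(q²)` is the cyclic shift (module statement).
-/
import Cfsg.Agent.Lib.NCov.G3
import Cfsg.Agent.Lib.NCov.F1

set_option autoImplicit false

namespace Cfsg.Agent.Lib.NCov

open Module Cfsg.Agent.Lib.NCov.Defs Cfsg.Agent.Lib.NCov.G1 Cfsg.Agent.Lib.NCov.G3

variable {F E : Type*} [Field F] [Fintype F] [Field E] [Fintype E] [Algebra F E] {q : ℕ}

/-- the model of `(E, hE)` in which the Frobenius `x ↦ x^(q²)` becomes the cyclic shift. -/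
theorem G3_model (hF : Fintype.card F = q ^ 2) (hE3 : finrank F E = 3) (h3 : (3 : F) = 0) :
    ∃ ι : E ≃ₗ[F] (Fin 3 → F), (∀ x y, Cfsg.hermForm 3 F q (ι x) (ι y) = hE F q x y) ∧
      ∀ (x : E) (i : Fin 3), ι (x ^ (q ^ 2)) i = ι x (i - 1) := by
  have S := hE_space (F := F) (E := E) hF hE3
  have h3E : (3 : E) = 0 := by
    rw [← map_ofNat (algebraMap F E) 3, h3, map_zero]
  let u : Module.End F E := fr hF
  have hs : ∀ x : E, (u - 1) x = fr hF x - x := fun x => rfl
  have hs2 : ∀ x : E, ((u - 1) ^ 2 : Module.End F E) x = fr hF (fr hF x) - 2 * fr hF x + x := by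
    intro x
    rw [pow_two, Module.End.mul_apply, hs, hs, map_sub]
    ring
  have hN3 : (u - 1) ^ 3 = 0 := by
    ext x
    rw [pow_succ, Module.End.mul_apply, hs, map_sub, hs2, hs2, fr_cube hF hE3]
    simp only [LinearMap.zero_apply]
    have h1 : fr hF (fr hF (fr hF x)) = x := fr_cube hF hE3 x
    linear_combination (-fr hF (fr hF x) + fr hF x) * h3E
  have hN2 : (u - 1) ^ 2 ≠ 0 := by
    intro h0
    -- the trace is nonzero
    have hne : ∃ z : E, Algebra.trace F E z ≠ 0 := by
      by_contra hc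
      push Not at hc
      have := (traceForm_nondegenerate F E).1 1 (fun y => by
        rw [Algebra.traceForm_apply]; exact hc _)
      exact one_ne_zero this
    obtain ⟨z, hz⟩ := hne
    apply hz
    apply (algebraMap F E).injective
    rw [map_zero, trace_alg hF hE3]
    have h1 := LinearMap.congr_fun h0 z
    rw [hs2] at h1
    simp only [fr_apply, LinearMap.zero_apply] at h1
    have e1 : (z ^ (q ^ 2)) ^ (q ^ 2) = z ^ (q ^ 4) := by rw [← pow_mul]; congr 1; ring
    rw [e1] at h1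
    linear_combination h1 + z ^ (q ^ 2) * h3E
  obtain ⟨θ, h0, h1, h2⟩ := Cfsg.Agent.Lib.NCov.F1.F1_reg_normal hF h3 S hE3 u (hE_fr hF hE3) hN3 hN2
  exact model_of_theta hF hE3 θ h0 h1 h2

end Cfsg.Agent.Lib.NCov
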