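/-
An isometry without eigenvectors of the 3-dimensional Hermitian space is multiplication by an element of `(E, hE)`.
-/
import Cfsg.Agent.Lib.NCov.G3

set_option autoImplicit false

namespace Cfsg.Agent.Lib.NCov.G4

open Module Polynomial Cfsg.Agent.Lib.NCov.Defs Cfsg.Agent.Lib.HermCount.Space Cfsg.Agent.Lib.HermCount.Field
open Cfsg.Agent.Lib.NCov.G1 Cfsg.Agent.Lib.Witt.HermModel

variable {F E : Type*} [Field F] [Fintype F] [Field E] [Fintype E] [Algebra F E] {q : ℕ}

/-- Existence of norms from `E` to the fixed field of `x ↦ x^(q³)`. -/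
theorem exists_norm (hF : Fintype.card F = q ^ 2) (hE3 : finrank F E = 3) (c : E) (hc : c ^ (q ^ 3) = c)
    (hc0 : c ≠ 0) : ∃ d : E, d * d ^ (q ^ 3) = c := by
  have hcard := card_norm_fiber (card_E hF hE3) c hc hc0
  have hpos : 0 < Nat.card {a : E // a ^ (q ^ 3 + 1) = c} := by
    rw [hcard]; omega
  obtain ⟨⟨a, ha⟩⟩ := Nat.card_pos_iff.1 hpos |>.1
  exact ⟨a, by rw [← ha, pow_succ]; ring⟩

/-- Linear functionals are represented by the trace form. -/
theorem exists_rep (l : E →ₗ[F] F) : ∃ c : E, ∀ e, l e = Algebra.trace F E (c * e) := by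
  have hnd := traceForm_nondegenerate F E
  refine ⟨((Algebra.traceForm F E).toDual hnd).symm l, fun e => ?_⟩
  have := LinearMap.BilinForm.apply_toDual_symm_apply (B := Algebra.traceForm F E) (hB := hnd) l e
  rw [Algebra.traceForm_apply] at this
  exact this.symm

section main

variable {V : Type*} [AddCommGroup V] [Module F V] [FiniteDimensional F V]

/-- The characteristic polynomial of `T` without eigenvectors is irreducible. -/
theorem charpoly_irr (hV : finrank F V = 3) (T : V →ₗ[F] V)
    (hno : ∀ v, v ≠ 0 → ∀ c : F, T v ≠ c • v) : Irreducible (LinearMap.charpoly T) := by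
  have hmonic := LinearMap.charpoly_monic T
  have hdeg : (LinearMap.charpoly T).natDegree = 3 := by
    rw [LinearMap.charpoly_natDegree, hV]
  rw [hmonic.irreducible_iff_roots_eq_zero_of_degree_le_three (by omega) (by omega)]
  rw [Multiset.eq_zero_iff_forall_notMem]
  intro c hc
  have hroot : (LinearMap.charpoly T).IsRoot c := (mem_roots'.1 hc).2
  have hev : Module.End.HasEigenvalue T c := Module.End.hasEigenvalue_iff_isRoot_charpoly _ _ |>.2 hroot
  obtain ⟨v, hv⟩ := hev.exists_hasEigenvector
  exact hno v hv.2 c hv.apply_eq_smul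

/-- The algebra map `m : E →ₐ End V` with `m λ = T`. -/
theorem exists_m (hE3 : finrank F E = 3) (hV : finrank F V = 3) (T : V →ₗ[F] V)
    (hirr : Irreducible (LinearMap.charpoly T)) :
    ∃ (lam : E) (m : E →ₐ[F] Module.End F V), m lam = T ∧ aeval lam (LinearMap.charpoly T) = 0 ∧
      Algebra.adjoin F {lam} = ⊤ := by
  classical
  set p := LinearMap.charpoly T with hp
  have hmonic : p.Monic := LinearMap.charpoly_monic T
  have hdeg : p.natDegree = 3 := by
    rw [hp, LinearMap.charpoly_natDegree, hV]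
  haveI : Fact (Irreducible p) := ⟨hirr⟩
  have hfr : finrank F (AdjoinRoot p) = 3 := by
    have := (AdjoinRoot.powerBasis hirr.ne_zero).finrank
    rw [this, AdjoinRoot.powerBasis_dim, hdeg]
  obtain ⟨g⟩ := FiniteField.nonempty_algHom_of_finrank_dvd (F := F) (K := AdjoinRoot p) (L := E)
    (by rw [hfr, hE3])
  have hg : Function.Bijective g := by
    haveI : FiniteDimensional F (AdjoinRoot p) := Module.finite_of_finrank_pos (by omega)
    exact ⟨g.toRingHom.injective, (LinearMap.injective_iff_surjective_of_finrank_eq_finrank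
      (f := g.toLinearMap) (by rw [hfr, hE3])).1 g.toRingHom.injective⟩
  let e : AdjoinRoot p ≃ₐ[F] E := AlgEquiv.ofBijective g hg
  have hT : aeval T p = 0 := LinearMap.aeval_self_charpoly T
  let pb := AdjoinRoot.powerBasis hirr.ne_zero
  have hgen : pb.gen = AdjoinRoot.root p := AdjoinRoot.powerBasis_gen hirr.ne_zero
  have hmin : minpoly F pb.gen = p := by
    rw [hgen, AdjoinRoot.minpoly_root hirr.ne_zero, hmonic.leadingCoeff]
    simp
  let m₀ : AdjoinRoot p →ₐ[F] Module.End F V := pb.lift T (by rw [hmin]; exact hT)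
  refine ⟨e (AdjoinRoot.root p), m₀.comp e.symm.toAlgHom, ?_, ?_, ?_⟩
  · simp only [AlgHom.comp_apply]
    have : e.symm.toAlgHom (e (AdjoinRoot.root p)) = pb.gen := by
      rw [hgen]
      simp
    rw [this]
    exact pb.lift_gen _ _
  · rw [aeval_algEquiv, AlgHom.comp_apply]
    simp only [AlgEquiv.coe_toAlgHom]
    rw [AdjoinRoot.aeval_eq]
    simp
  · have h1 : Algebra.adjoin F {AdjoinRoot.root p} = ⊤ := AdjoinRoot.adjoinRoot_eq_top
    have h2 : Algebra.adjoin F {e (AdjoinRoot.root p)} = (Algebra.adjoin F {AdjoinRoot.root p}).map e.toAlgHom := by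
      rw [AlgHom.map_adjoin]
      simp
    rw [h2, h1, Algebra.map_top]
    exact AlgHom.range_eq_top _ |>.2 e.surjective

end main

section main2

variable {V : Type*} [AddCommGroup V] [Module F V] [FiniteDimensional F V] {h : V → V → F}

theorem add_pow_q (hF : Fintype.card F = q ^ 2) (a b : E) : (a + b) ^ q = a ^ q + b ^ q := by
  obtain ⟨p, hp⟩ := CharP.exists F
  obtain ⟨n, hpp, hcard⟩ := FiniteField.card F p
  have : Fact p.Prime := ⟨hpp⟩
  have hq' : q ∣ p ^ (n : ℕ) := by
    rw [← hcard, hF]
    exact dvd_pow_self q two_ne_zero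
  obtain ⟨j, -, rfl⟩ := (Nat.dvd_prime_pow hpp).mp hq'
  have : CharP E p := charP_of_injective_algebraMap (algebraMap F E).injective p
  exact add_pow_char_pow a b p j

theorem adj_pow (T A : V →ₗ[F] V) (hTA : ∀ x y, h (T x) y = h x (A y)) (n : ℕ) (x y : V) :
    h ((T ^ n) x) y = h x ((A ^ n) y) := by
  induction n generalizing x y with
  | zero => simp
  | succ n ih =>
    rw [pow_succ, pow_succ']
    simp only [Module.End.mul_apply]
    rw [ih, hTA]

theorem adj_poly (S : HSpace q h) (hF : Fintype.card F = q ^ 2) (T A : V →ₗ[F] V)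
    (hTA : ∀ x y, h (T x) y = h x (A y)) (f : F[X]) (x y : V) :
    h (aeval T f x) y = h x (aeval A (f.map (frobHom hF)) y) := by
  induction f using Polynomial.induction_on' with
  | add f g hf hg =>
    simp only [map_add, Polynomial.map_add, LinearMap.add_apply, S.add_left, S.add_right hF, hf, hg]
  | monomial n c =>
    rw [aeval_monomial, map_monomial, aeval_monomial]
    simp only [Module.End.mul_apply, Module.algebraMap_end_apply, frobHom_apply]
    rw [S.smul_left, S.smul_right hF, frob_frob hF, adj_pow T A hTA]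

theorem aeval_frob (hF : Fintype.card F = q ^ 2) (f : F[X]) (z : E) :
    (aeval z (f.map (frobHom hF))) ^ q = aeval (z ^ q) f := by
  induction f using Polynomial.induction_on' with
  | add f g hf hg =>
    simp only [map_add, Polynomial.map_add, add_pow_q (F := F) hF, hf, hg]
  | monomial n c =>
    rw [map_monomial, aeval_monomial, aeval_monomial, mul_pow, ← map_pow, frobHom_apply, frob_frob hF,
      pow_right_comm]

theorem aeval_sig (hF : Fintype.card F = q ^ 2) (hE3 : finrank F E = 3) (f : F[X]) (z : E) :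
    (aeval z f) ^ (q ^ 3) = aeval (z ^ (q ^ 3)) (f.map (frobHom hF)) := by
  induction f using Polynomial.induction_on' with
  | add f g hf hg =>
    simp only [map_add, Polynomial.map_add, sig_add hF hE3, hf, hg]
  | monomial n c =>
    rw [map_monomial, aeval_monomial, aeval_monomial, mul_pow, ← map_pow, frobHom_apply, pow_right_comm]
    have : c ^ (q ^ 3) = c ^ q := by
      have h1 : q ^ 3 = q ^ 2 * q := by ring
      rw [h1, pow_mul, alg_pow_q2 hF]
    rw [this]

/-- The main structural statement. -/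
theorem irr_model (hF : Fintype.card F = q ^ 2) (hE3 : finrank F E = 3) (S : HSpace q h)
    (hV : finrank F V = 3) (T : V →ₗ[F] V)
    (hT : ∀ x y, h (T x) (T y) = h x y) (hno : ∀ v, v ≠ 0 → ∀ c : F, T v ≠ c • v) :
    ∃ (φ : V ≃ₗ[F] E) (lam : E), (∀ x y, hE F q (φ x) (φ y) = h x y) ∧ ∀ x, φ (T x) = lam * φ x := by
  classical
  have hirr := charpoly_irr hV T hno
  obtain ⟨lam, m, hmT, hroot, hadj⟩ := exists_m hE3 hV T hirr
  haveI : Nontrivial V := Module.nontrivial_of_finrank_pos (R := F) (by omega)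
  have hq := two_le hF
  have hminj : Function.Injective m := m.toRingHom.injective
  have hlam0 : lam ≠ 0 := by
    intro h0
    obtain ⟨v, hv⟩ := exists_ne (0 : V)
    apply hno v hv 0
    rw [← hmT, h0, map_zero]
    simp
  set I := lam⁻¹ with hI
  set A := m I with hA
  have hAT : ∀ y, T (A y) = y := by
    intro y
    have h1 : m lam * m I = 1 := by rw [← map_mul, hI, mul_inv_cancel₀ hlam0, map_one]
    have h2 := LinearMap.congr_fun h1 y
    simpa [hmT] using h2
  have hTA : ∀ x y, h (T x) y = h x (A y) := by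
    intro x y
    conv_lhs => rw [← hAT y]
    exact hT x (A y)
  have hpT : aeval T (LinearMap.charpoly T) = 0 := LinearMap.aeval_self_charpoly T
  -- `I` is a root of the twisted polynomial
  have h1 : aeval I ((LinearMap.charpoly T).map (frobHom hF)) = 0 := by
    apply hminj
    rw [map_zero, ← aeval_algHom_apply, ← hA]
    ext y
    apply S.nd
    intro x
    apply S.zero_of_zero hF
    rw [← adj_poly S hF T A hTA, hpT]
    simp [S.zero_left]
  have h2 : aeval (I ^ q) (LinearMap.charpoly T) = 0 := by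
    rw [← aeval_frob hF, h1, zero_pow (by omega)]
  -- the Galois automorphism
  have hmin : minpoly F lam = LinearMap.charpoly T :=
    (minpoly.eq_of_irreducible_of_monic hirr hroot (LinearMap.charpoly_monic T)).symm
  obtain ⟨σ, hσ⟩ := minpoly.exists_algEquiv_of_root' (K := F) (L := E) (x := I ^ q) (y := lam)
    (Algebra.IsAlgebraic.isAlgebraic _) (by rw [hmin]; exact h2)
  have hσ3 : σ ^ 3 = 1 := by
    have h3 := pow_card_eq_one' (x := σ)
    rwa [IsGalois.card_aut_eq_finrank, hE3] at h3
  have hlamσ : σ (σ (σ lam)) = lam := by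
    have := congrArg (fun τ : E ≃ₐ[F] E => τ lam) hσ3
    simpa [pow_succ] using this
  have hlam3 : lam ^ (q ^ 3) = I := by
    have e1 : σ (σ lam) = (lam ^ q) ^ q := by
      rw [hσ, map_pow, hI, map_inv₀, hσ, hI]
      simp only [inv_pow, inv_inv]
    have e2 : ((I ^ q) ^ q) ^ q = lam := by
      have h3 := hlamσ
      rw [e1, map_pow, map_pow, hσ] at h3
      exact h3
    have e3 : I ^ (q ^ 3) = lam := by
      rw [← e2, ← pow_mul, ← pow_mul]
      congr 1
      ring
    rw [← e3, sig_sig hF hE3]
  -- the adjoint on `E`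
  have hadjE : ∀ (a : E) (x y : V), h (m a x) y = h x (m (a ^ (q ^ 3)) y) := by
    intro a x y
    have ha : a ∈ Algebra.adjoin F {lam} := by rw [hadj]; trivial
    rw [Algebra.adjoin_singleton_eq_range_aeval] at ha
    obtain ⟨f, rfl⟩ := ha
    have e1 : m ((aeval lam) f) = aeval T f := by rw [← aeval_algHom_apply, hmT]
    have e2 : m (((aeval lam) f) ^ (q ^ 3)) = aeval A (f.map (frobHom hF)) := by
      rw [aeval_sig hF hE3, hlam3, ← aeval_algHom_apply]
    change h (m ((aeval lam) f) x) y = h x (m (((aeval lam) f) ^ (q ^ 3)) y)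
    rw [e1, e2]
    exact adj_poly S hF T A hTA f x y
  obtain ⟨v₀, hv₀⟩ := exists_ne (0 : V)
  let l : E →ₗ[F] F :=
    { toFun := fun e => h (m e v₀) v₀
      map_add' := fun a b => by simp [S.add_left]
      map_smul' := fun c a => by simp [S.smul_left] }
  obtain ⟨c, hc⟩ := exists_rep l
  have hl : ∀ e, h (m e v₀) v₀ = Algebra.trace F E (c * e) := hc
  have hpair : ∀ a b : E, h (m a v₀) (m b v₀) = Algebra.trace F E (c * (a * b ^ (q ^ 3))) := by
    intro a b
    have h3 := hadjE (b ^ (q ^ 3)) (m a v₀) v₀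
    rw [sig_sig hF hE3] at h3
    rw [← h3, ← hl, mul_comm a, map_mul, Module.End.mul_apply]
  let φ₀ : E →ₗ[F] V :=
    { toFun := fun a => m a v₀
      map_add' := fun a b => by simp
      map_smul' := fun c a => by simp }
  have hφ₀ : ∀ a, φ₀ a = m a v₀ := fun _ => rfl
  have hinj0 : ∀ a, m a v₀ = 0 → a = 0 := by
    intro a ha
    by_contra ha0
    apply hv₀
    have h3 : m a⁻¹ * m a = 1 := by rw [← map_mul, inv_mul_cancel₀ ha0, map_one]
    have h4 := LinearMap.congr_fun h3 v₀
    simp only [Module.End.mul_apply, ha, map_zero] at h4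
    simpa using h4.symm
  have hfr : finrank F E = finrank F V := by rw [hE3, hV]
  have hinj : Function.Injective φ₀ := by
    rw [injective_iff_map_eq_zero]
    exact hinj0
  have hsurj : Function.Surjective φ₀ :=
    (LinearMap.injective_iff_surjective_of_finrank_eq_finrank hfr).1 hinj
  have hc0 : c ≠ 0 := by
    rintro rfl
    apply hv₀
    apply S.nd
    intro y
    obtain ⟨b, rfl⟩ := hsurj y
    have h3 := hpair 1 b
    simpa [hφ₀] using h3
  have hcσ : c ^ (q ^ 3) = c := by
    have h3 : ∀ a : E, Algebra.trace F E (c * a ^ (q ^ 3)) = (Algebra.trace F E (c * a)) ^ q := by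
      intro a
      rw [← hl, ← hl, hadjE, sig_sig hF hE3, ← S.conj]
    have h4 : c ^ (q ^ 3) - c = 0 := by
      apply (traceForm_nondegenerate F E).1
      intro y
      rw [Algebra.traceForm_apply, sub_mul, map_sub, sub_eq_zero]
      have h5 := h3 (y ^ (q ^ 3))
      rw [sig_sig hF hE3] at h5
      rw [h5, ← trace_conj hF hE3, mul_pow, sig_sig hF hE3]
    exact sub_eq_zero.1 h4
  obtain ⟨d, hd⟩ := exists_norm hF hE3 c⁻¹ (by rw [inv_pow, hcσ]) (inv_ne_zero hc0)
  have hd0 : d ≠ 0 := by
    rintro rfl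
    rw [zero_mul] at hd
    exact inv_ne_zero hc0 hd.symm
  let ψ : E →ₗ[F] V :=
    { toFun := fun a => m (d * a) v₀
      map_add' := fun a b => by simp [mul_add]
      map_smul' := fun c a => by simp }
  have hψ : ∀ a, ψ a = m (d * a) v₀ := fun _ => rfl
  have hψinj : Function.Injective ψ := by
    rw [injective_iff_map_eq_zero]
    intro a ha
    have := hinj0 _ ha
    exact (mul_eq_zero.1 this).resolve_left hd0
  let e : E ≃ₗ[F] V := LinearMap.linearEquivOfInjective ψ hψinj hfr
  have he : ∀ a, e a = m (d * a) v₀ := fun _ => rfl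
  refine ⟨e.symm, lam, ?_, ?_⟩
  · intro x y
    obtain ⟨a, rfl⟩ := e.surjective x
    obtain ⟨b, rfl⟩ := e.surjective y
    rw [e.symm_apply_apply, e.symm_apply_apply, he, he, hpair, mul_pow]
    simp only [hE]
    congr 1
    have h3 : c * (d * d ^ (q ^ 3)) = 1 := by rw [hd, mul_inv_cancel₀ hc0]
    linear_combination (-(a * b ^ (q ^ 3))) * h3
  · intro x
    obtain ⟨a, rfl⟩ := e.surjective x
    rw [e.symm_apply_apply]
    apply e.injective
    rw [e.apply_symm_apply, he, he, ← hmT, ← Module.End.mul_apply, ← map_mul]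
    congr 2
    ring

end main2


end Cfsg.Agent.Lib.NCov.G4

namespace Cfsg.Agent.Lib.NCov

open Module Cfsg.Agent.Lib.NCov.Defs

/-- An isometry with no eigenvector is, up to an isometry with `(E, hE)`, multiplication by an element. -/
theorem G4_irr_model {F E : Type*} [Field F] [Fintype F] [Field E] [Fintype E] [Algebra F E] {q : ℕ}
    (hF : Fintype.card F = q ^ 2) (hE3 : finrank F E = 3) (T : (Fin 3 → F) →ₗ[F] (Fin 3 → F))
    (hT : ∀ x y, Cfsg.hermForm 3 F q (T x) (T y) = Cfsg.hermForm 3 F q x y)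
    (hno : ∀ v, v ≠ 0 → ∀ c : F, T v ≠ c • v) :
    ∃ (φ : (Fin 3 → F) ≃ₗ[F] E) (lam : E), (∀ x y, hE F q (φ x) (φ y) = Cfsg.hermForm 3 F q x y) ∧
      ∀ x, φ (T x) = lam * φ x :=
  G4.irr_model hF hE3 (Cfsg.Agent.Lib.HermCount.Lines.herm_space 3 hF) (by simp) T hT hno

end Cfsg.Agent.Lib.NCov
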