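import Cfsg.Agent.Lib.NCov.Defs
import Cfsg.Agent.Lib.HermCount.Lines

/-!
Isometries of determinant one of a 3-dimensional Hermitian space in characteristic 3:
anisotropic eigenvector, no eigenvector, or regular unipotent.
-/

set_option autoImplicit false

namespace Cfsg.Agent.Lib.NCov.G5

open Module Cfsg.Agent.Lib.HermCount.Space Cfsg.Agent.Lib.HermCount.Field
open Cfsg.Agent.Lib.HermCount.Lines

variable {F V : Type*} [Field F] [Fintype F] [AddCommGroup V] [Module F V] [Finite V] {q : ℕ}
  {h : V → V → F}

theorem G5_trichotomy (hF : Fintype.card F = q ^ 2) (h3 : (3 : F) = 0) (S : HSpace q h)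
    (hdim : finrank F V = 3)
    (T : V →ₗ[F] V) (hT : ∀ x y, h (T x) (T y) = h x y) (hdet : LinearMap.det T = 1) :
    (∃ v, h v v ≠ 0 ∧ ∃ c : F, T v = c • v) ∨ (∀ v, v ≠ 0 → ∀ c : F, T v ≠ c • v) ∨
    ((T - 1) ^ 3 = 0 ∧ (T - 1) ^ 2 ≠ 0) := by
  classical
  have hq2 := two_le hF
  by_cases hno : ∀ v, v ≠ 0 → ∀ c : F, T v ≠ c • v
  · exact Or.inr (Or.inl hno)
  push Not at hno
  obtain ⟨v, hv0, l, hTv⟩ := hno
  by_cases hvv : h v v = 0
  swap
  · exact Or.inl ⟨v, hvv, l, hTv⟩
  obtain ⟨v', hv'v, hv'v'⟩ := exists_partner S hF v hv0 hvv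
  have hvv' : h v v' = 1 := by rw [S.conj v' v, hv'v, one_pow]
  have hfU := finrank_U S hvv hv'v hv'v'
  rw [hdim] at hfU
  have hfU1 : finrank F (U S v v') = 1 := by omega
  obtain ⟨u₀, hu₀, hspan⟩ := finrank_eq_one_iff'.mp hfU1
  obtain ⟨u, huU⟩ := u₀
  have hu0 : u ≠ 0 := fun h0 => hu₀ (Subtype.ext h0)
  have huv : h u v = 0 := huU.1
  have huv' : h u v' = 0 := huU.2
  have hvu : h v u = 0 := S.zero_of_zero hF huv
  have hv'u : h v' u = 0 := S.zero_of_zero hF huv'
  have huu : h u u ≠ 0 := by
    intro h0
    apply hu0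
    apply U_nd S hF hvv hv'v hv'v' u huU
    intro w hw
    obtain ⟨c, hc⟩ := hspan ⟨w, hw⟩
    have hc' : c • u = w := congrArg Subtype.val hc
    rw [← hc', S.smul_right hF, h0, mul_zero]
  -- the decomposition
  have hdec : ∀ x, ∃ c : F, x = h x v' • v + h x v • v' + c • u := by
    intro x
    have hw : x - (h x v') • v - (h x v) • v' ∈ U S v v' := by
      constructor
      · rw [S.sub_left, S.sub_left, S.smul_left, S.smul_left, hvv, hv'v]
        ring
      · rw [S.sub_left, S.sub_left, S.smul_left, S.smul_left, hvv', hv'v']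
        ring
    obtain ⟨c, hc⟩ := hspan ⟨_, hw⟩
    have hc' : c • u = x - (h x v') • v - (h x v) • v' := congrArg Subtype.val hc
    refine ⟨c, ?_⟩
    rw [hc']
    abel
  -- `l ≠ 0`
  have hlq : l ^ q * h (T v') v = 1 := by
    have h1 := hT v' v
    rw [hTv, S.smul_right hF, hv'v] at h1
    exact h1
  have hl0 : l ^ q ≠ 0 := by
    intro h0
    rw [h0, zero_mul] at hlq
    exact zero_ne_one hlq
  -- `T u`
  have hTuv : h (T u) v = 0 := by
    have h1 := hT u v
    rw [hTv, S.smul_right hF, huv] at h1
    exact (mul_eq_zero.mp h1).resolve_left hl0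
  obtain ⟨m, hm⟩ := hdec (T u)
  rw [hTuv, zero_smul, add_zero] at hm
  obtain ⟨a', ha'⟩ : ∃ a', a' = h (T u) v' := ⟨_, rfl⟩
  rw [← ha'] at hm
  have hmm : m * m ^ q = 1 := by
    have h1 := hT u u
    rw [hm] at h1
    simp only [S.add_left, S.add_right hF, S.smul_left, S.smul_right hF] at h1
    rw [hvv, hvu, huv] at h1
    have h2 : (m * m ^ q - 1) * h u u = 0 := by linear_combination h1
    have h4 := (mul_eq_zero.mp h2).resolve_right huu
    linear_combination h4
  by_cases hml : m = l
  swap
  · left
    have hne : m - l ≠ 0 := sub_ne_zero.mpr hml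
    refine ⟨u + (a' / (m - l)) • v, ?_, m, ?_⟩
    · simp only [S.add_left, S.add_right hF, S.smul_left, S.smul_right hF]
      rw [hvv, hvu, huv]
      simpa using huu
    · rw [map_add, map_smul, hm, hTv, smul_add, smul_smul, smul_smul]
      have h5 : m * (a' / (m - l)) = a' + a' / (m - l) * l := by
        field_simp
        ring
      rw [h5, add_smul]
      abel
  subst hml
  -- `T v'`
  have hν : h (T v') v = m := by
    calc h (T v') v = (m * m ^ q) * h (T v') v := by rw [hmm, one_mul]
      _ = m * (m ^ q * h (T v') v) := by ring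
      _ = m := by rw [hlq, mul_one]
  obtain ⟨a, ha⟩ := hdec (T v')
  rw [hν] at ha
  obtain ⟨β, hβ⟩ : ∃ β, β = h (T v') v' := ⟨_, rfl⟩
  rw [← hβ] at ha
  -- the determinant
  have hli : LinearIndependent F ![v, u, v'] := by
    rw [Fintype.linearIndependent_iff]
    intro g hg
    rw [Fin.sum_univ_three] at hg
    simp only [Matrix.cons_val_zero, Matrix.cons_val_one, Matrix.cons_val] at hg
    have e1 := congrArg (fun x => h x v) hg
    have e2 := congrArg (fun x => h x v') hg
    have e3 := congrArg (fun x => h x u) hg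
    simp only [S.add_left, S.smul_left, S.zero_left, hvv, huv, hv'v, hvv', huv', hv'v', hvu, hv'u]
      at e1 e2 e3
    have g2 : g 2 = 0 := by simpa using e1
    have g0 : g 0 = 0 := by simpa using e2
    have g1 : g 1 = 0 := by
      have : g 1 * h u u = 0 := by simpa using e3
      exact (mul_eq_zero.mp this).resolve_right huu
    intro i
    fin_cases i
    · exact g0
    · exact g1
    · exact g2
  let b : Basis (Fin 3) F V := basisOfLinearIndependentOfCardEqFinrank hli (by simp [hdim])
  have hb0 : b 0 = v := by simp [b]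
  have hb1 : b 1 = u := by simp [b]
  have hb2 : b 2 = v' := by simp [b]
  have hTM : Matrix.toLin b b !![m, a', β; 0, m, a; 0, 0, m] = T := by
    apply b.ext
    intro j
    rw [Matrix.toLin_self, Fin.sum_univ_three, hb0, hb1, hb2]
    fin_cases j
    · simp [hb0, hTv]
    · simp [hb1, hm, add_comm]
    · simp [hb2, ha]
      abel
  have hm3 : m ^ 3 = 1 := by
    have h1 := hdet
    rw [← hTM, LinearMap.det_toLin, Matrix.det_fin_three] at h1
    simp at h1
    linear_combination h1
  have hm1 : m = 1 := by
    have h1 : (m - 1) ^ 3 = 0 := by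
      linear_combination hm3 - (m ^ 2 - m) * h3
    have h2 := pow_eq_zero_iff (n := 3) (by norm_num) |>.mp h1
    linear_combination h2
  subst hm1
  rw [one_smul] at hTv hm ha
  have hun : a' + a ^ q * h u u = 0 := by
    have h1 := hT u v'
    rw [hm, ha] at h1
    simp only [S.add_left, S.add_right hF, S.smul_left, S.smul_right hF] at h1
    rw [hvv, hvu, huv, huv', hvv'] at h1
    linear_combination h1
  have hNv : (T - 1) v = 0 := by simp [hTv]
  have hNu : (T - 1) u = a' • v := by simp [hm]
  have hNv' : (T - 1) v' = β • v + a • u := by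
    simp only [LinearMap.sub_apply, Module.End.one_apply, ha]
    abel
  by_cases ha0 : a = 0
  · left
    have h0 : a' = 0 := by
      rw [ha0, zero_pow (by omega)] at hun
      simpa using hun
    refine ⟨u, huu, 1, ?_⟩
    rw [hm, h0]
    simp
  · right; right
    have ha'0 : a' ≠ 0 := by
      intro h0
      rw [h0, zero_add] at hun
      have h1 := (mul_eq_zero.mp hun).resolve_right huu
      exact ha0 (pow_eq_zero_iff (by omega) |>.mp h1)
    constructor
    · apply LinearMap.ext
      intro x
      obtain ⟨c, hc⟩ := hdec x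
      have hxx : (T - 1) x = (h x v) • (β • v + a • u) + c • (a' • v) := by
        rw [hc]
        simp only [map_add, map_smul, hNv, hNv', hNu]
        simp [hvv, hv'v, hvv', hv'v', huv, huv', hvu, hv'u, S.add_left, S.smul_left]
      simp only [pow_succ, pow_zero, one_mul, Module.End.mul_apply, LinearMap.zero_apply]
      rw [hxx]
      simp only [map_add, map_smul, hNv, hNu, smul_zero, add_zero]
      simp
    · intro h0
      have h1 := congrArg (fun f : V →ₗ[F] V => f v') h0
      simp only [pow_succ, pow_zero, one_mul, Module.End.mul_apply, LinearMap.zero_apply] at h1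
      rw [hNv'] at h1
      simp only [map_add, map_smul, hNv, hNu, smul_zero, zero_add] at h1
      rw [smul_smul] at h1
      have h2 := (smul_eq_zero.mp h1).resolve_right hv0
      exact (mul_ne_zero ha0 ha'0) h2

end Cfsg.Agent.Lib.NCov.G5
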