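/-
`I1`: any two self-adjoint `E`-structures on a 6-dimensional symplectic space are isometric.
-/
import Cfsg.Agent.Lib.NCov.Defs
import Mathlib

set_option autoImplicit false

open Module

namespace Cfsg.Agent.Lib.NCov.I1

variable {F E V : Type*} [Field F] [Fintype F] [Field E] [Fintype E] [Algebra F E]
  [AddCommGroup V] [Module F V] [FiniteDimensional F V]

/-- The self-adjoint structure vanishes on `B (a v) v`. -/
theorem self_zero (h2 : (2 : F) ≠ 0) {B : LinearMap.BilinForm F V} (hB : B.IsAlt)
    (m : E →ₐ[F] Module.End F V) (h : ∀ a x y, B (m a x) y = B x (m a y)) (a : E) (v : V) :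
    B (m a v) v = 0 := by
  have h1 := h a v v
  have h0 : B v (m a v) = - B (m a v) v := by rw [hB.neg_eq]
  rw [h0] at h1
  have h3 : (2 : F) * B (m a v) v = 0 := by
    rw [two_mul]
    nth_rewrite 1 [h1]
    ring
  exact (mul_eq_zero.mp h3).resolve_left h2

/-- The span of `v` is totally isotropic. -/
theorem ti_zero (h2 : (2 : F) ≠ 0) {B : LinearMap.BilinForm F V} (hB : B.IsAlt)
    (m : E →ₐ[F] Module.End F V) (h : ∀ a x y, B (m a x) y = B x (m a y)) (a b : E) (v : V) :
    B (m a v) (m b v) = 0 := by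
  rw [← h b, ← Module.End.mul_apply, ← map_mul]
  exact self_zero h2 hB m h _ v

/-- The frame: the structure is isometric to `E × E` with the form `Tr (a d - b c)`. -/
theorem exists_frame (h2 : (2 : F) ≠ 0) (hE3 : finrank F E = 3) {B : LinearMap.BilinForm F V}
    (hB : B.IsAlt) (hN : B.Nondegenerate) (hdim : finrank F V = 6) (m : E →ₐ[F] Module.End F V)
    (h : ∀ a x y, B (m a x) y = B x (m a y)) :
    ∃ φ : (E × E) ≃ₗ[F] V,
      (∀ p q : E × E, B (φ p) (φ q) = Algebra.trace F E (p.1 * q.2 - p.2 * q.1)) ∧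
      ∀ (a : E) (p : E × E), φ (a * p.1, a * p.2) = m a (φ p) := by
  classical
  haveI : Nontrivial V := by
    apply Module.nontrivial_of_finrank_pos (R := F)
    omega
  obtain ⟨u, hu⟩ := exists_ne (0 : V)
  -- the map `a ↦ a u` is injective
  let eu : E →ₗ[F] V :=
    { toFun := fun a => m a u
      map_add' := fun a b => by simp
      map_smul' := fun c a => by simp }
  have heu : Function.Injective eu := by
    rw [← LinearMap.ker_eq_bot, LinearMap.ker_eq_bot']
    intro a ha
    by_contra ha0
    apply hu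
    have h1 : m a⁻¹ (m a u) = u := by
      rw [← Module.End.mul_apply, ← map_mul, inv_mul_cancel₀ ha0, map_one]
      rfl
    rw [← h1]
    have h3 : m a u = 0 := ha
    rw [h3, map_zero]
  obtain ⟨g, hg⟩ := LinearMap.exists_leftInverse_of_injective eu (LinearMap.ker_eq_bot.mpr heu)
  -- the functional
  let f : Module.Dual F V := (Algebra.trace F E).comp g
  let w' : V := (B.toDual hN).symm f
  have hw' : ∀ v, B w' v = f v := fun v => LinearMap.BilinForm.apply_toDual_symm_apply f v
  let w : V := -w'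
  have hw : ∀ a : E, B (m a u) w = Algebra.trace F E a := by
    intro a
    have h1 : B (m a u) w = B w' (m a u) := by
      simp only [w, map_neg]
      rw [hB.neg_eq]
    rw [h1, hw' (m a u)]
    have h3 : g (m a u) = a := by
      have := congrArg (fun k : E →ₗ[F] E => k a) hg
      simpa [eu] using this
    simp [f, h3]
  let ew : E →ₗ[F] V :=
    { toFun := fun a => m a w
      map_add' := fun a b => by simp
      map_smul' := fun c a => by simp }
  let φ₀ : (E × E) →ₗ[F] V := LinearMap.coprod eu ew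
  have hφ₀ : ∀ p : E × E, φ₀ p = m p.1 u + m p.2 w := fun p => rfl
  have hform : ∀ p q : E × E, B (φ₀ p) (φ₀ q) = Algebra.trace F E (p.1 * q.2 - p.2 * q.1) := by
    intro p q
    rw [hφ₀, hφ₀]
    simp only [map_add, LinearMap.add_apply]
    rw [ti_zero h2 hB m h p.1 q.1 u, ti_zero h2 hB m h p.2 q.2 w]
    have h1 : B (m p.1 u) (m q.2 w) = Algebra.trace F E (p.1 * q.2) := by
      rw [← h q.2, ← Module.End.mul_apply, ← map_mul, hw, mul_comm]
    have h3 : B (m p.2 w) (m q.1 u) = - Algebra.trace F E (p.2 * q.1) := by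
      rw [← hB.neg_eq, ← h p.2, ← Module.End.mul_apply, ← map_mul, hw]
    rw [h1, h3, map_sub]
    ring
  have htr : ∀ a : E, (∀ d : E, Algebra.trace F E (a * d) = 0) → a = 0 := by
    intro a ha
    have hnd := (traceForm_nondegenerate F E).1
    exact hnd a (fun d => by simpa [Algebra.traceForm_apply] using ha d)
  have hinj : Function.Injective φ₀ := by
    rw [← LinearMap.ker_eq_bot, LinearMap.ker_eq_bot']
    intro p hp
    have h1 : ∀ q : E × E, Algebra.trace F E (p.1 * q.2 - p.2 * q.1) = 0 := by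
      intro q
      rw [← hform, hp]
      simp
    have hp1 : p.1 = 0 := htr _ (fun d => by simpa using h1 (0, d))
    have hp2 : p.2 = 0 := htr _ (fun d => by
      have := h1 (d, 0)
      simpa using this)
    exact Prod.ext hp1 hp2
  have hfin : finrank F (E × E) = finrank F V := by
    rw [Module.finrank_prod, hE3, hdim]
  refine ⟨φ₀.linearEquivOfInjective hinj hfin, ?_, ?_⟩
  · intro p q
    rw [LinearMap.linearEquivOfInjective_apply, LinearMap.linearEquivOfInjective_apply]
    exact hform p q
  · intro a p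
    rw [LinearMap.linearEquivOfInjective_apply, LinearMap.linearEquivOfInjective_apply, hφ₀, hφ₀]
    simp only [map_add, map_mul, Module.End.mul_apply]

/-- `I1`: any two self-adjoint `E`-structures on a 6-dimensional symplectic space are isometric. -/
theorem I1_cubicStr_conj (h2 : (2 : F) ≠ 0) (hE3 : finrank F E = 3) {B : LinearMap.BilinForm F V}
    (hB : B.IsAlt) (hN : B.Nondegenerate)
    (hdim : finrank F V = 6) (m₁ m₂ : E →ₐ[F] Module.End F V)
    (h₁ : ∀ a x y, B (m₁ a x) y = B x (m₁ a y)) (h₂ : ∀ a x y, B (m₂ a x) y = B x (m₂ a y)) :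
    ∃ x : V ≃ₗ[F] V, (∀ u v, B (x u) (x v) = B u v) ∧ ∀ a v, x (m₁ a v) = m₂ a (x v) := by
  obtain ⟨φ₁, hf₁, hm₁⟩ := exists_frame h2 hE3 hB hN hdim m₁ h₁
  obtain ⟨φ₂, hf₂, hm₂⟩ := exists_frame h2 hE3 hB hN hdim m₂ h₂
  refine ⟨φ₁.symm.trans φ₂, ?_, ?_⟩
  · intro u v
    simp only [LinearEquiv.trans_apply]
    rw [hf₂, ← hf₁, LinearEquiv.apply_symm_apply, LinearEquiv.apply_symm_apply]
  · intro a v
    simp only [LinearEquiv.trans_apply]
    obtain ⟨p, rfl⟩ := φ₁.surjective v
    rw [← hm₁, LinearEquiv.symm_apply_apply, LinearEquiv.symm_apply_apply, hm₂]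

end Cfsg.Agent.Lib.NCov.I1
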