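/-
`I2`: multiplicative Jordan decomposition of an isometry of a non-degenerate form over a finite field.
-/
import Cfsg.Agent.Lib.NCov.Defs
import Mathlib

set_option autoImplicit false

open Module Polynomial

namespace Cfsg.Agent.Lib.NCov.I2

variable {F V : Type*} [Field F] [AddCommGroup V] [Module F V]

/-- The adjoint of a polynomial in `f` is the same polynomial in the adjoint of `f`. -/
theorem adj_aeval {B : LinearMap.BilinForm F V} (f f' : Module.End F V)
    (h : ∀ x y, B (f x) y = B x (f' y)) (P : F[X]) (x y : V) :
    B (aeval f P x) y = B x (aeval f' P y) := by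
  induction P using Polynomial.induction_on' generalizing x y with
  | add p q hp hq =>
    simp only [map_add, LinearMap.add_apply, hp, hq]
  | monomial n a =>
    simp only [aeval_monomial]
    induction n generalizing x y with
    | zero =>
      simp [Module.algebraMap_end_apply]
    | succ n ih =>
      have := ih (f x) y
      simp only [Module.End.mul_apply, Module.algebraMap_end_apply, Module.End.pow_apply] at this ⊢
      simp only [Function.iterate_succ_apply]
      rw [this, h]
      simp only [map_smul, LinearMap.smul_apply]
      rw [← Function.iterate_succ_apply f' n y, Function.iterate_succ_apply' f' n y]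

/-- A polynomial relation transfers to the adjoint. -/
theorem aeval_adj_eq_zero {B : LinearMap.BilinForm F V} (hN : ∀ x : V, (∀ y, B y x = 0) → x = 0)
    (f f' : Module.End F V) (h : ∀ x y, B (f x) y = B x (f' y)) (P : F[X])
    (hP : aeval f P = 0) : aeval f' P = 0 := by
  ext y
  apply hN
  intro x
  rw [← adj_aeval f f' h P x y, hP]
  simp

theorem commute_aeval {A : Type*} [Ring A] [Algebra F A] {a b : A} (hab : Commute a b) (P Q : F[X]) :
    Commute (aeval a P) (aeval b Q) := by
  have h1 : ∀ Q : F[X], Commute a (aeval b Q) := by
    intro Q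
    induction Q using Polynomial.induction_on' with
    | add p q hp hq => simpa using hp.add_right hq
    | monomial n c =>
      simp only [aeval_monomial]
      exact (show Commute a (algebraMap F A c) from (Algebra.commutes c a).symm).mul_right (hab.pow_right n)
  induction P using Polynomial.induction_on' with
  | add p q hp hq => simpa using hp.add_left hq
  | monomial n c =>
    simp only [aeval_monomial]
    exact (show Commute (algebraMap F A c) (aeval b Q) from Algebra.commutes c (aeval b Q)).mul_left ((h1 Q).pow_left n)

theorem I2_jordan [Fintype F] [FiniteDimensional F V] (h2 : (2 : F) ≠ 0)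
    {B : LinearMap.BilinForm F V} (hB : B.IsAlt) (hN : B.Nondegenerate)
    (g : V ≃ₗ[F] V) (hg : ∀ x y, B (g x) (g y) = B x y) :
    ∃ s u : V ≃ₗ[F] V, (∀ x, g x = s (u x)) ∧ (∀ x, s (u x) = u (s x)) ∧
      Module.End.IsSemisimple (s : Module.End F V) ∧ IsNilpotent ((u : V →ₗ[F] V) - 1) ∧
      (∀ x y, B (s x) (s y) = B x y) ∧ (∀ x y, B (u x) (u y) = B x y) := by
  classical
  haveI : PerfectField F := inferInstance
  have hsepR : ∀ x : V, (∀ y, B y x = 0) → x = 0 := hN.2
  set f : Module.End F V := (g : V →ₗ[F] V) with hf
  set f' : Module.End F V := (g.symm : V →ₗ[F] V) with hf'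
  have hff' : Commute f f' := by
    show f * f' = f' * f
    ext x
    simp [hf, hf']
  have hf'f : f' * f = 1 := by
    ext x
    simp [hf, hf']
  have hadj : ∀ x y, B (f x) y = B x (f' y) := by
    intro x y
    have := hg x (g.symm y)
    simpa [hf, hf'] using this
  obtain ⟨n, hn, s, hs, hnn, hss, hfns⟩ := Module.End.exists_isNilpotent_isSemisimple (f := f)
  obtain ⟨P, hP⟩ := (Algebra.adjoin_singleton_eq_range_aeval F f ▸ hn :
    n ∈ (aeval f : F[X] →ₐ[F] Module.End F V).range)
  obtain ⟨Q, hQ⟩ := (Algebra.adjoin_singleton_eq_range_aeval F f ▸ hs :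
    s ∈ (aeval f : F[X] →ₐ[F] Module.End F V).range)
  have hP' : aeval f P = n := hP
  have hQ' : aeval f Q = s := hQ
  set n' : Module.End F V := aeval f' P with hn'
  set s' : Module.End F V := aeval f' Q with hs'
  -- transfer
  have hs'ss : s'.IsSemisimple := by
    apply Module.End.isSemisimple_of_squarefree_aeval_eq_zero hss.minpoly_squarefree
    have : aeval f ((minpoly F s).comp Q) = 0 := by
      rw [aeval_comp, hQ']
      exact minpoly.aeval F s
    have h0 := aeval_adj_eq_zero hsepR f f' hadj _ this
    rwa [aeval_comp] at h0
  have hn'nil : IsNilpotent n' := by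
    obtain ⟨k, hk⟩ := hnn
    refine ⟨k, ?_⟩
    have : aeval f (P ^ k) = 0 := by rw [map_pow, hP', hk]
    have h0 := aeval_adj_eq_zero hsepR f f' hadj _ this
    rwa [map_pow] at h0
  have hf'ns : f' = n' + s' := by
    have : aeval f (P + Q - X) = 0 := by
      rw [map_sub, map_add, aeval_X, hP', hQ', hfns, sub_self]
    have h0 := aeval_adj_eq_zero hsepR f f' hadj _ this
    rw [map_sub, map_add, aeval_X, sub_eq_zero] at h0
    exact h0.symm
  have c1 : Commute s' s := by
    rw [hs', ← hQ']
    exact commute_aeval hff'.symm Q Q
  have c2 : Commute s' n := by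
    rw [hs', ← hP']
    exact commute_aeval hff'.symm Q P
  have c3 : Commute n' s := by
    rw [hn', ← hQ']
    exact commute_aeval hff'.symm P Q
  have c4 : Commute n' n := by
    rw [hn', ← hP']
    exact commute_aeval hff'.symm P P
  have c5 : Commute s' n' := by
    rw [hn', hs']
    exact commute_aeval (Commute.refl f') Q P
  have c6 : Commute n s := by
    rw [← hP', ← hQ']
    exact commute_aeval (Commute.refl f) P Q
  have hprod : s' * s - 1 = -(s' * n + n' * s + n' * n) := by
    have : (n' + s') * (n + s) = 1 := by rw [← hf'ns, ← hfns]; exact hf'f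
    rw [eq_neg_iff_add_eq_zero]
    rw [sub_add_eq_add_sub, sub_eq_zero, ← this]
    noncomm_ring
  have hnilX : IsNilpotent (s' * s - 1) := by
    rw [hprod]
    apply IsNilpotent.neg
    have t1 : IsNilpotent (s' * n) := c2.isNilpotent_mul_left hnn
    have t2 : IsNilpotent (n' * s) := c3.isNilpotent_mul_right hn'nil
    have t3 : IsNilpotent (n' * n) := c4.isNilpotent_mul_left hnn
    have t12 : Commute (s' * n) (n' * s) := by
      apply Commute.mul_left
      · exact Commute.mul_right c5 c1
      · exact Commute.mul_right c4.symm c6
    have t123 : Commute (s' * n + n' * s) (n' * n) := by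
      apply Commute.add_left
      · apply Commute.mul_left
        · exact Commute.mul_right c5 c2
        · exact Commute.mul_right c4.symm (Commute.refl n)
      · apply Commute.mul_left
        · exact Commute.mul_right (Commute.refl n') c4
        · exact Commute.mul_right c3.symm c6.symm
    exact t123.isNilpotent_add (t12.isNilpotent_add t1 t2) t3
  have hssX : (s' * s - 1).IsSemisimple := by
    have : (s' * s).IsSemisimple := hs'ss.mul_of_commute c1 hss
    have h1 := (Module.End.isSemisimple_sub_algebraMap_iff (f := s' * s) (μ := (1 : F))).2 this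
    simpa using h1
  have hX0 : s' * s = 1 := by
    have := Module.End.eq_zero_of_isNilpotent_isSemisimple hnilX hssX
    exact sub_eq_zero.1 this
  have hX1 : s * s' = 1 := by rw [← c1.eq]; exact hX0
  -- the equivalences
  let S : V ≃ₗ[F] V := LinearEquiv.ofLinear s s' hX1 hX0
  have hSap : ∀ x, S x = s x := fun x => rfl
  have hSsymm : ∀ x, S.symm x = s' x := fun x => rfl
  have hadjs : ∀ x y, B (s x) y = B x (s' y) := by
    intro x y
    rw [← hQ', hs']
    exact adj_aeval f f' hadj Q x y
  have hSB : ∀ x y, B (S x) (S y) = B x y := by
    intro x y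
    rw [hSap, hSap, hadjs]
    have : s' (s y) = y := by
      have := congrArg (fun φ : Module.End F V => φ y) hX0
      simpa using this
    rw [this]
  let U : V ≃ₗ[F] V := g.trans S.symm
  have hUap : ∀ x, U x = s' (f x) := fun x => rfl
  have hfs : Commute f s := by
    rw [← hQ']
    exact commute_aeval (Commute.refl f) (X : F[X]) Q |> fun h => by simpa using h
  have hcomm : ∀ x, S (U x) = U (S x) := by
    intro x
    rw [hUap, hUap, hSap, hSap]
    have h1 : s (s' (f x)) = f x := by
      have := congrArg (fun φ : Module.End F V => φ (f x)) hX1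
      simpa using this
    rw [h1]
    have h2 : f (s x) = s (f x) := by
      have := congrArg (fun φ : Module.End F V => φ x) hfs.eq
      simpa using this
    rw [h2]
    have h3 : s' (s (f x)) = f x := by
      have := congrArg (fun φ : Module.End F V => φ (f x)) hX0
      simpa using this
    rw [h3]
  refine ⟨S, U, ?_, hcomm, hss, ?_, hSB, ?_⟩
  · intro x
    simp [U]
  · have hU : (U : V →ₗ[F] V) - 1 = s' * n := by
      have hUf : (U : V →ₗ[F] V) = s' * f := by
        ext x
        exact hUap x
      rw [hUf, hfns, mul_add, hX0]
      abel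
    rw [hU]
    exact c2.isNilpotent_mul_left hnn
  · intro x y
    have h1 : ∀ z w, B (S.symm z) (S.symm w) = B z w := by
      intro z w
      have := hSB (S.symm z) (S.symm w)
      rw [LinearEquiv.apply_symm_apply, LinearEquiv.apply_symm_apply] at this
      exact this.symm
    show B (S.symm (g x)) (S.symm (g y)) = B x y
    rw [h1, hg]

end Cfsg.Agent.Lib.NCov.I2
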