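/-
`I3`: a self-adjoint operator commuting with `g` whose minimal polynomial factors into coprime
non-units gives a proper non-degenerate `g`-invariant subspace.
-/
import Mathlib

set_option autoImplicit false

namespace Cfsg.Agent.Lib.NCov.I3

open Polynomial Module

variable {F V : Type*} [Field F] [AddCommGroup V] [Module F V]

theorem pow_selfadj {B : LinearMap.BilinForm F V} (τ : V →ₗ[F] V)
    (hτ : ∀ x y, B (τ x) y = B x (τ y)) (n : ℕ) (x y : V) :
    B ((τ ^ n) x) y = B x ((τ ^ n) y) := by
  induction n generalizing x y with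
  | zero => simp
  | succ n ih =>
    rw [pow_succ, Module.End.mul_apply, ih, hτ, ← Module.End.mul_apply, ← pow_succ', pow_succ]

theorem aeval_selfadj {B : LinearMap.BilinForm F V} (τ : V →ₗ[F] V)
    (hτ : ∀ x y, B (τ x) y = B x (τ y)) (f : F[X]) (x y : V) :
    B (aeval τ f x) y = B x (aeval τ f y) := by
  induction f using Polynomial.induction_on' with
  | add p q hp hq => simp only [map_add, LinearMap.add_apply, hp, hq]
  | monomial n a =>
    rw [aeval_monomial, Module.End.mul_apply, Module.End.mul_apply, Module.algebraMap_end_apply,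
      Module.algebraMap_end_apply, map_smul, LinearMap.smul_apply, map_smul, pow_selfadj τ hτ]

theorem comm_aeval (τ g : V →ₗ[F] V) (hgτ : ∀ x, g (τ x) = τ (g x)) (f : F[X]) (x : V) :
    g (aeval τ f x) = aeval τ f (g x) := by
  have hc : Commute g τ := LinearMap.ext hgτ
  have hcf : Commute g (aeval τ f) := by
    induction f using Polynomial.induction_on' with
    | add p q hp hq => rw [map_add]; exact hp.add_right hq
    | monomial n a =>
      rw [aeval_monomial]
      exact (Algebra.commute_algebraMap_right a g).mul_right (hc.pow_right n)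
  exact LinearMap.congr_fun hcf.eq x

theorem I3_split [FiniteDimensional F V] {B : LinearMap.BilinForm F V} (hB : B.IsAlt)
    (hN : B.Nondegenerate)
    (τ g : V →ₗ[F] V) (hτ : ∀ x y, B (τ x) y = B x (τ y)) (hgτ : ∀ x, g (τ x) = τ (g x))
    (p p' : F[X]) (hcop : IsCoprime p p') (hp : ¬ IsUnit p) (hp' : ¬ IsUnit p')
    (hprod : minpoly F τ = p * p') :
    ∃ U : Submodule F V, U ≠ ⊥ ∧ U ≠ ⊤ ∧ (∀ x ∈ U, g x ∈ U) ∧
      (∀ x ∈ U, (∀ y ∈ U, B x y = 0) → x = 0) := by
  classical
  have hint : IsIntegral F τ := Algebra.IsIntegral.isIntegral τ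
  have hmne : minpoly F τ ≠ 0 := minpoly.ne_zero hint
  have hp0 : p ≠ 0 := by rintro rfl; simp at hprod; exact hmne hprod
  have hp'0 : p' ≠ 0 := by rintro rfl; simp at hprod; exact hmne hprod
  have hmp : (aeval τ p) * (aeval τ p') = 0 := by
    rw [← map_mul, ← hprod, minpoly.aeval]
  have hsup : LinearMap.ker (aeval τ p) ⊔ LinearMap.ker (aeval τ p') = ⊤ := by
    rw [sup_ker_aeval_eq_ker_aeval_mul_of_coprime τ hcop, ← hprod, minpoly.aeval,
      LinearMap.ker_zero]
  have hpp'dvd : ∀ f : F[X], aeval τ f = 0 → p * p' ∣ f := by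
    intro f hf
    rw [← hprod]
    exact minpoly.dvd F τ hf
  -- orthogonality
  obtain ⟨a, b, hab⟩ := hcop
  have horth : ∀ x ∈ LinearMap.ker (aeval τ p), ∀ y ∈ LinearMap.ker (aeval τ p'), B x y = 0 := by
    intro x hx y hy
    have hx' : aeval τ p x = 0 := hx
    have hy' : aeval τ p' y = 0 := hy
    have e1 : aeval τ (b * p') x = x := by
      have := LinearMap.congr_fun (congrArg (aeval τ) hab) x
      simp only [map_add, map_mul, LinearMap.add_apply, Module.End.mul_apply, map_one,
        Module.End.one_apply, hx', map_zero, zero_add] at this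
      rw [map_mul, Module.End.mul_apply]
      exact this
    rw [← e1, aeval_selfadj τ hτ, map_mul, Module.End.mul_apply, hy', map_zero, map_zero]
  refine ⟨LinearMap.ker (aeval τ p), ?_, ?_, ?_, ?_⟩
  · intro h
    have h0 : aeval τ p' = 0 := by
      ext v
      have : aeval τ p' v ∈ LinearMap.ker (aeval τ p) := by
        rw [LinearMap.mem_ker, ← Module.End.mul_apply, hmp]
        rfl
      rw [h, Submodule.mem_bot] at this
      exact this
    have h1 : p * p' ∣ 1 * p' := by rw [one_mul]; exact hpp'dvd p' h0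
    exact hp (isUnit_of_dvd_one ((mul_dvd_mul_iff_right hp'0).1 h1))
  · intro h
    have h0 : aeval τ p = 0 := by
      ext v
      have : v ∈ LinearMap.ker (aeval τ p) := by rw [h]; trivial
      exact this
    have h1 : p * p' ∣ p * 1 := by rw [mul_one]; exact hpp'dvd p h0
    exact hp' (isUnit_of_dvd_one ((mul_dvd_mul_iff_left hp0).1 h1))
  · intro x hx
    have hx' : aeval τ p x = 0 := hx
    show aeval τ p (g x) = 0
    rw [← comm_aeval τ g hgτ, hx', map_zero]
  · intro x hx hxy
    apply hN.1
    intro z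
    have hz : z ∈ LinearMap.ker (aeval τ p) ⊔ LinearMap.ker (aeval τ p') := by rw [hsup]; trivial
    obtain ⟨z1, hz1, z2, hz2, rfl⟩ := Submodule.mem_sup.1 hz
    rw [map_add, hxy z1 hz1, horth x hx z2 hz2, add_zero]

end Cfsg.Agent.Lib.NCov.I3
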