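/-
`I4`: a self-adjoint operator with irreducible minimal polynomial of degree `d`: `2 d` divides the dimension.
`I4b`: in degree 3 it gives a self-adjoint `E`-structure.
-/
import Mathlib
import Cfsg.Agent.Lib.NCov.I3
import Cfsg.Agent.Lib.SpWreath.Rank

set_option autoImplicit false
set_option linter.style.haveILetI false
set_option linter.unusedVariables false

namespace Cfsg.Agent.Lib.NCov.I4

open Polynomial Module Cfsg.Agent.Lib.NCov.I3

section
variable {F V : Type*} [Field F] [AddCommGroup V] [Module F V]

/-- The algebra map from `F[X]/(m)` to the endomorphisms. -/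
noncomputable def rootHom (τ : Module.End F V) (m : F[X]) (h : aeval τ m = 0) :
    AdjoinRoot m →ₐ[F] Module.End F V :=
  Ideal.Quotient.liftₐ (Ideal.span {m}) (aeval τ) (fun a ha => by
    obtain ⟨b, rfl⟩ := Ideal.mem_span_singleton'.1 ha
    rw [map_mul, h, mul_zero])

theorem rootHom_mk (τ : Module.End F V) (m : F[X]) (h : aeval τ m = 0) (f : F[X]) :
    rootHom τ m h (AdjoinRoot.mk m f) = aeval τ f := rfl

theorem natDegree_dvd_finrank [FiniteDimensional F V] (τ : Module.End F V) (m : F[X])
    (hm : Irreducible m) (h : aeval τ m = 0) : m.natDegree ∣ finrank F V := by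
  haveI := Fact.mk hm
  let φ := rootHom τ m h
  letI : Module (AdjoinRoot m) V := Module.compHom V φ.toRingHom
  haveI : IsScalarTower F (AdjoinRoot m) V := ⟨fun c k v => by
    change φ (c • k) v = c • φ k v
    rw [map_smul]
    rfl⟩
  haveI : Module.Finite (AdjoinRoot m) V := Module.Finite.of_restrictScalars_finite F _ _
  rw [← Module.finrank_mul_finrank F (AdjoinRoot m) V]
  have hd : finrank F (AdjoinRoot m) = m.natDegree := by
    rw [(AdjoinRoot.powerBasis hm.ne_zero).finrank, AdjoinRoot.powerBasis_dim]
  rw [hd]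
  exact Dvd.intro _ rfl

end

section

variable {F V : Type*} [Field F] [Finite F] [AddCommGroup V] [Module F V] [FiniteDimensional F V]

theorem I4_even (h2 : (2 : F) ≠ 0) {B : LinearMap.BilinForm F V} (hB : B.IsAlt)
    (hN : B.Nondegenerate)
    (τ : V →ₗ[F] V) (hτ : ∀ x y, B (τ x) y = B x (τ y)) (hirr : Irreducible (minpoly F τ)) :
    2 * (minpoly F τ).natDegree ∣ finrank F V := by
  classical
  set μ := minpoly F τ with hμ
  haveI := Fact.mk hirr
  let φ := rootHom τ μ (minpoly.aeval F τ)
  letI : Module (AdjoinRoot μ) V := Module.compHom V φ.toRingHom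
  have hsmul : ∀ (a : AdjoinRoot μ) (x : V), a • x = φ a x := fun _ _ => rfl
  haveI : IsScalarTower F (AdjoinRoot μ) V := ⟨fun c k v => by
    change φ (c • k) v = c • φ k v
    rw [map_smul]
    rfl⟩
  haveI : Module.Finite (AdjoinRoot μ) V := Module.Finite.of_restrictScalars_finite F _ _
  have hd : finrank F (AdjoinRoot μ) = μ.natDegree := by
    rw [(AdjoinRoot.powerBasis hirr.ne_zero).finrank, AdjoinRoot.powerBasis_dim]
  haveI : FiniteDimensional F (AdjoinRoot μ) := (AdjoinRoot.powerBasis hirr.ne_zero).finite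
  -- self-adjointness of the scalars
  have hK : ∀ (a : AdjoinRoot μ) (x y : V), B (a • x) y = B x (a • y) := by
    intro a x y
    obtain ⟨f, rfl⟩ := AdjoinRoot.mk_surjective a
    rw [hsmul, hsmul, rootHom_mk]
    exact aeval_selfadj τ hτ f x y
  -- the `K`-valued form
  have hT := traceForm_nondegenerate F (AdjoinRoot μ)
  let D := LinearMap.BilinForm.toDual (Algebra.traceForm F (AdjoinRoot μ)) hT
  let ψ : V → V → (AdjoinRoot μ →ₗ[F] F) := fun x y =>
    { toFun := fun c => B (c • x) y
      map_add' := fun a b => by rw [add_smul, map_add]; rfl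
      map_smul' := fun c a => by
        rw [smul_assoc, map_smul]
        rfl }
  let B' : V → V → AdjoinRoot μ := fun x y => D.symm (ψ x y)
  have key : ∀ x y c, Algebra.trace F (AdjoinRoot μ) (B' x y * c) = B (c • x) y := by
    intro x y c
    have := LinearMap.BilinForm.apply_toDual_symm_apply (B := Algebra.traceForm F (AdjoinRoot μ))
      (hB := hT) (ψ x y) c
    rwa [Algebra.traceForm_apply] at this
  have hinj : ∀ z w : AdjoinRoot μ, (∀ c, Algebra.trace F (AdjoinRoot μ) (z * c) =
      Algebra.trace F (AdjoinRoot μ) (w * c)) → z = w := by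
    intro z w h
    have : z - w = 0 := by
      apply hT.1
      intro c
      rw [Algebra.traceForm_apply, sub_mul, map_sub, h, sub_self]
    exact sub_eq_zero.1 this
  let B'' : LinearMap.BilinForm (AdjoinRoot μ) V := LinearMap.mk₂ (AdjoinRoot μ) B'
    (fun x x' y => hinj _ _ fun c => by
      rw [add_mul, map_add, key, key, key, smul_add, map_add, LinearMap.add_apply])
    (fun a x y => hinj _ _ fun c => by
      rw [smul_eq_mul, mul_comm a, mul_assoc, key, key, smul_smul, mul_comm c a])
    (fun x y y' => hinj _ _ fun c => by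
      rw [add_mul, map_add, key, key, key, map_add])
    (fun a x y => hinj _ _ fun c => by
      rw [smul_eq_mul, mul_comm a, mul_assoc, key, key, ← hK, smul_smul])
  have hB'' : ∀ x y, B'' x y = B' x y := fun _ _ => rfl
  have halt : B''.IsAlt := by
    intro x
    rw [hB'']
    apply hinj
    intro c
    rw [key, zero_mul, map_zero]
    have h1 : B (c • x) x = B x (c • x) := hK c x x
    have h3 : B x (c • x) = - B (c • x) x := (hB.neg_eq _ _).symm
    have h4 : (2 : F) * B (c • x) x = 0 := by
      rw [two_mul]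
      nth_rewrite 1 [h1]
      rw [h3]
      ring
    exact (mul_eq_zero.1 h4).resolve_left h2
  have hnd : B''.Nondegenerate := by
    refine ⟨fun x hx => ?_, fun y hy => ?_⟩
    · apply hN.1
      intro y
      have h1 := key x y 1
      have h3 : B' x y = 0 := hx y
      rw [h3, one_smul, zero_mul, map_zero] at h1
      exact h1.symm
    · apply hN.2
      intro x
      have h1 := key x y 1
      have h3 : B' x y = 0 := hy x
      rw [h3, one_smul, zero_mul, map_zero] at h1
      exact h1.symm
  obtain ⟨r, hr⟩ := Cfsg.Agent.Lib.SpWreath.Rank.finrank_even B'' halt hnd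
  rw [← Module.finrank_mul_finrank F (AdjoinRoot μ) V, hd, hr]
  exact ⟨r, by ring⟩

end

section

variable {F E V : Type*} [Field F] [Finite F] [AddCommGroup V] [Module F V] [FiniteDimensional F V]
  [Field E] [Finite E] [Algebra F E]

theorem I4b_struct (hE3 : finrank F E = 3) {B : LinearMap.BilinForm F V}
    (τ : V →ₗ[F] V) (hτ : ∀ x y, B (τ x) y = B x (τ y)) (hirr : Irreducible (minpoly F τ))
    (hdeg : (minpoly F τ).natDegree = 3) :
    ∃ m : E →ₐ[F] Module.End F V, (∀ a x y, B (m a x) y = B x (m a y)) ∧
      ∀ g : V →ₗ[F] V, (∀ x, g (τ x) = τ (g x)) → ∀ a v, g (m a v) = m a (g v) := by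
  classical
  set μ := minpoly F τ with hμ
  haveI := Fact.mk hirr
  let φ := rootHom τ μ (minpoly.aeval F τ)
  have hd : finrank F (AdjoinRoot μ) = 3 := by
    rw [(AdjoinRoot.powerBasis hirr.ne_zero).finrank, AdjoinRoot.powerBasis_dim, hdeg]
  haveI : FiniteDimensional F (AdjoinRoot μ) := (AdjoinRoot.powerBasis hirr.ne_zero).finite
  haveI : Finite (AdjoinRoot μ) := Module.finite_of_finite F
  obtain ⟨ι⟩ := FiniteField.nonempty_algHom_of_finrank_dvd (F := F) (K := AdjoinRoot μ) (L := E)
    (by rw [hd, hE3])
  have hbij : Function.Bijective ι := by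
    refine ⟨ι.injective, ?_⟩
    exact (LinearMap.injective_iff_surjective_of_finrank_eq_finrank (hd.trans hE3.symm)
      (f := ι.toLinearMap)).1 ι.injective
  let e : AdjoinRoot μ ≃ₐ[F] E := AlgEquiv.ofBijective ι hbij
  refine ⟨φ.comp e.symm.toAlgHom, ?_, ?_⟩
  · intro a x y
    obtain ⟨f, hf⟩ := AdjoinRoot.mk_surjective (e.symm a)
    have h1 : (φ.comp e.symm.toAlgHom) a = aeval τ f := by
      change φ (e.symm a) = _
      rw [← hf, rootHom_mk]
    rw [h1]
    exact aeval_selfadj τ hτ f x y
  · intro g hg a v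
    obtain ⟨f, hf⟩ := AdjoinRoot.mk_surjective (e.symm a)
    have h1 : (φ.comp e.symm.toAlgHom) a = aeval τ f := by
      change φ (e.symm a) = _
      rw [← hf, rootHom_mk]
    rw [h1]
    exact comm_aeval τ g hg f v

end

end Cfsg.Agent.Lib.NCov.I4
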