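/-
`I5a`: the tensor normal form of a commuting pair (semisimple, unipotent of index 3) of isometries of a
six-dimensional symplectic space in characteristic 3.
-/
import Cfsg.Agent.Lib.NCov.Defs
import Mathlib

set_option autoImplicit false

namespace Cfsg.Agent.Lib.NCov.I5a

open Module

variable {F E V : Type*} [Field F] [Fintype F] [AddCommGroup V] [Module F V] [FiniteDimensional F V]
  [Field E] [Fintype E] [Algebra F E]

/-- `I5a`: the tensor normal form `g ~ (shift) ⊗ S`. -/
theorem I5a_tensor (h3 : (3 : F) = 0) {B : LinearMap.BilinForm F V} (hB : B.IsAlt) (hN : B.Nondegenerate)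
    (hdim : finrank F V = 6) (s u : V ≃ₗ[F] V) (hsu : ∀ x, s (u x) = u (s x))
    (hs : Module.End.IsSemisimple (s : Module.End F V)) (hsB : ∀ x y, B (s x) (s y) = B x y) (huB : ∀ x y, B (u x) (u y) = B x y)
    (hN3 : ((u : V →ₗ[F] V) - 1) ^ 3 = 0) (hN2 : ((u : V →ₗ[F] V) - 1) ^ 2 ≠ 0) :
    ∃ (y₁ y₂ : V) (a b c d : F), s y₁ = a • y₁ + c • y₂ ∧ s y₂ = b • y₁ + d • y₂ ∧
      B y₁ y₂ = 1 ∧ B y₁ (u y₂) = 0 ∧ B y₁ (u (u y₂)) = 0 ∧
      B (u y₁) y₁ = 0 ∧ B (u y₂) y₂ = 0 := by
  have h2ne : (2 : F) ≠ 0 := by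
    intro h
    have : (1 : F) = 0 := by linear_combination h3 - h
    exact one_ne_zero this
  obtain ⟨N, hNdef⟩ : ∃ N : V →ₗ[F] V, N = (u : V →ₗ[F] V) - 1 := ⟨_, rfl⟩
  rw [← hNdef] at hN3 hN2
  have hNx : ∀ x, N x = u x - x := fun x => by simp [hNdef]
  have hux : ∀ x, u x = x + N x := fun x => by simp [hNx]
  have hN3' : ∀ x, N (N (N x)) = 0 := fun x => by
    have := congrArg (fun f : V →ₗ[F] V => f x) hN3
    simpa [pow_succ, Module.End.mul_apply] using this
  have hskew : ∀ x y, B x y = - B y x := fun x y => by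
    have h := hB (x + y)
    simp only [map_add, LinearMap.add_apply, hB x, hB y] at h
    linear_combination h
  have hiso : ∀ x y, B (N x) y + B x (N y) + B (N x) (N y) = 0 := fun x y => by
    have h := huB x y
    rw [hux x, hux y] at h
    simp only [map_add, LinearMap.add_apply] at h
    linear_combination h
  have h21 : ∀ x y, B (N (N x)) (N y) = 0 := fun x y => by
    have h := hiso (N (N x)) y
    simpa [hN3'] using h
  have h12 : ∀ x y, B (N x) (N (N y)) = 0 := fun x y => by
    rw [hskew, h21]; simp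
  have h11 : ∀ x y, B (N x) (N y) = - B (N (N x)) y := fun x y => by
    have h := hiso (N x) y
    rw [h21] at h
    linear_combination h
  have hsym : ∀ x y, B (N (N x)) y = B x (N (N y)) := fun x y => by
    have h := hiso x (N y)
    rw [h12, h11] at h
    linear_combination -h
  have hself : ∀ x, B (N (N x)) x = 0 := fun x => by
    have h := hsym x x
    have h' := hskew (N (N x)) x
    rw [h] at h'
    have h'' := hsym x x
    have : (2 : F) * B (N (N x)) x = 0 := by
      rw [h]
      linear_combination h'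
    exact (mul_eq_zero.1 this).resolve_left h2ne
  have hanti : ∀ x y, B (N (N x)) y = - B (N (N y)) x := fun x y => by
    rw [hsym x y, hskew]
  have hsN : ∀ x, s (N x) = N (s x) := fun x => by
    rw [hNx, hNx, map_sub, hsu]
  -- the invariant complement
  have hKinv : LinearMap.ker (N ∘ₗ N) ∈ Module.End.invtSubmodule (s : Module.End F V) := by
    rw [Module.End.mem_invtSubmodule]
    intro x hx
    simp only [LinearMap.mem_ker, LinearMap.comp_apply, Submodule.mem_comap] at hx ⊢
    change N (N (s x)) = 0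
    rw [← hsN, ← hsN, hx, map_zero]
  obtain ⟨Y, hYinv, hY⟩ := (Module.End.isSemisimple_iff.1 hs) _ hKinv
  rw [Module.End.mem_invtSubmodule] at hYinv
  have hsY : ∀ y ∈ Y, s y ∈ Y := fun y hy => hYinv hy
  have hYK : ∀ y ∈ Y, N (N y) = 0 → y = 0 := fun y hy h0 => by
    have : y ∈ LinearMap.ker (N ∘ₗ N) ⊓ Y := ⟨by simpa using h0, hy⟩
    rw [hY.inf_eq_bot] at this
    simpa using this
  have hdec : ∀ v : V, ∃ k y, N (N k) = 0 ∧ y ∈ Y ∧ k + y = v := fun v => by
    have : v ∈ LinearMap.ker (N ∘ₗ N) ⊔ Y := by rw [hY.sup_eq_top]; trivial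
    obtain ⟨k, hk, y, hy, hv⟩ := Submodule.mem_sup.1 this
    exact ⟨k, y, by simpa using hk, hy, hv⟩
  -- `Y ≠ 0`
  have hYne : Y ≠ ⊥ := by
    rintro rfl
    apply hN2
    ext x
    obtain ⟨k, y, hk, hy, rfl⟩ := hdec x
    have : y = 0 := by simpa using hy
    subst this
    simp [pow_two, Module.End.mul_apply, hk]
  obtain ⟨y₁, hy₁Y, hy₁⟩ := Submodule.exists_mem_ne_zero_of_ne_bot hYne
  -- `y₂` with `ε(y₁, y₂) = 1`
  obtain ⟨y₂, hy₂Y, h12one⟩ : ∃ y₂ ∈ Y, B (N (N y₁)) y₂ = 1 := by
    have hne : N (N y₁) ≠ 0 := fun h => hy₁ (hYK _ hy₁Y h)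
    have : ∃ v, B (N (N y₁)) v ≠ 0 := by
      by_contra hcon
      push Not at hcon
      exact hne (hN.1 _ hcon)
    obtain ⟨v, hv⟩ := this
    obtain ⟨k, y, hk, hy, rfl⟩ := hdec v
    have hyne : B (N (N y₁)) y ≠ 0 := by
      intro h0
      apply hv
      rw [map_add, h0, hsym, hk]
      simp
    refine ⟨(B (N (N y₁)) y)⁻¹ • y, Y.smul_mem _ hy, ?_⟩
    rw [map_smul, smul_eq_mul, inv_mul_cancel₀ hyne]
  -- dimension bound
  have hdimY : finrank F Y ≤ 2 := by
    let Φ : (Y × Y × Y) →ₗ[F] V :=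
      Y.subtype.coprod ((N ∘ₗ Y.subtype).coprod (N ∘ₗ N ∘ₗ Y.subtype))
    have hΦ : ∀ a b c : Y, Φ (a, b, c) = (a : V) + N b + N (N c) := fun a b c => by
      simp [Φ, add_assoc]
    have hinj : Function.Injective Φ := by
      rw [← LinearMap.ker_eq_bot, LinearMap.ker_eq_bot']
      rintro ⟨a, b, c⟩ h0
      rw [hΦ] at h0
      have h1 : N (N a) = 0 := by
        have := congrArg (fun x => N (N x)) h0
        simpa [hN3'] using this
      have ha : (a : V) = 0 := hYK _ a.2 h1
      rw [ha, zero_add] at h0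
      have h2 : N (N b) = 0 := by
        have := congrArg (fun x => N x) h0
        simpa [hN3'] using this
      have hb : (b : V) = 0 := hYK _ b.2 h2
      rw [hb, map_zero, zero_add] at h0
      have hc : (c : V) = 0 := hYK _ c.2 h0
      have ha' : a = 0 := Subtype.ext ha
      have hb' : b = 0 := Subtype.ext hb
      have hc' : c = 0 := Subtype.ext hc
      simp [ha', hb', hc']
    have := LinearMap.finrank_le_finrank_of_injective hinj
    rw [hdim, finrank_prod, finrank_prod] at this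
    omega
  have h21one : B (N (N y₂)) y₁ = -1 := by rw [hanti, h12one]
  -- `y₁, y₂` span `Y`
  have hspan : Y = Submodule.span F {y₁, y₂} := by
    symm
    apply Submodule.eq_of_le_of_finrank_le
    · rw [Submodule.span_le]
      intro x hx
      rcases hx with rfl | hx
      · exact hy₁Y
      · rw [Set.mem_singleton_iff] at hx; rw [hx]; exact hy₂Y
    · have hli : LinearIndependent F ![y₁, y₂] := by
        rw [LinearIndependent.pair_iff]
        intro p q hpq
        have h1 := congrArg (fun x => B (N (N y₁)) x) hpq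
        have h2 := congrArg (fun x => B (N (N y₂)) x) hpq
        simp only [map_add, map_smul, smul_eq_mul, map_zero, hself, h12one, h21one] at h1 h2
        constructor
        · linear_combination -h2
        · linear_combination h1
      have := finrank_span_eq_card hli
      have h3' : Set.range ![y₁, y₂] = {y₁, y₂} := by
        ext x
        simp only [Set.mem_range, Fin.exists_fin_two, Matrix.cons_val_zero, Matrix.cons_val_one,
          Set.mem_insert_iff, Set.mem_singleton_iff]
        constructor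
        · rintro (h | h)
          · exact Or.inl h.symm
          · exact Or.inr h.symm
        · rintro (h | h)
          · exact Or.inl h.symm
          · exact Or.inr h.symm
      rw [h3'] at this
      rw [this]
      simpa using hdimY
  obtain ⟨a, c, hac⟩ : ∃ a c : F, a • y₁ + c • y₂ = s y₁ := by
    have := hsY _ hy₁Y
    rw [hspan] at this
    exact Submodule.mem_span_pair.1 this
  obtain ⟨b, d, hbd⟩ : ∃ b d : F, b • y₁ + d • y₂ = s y₂ := by
    have := hsY _ hy₂Y
    rw [hspan] at this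
    exact Submodule.mem_span_pair.1 this
  -- scalars
  obtain ⟨α, hα⟩ : ∃ α, α = B (N y₁) y₁ := ⟨_, rfl⟩
  obtain ⟨γ, hγ⟩ : ∃ γ, γ = B (N y₂) y₂ := ⟨_, rfl⟩
  obtain ⟨β, hβ⟩ : ∃ β, β = B (N y₁) y₂ + 1 := ⟨_, rfl⟩
  have hp : B (N y₁) y₂ = β - 1 := by rw [hβ]; ring
  have hp' : B (N y₂) y₁ = β - 2 := by
    have h := hiso y₁ y₂
    rw [h11, h12one, hskew y₁ (N y₂), hp] at h
    linear_combination -h
  have hinvG : ∀ x y, B (N (s x)) (s y) = B (N x) y := fun x y => by
    rw [← hsN, hsB]
  have hinvE : ∀ x y, B (N (N (s x))) (s y) = B (N (N x)) y := fun x y => by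
    rw [← hsN, ← hsN, hsB]
  have S4 : a * d - b * c = 1 := by
    have h := hinvE y₁ y₂
    rw [← hac, ← hbd] at h
    simp only [map_add, map_smul, LinearMap.add_apply, LinearMap.smul_apply, smul_eq_mul, hself, h12one, h21one] at h
    linear_combination h
  have S1 : a * a * α + 2 * a * c * β + c * c * γ = α := by
    have h := hinvG y₁ y₁
    rw [← hac] at h
    simp only [map_add, map_smul, LinearMap.add_apply, LinearMap.smul_apply, smul_eq_mul, ← hα, ← hγ, hp, hp'] at h
    linear_combination h + a * c * h3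
  have S2 : a * b * α + (a * d + b * c) * β + c * d * γ = β := by
    have h := hinvG y₁ y₂
    rw [← hac, ← hbd] at h
    simp only [map_add, map_smul, LinearMap.add_apply, LinearMap.smul_apply, smul_eq_mul, ← hα, ← hγ, hp, hp'] at h
    linear_combination h + b * c * h3 + S4
  have S3 : b * b * α + 2 * b * d * β + d * d * γ = γ := by
    have h := hinvG y₂ y₂
    rw [← hbd] at h
    simp only [map_add, map_smul, LinearMap.add_apply, LinearMap.smul_apply, smul_eq_mul, ← hα, ← hγ, hp, hp'] at h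
    linear_combination h + b * d * h3
  have I1 : α * b + γ * c = 0 := by
    linear_combination d * S2 - c * S3 - (α * b + β * d) * S4
  have I2 : α * a - α * d + 2 * β * c = 0 := by
    linear_combination d * S1 - c * S2 - (α * a + β * c) * S4
  have I3 : 2 * β * b + γ * d - a * γ = 0 := by
    linear_combination (-b) * S2 + a * S3 - (β * b + γ * d) * S4
  -- the matrix `D`
  obtain ⟨w₁, hw₁⟩ : ∃ w₁, w₁ = β • y₁ - α • y₂ := ⟨_, rfl⟩
  obtain ⟨w₂, hw₂⟩ : ∃ w₂, w₂ = γ • y₁ - β • y₂ := ⟨_, rfl⟩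
  have hsw₁ : s w₁ = a • w₁ + c • w₂ := by
    have e1 : β * a - α * b = a * β + c * γ := by linear_combination (-1 : F) * I1
    have e2 : β * c - α * d = -(a * α) - c * β := by linear_combination I2
    calc s w₁ = β • s y₁ - α • s y₂ := by rw [hw₁]; simp
      _ = (β * a - α * b) • y₁ + (β * c - α * d) • y₂ := by rw [← hac, ← hbd]; module
      _ = (a * β + c * γ) • y₁ + (-(a * α) - c * β) • y₂ := by rw [e1, e2]
      _ = a • w₁ + c • w₂ := by rw [hw₁, hw₂]; module
  have hsw₂ : s w₂ = b • w₁ + d • w₂ := by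
    have e1 : γ * a - β * b = b * β + d * γ := by linear_combination (-1 : F) * I3
    have e2 : γ * c - β * d = -(b * α) - d * β := by linear_combination I1
    calc s w₂ = γ • s y₁ - β • s y₂ := by rw [hw₂]; simp
      _ = (γ * a - β * b) • y₁ + (γ * c - β * d) • y₂ := by rw [← hac, ← hbd]; module
      _ = (b * β + d * γ) • y₁ + (-(b * α) - d * β) • y₂ := by rw [e1, e2]
      _ = b • w₁ + d • w₂ := by rw [hw₁, hw₂]; module
  -- general formulas for the change of complement
  have LN : ∀ (x w : V) (t : F), N (x + N w + t • N (N x)) = N x + N (N w) := fun x w t => by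
    simp [hN3']
  have LNN : ∀ (x w : V) (t : F), N (N (x + N w + t • N (N x))) = N (N x) := fun x w t => by
    simp [hN3']
  have LA : ∀ (x w x' w' : V) (t : F), B (N (x + N w + t • N (N x))) (x' + N w' + t • N (N x')) =
      B (N x) x' - B (N (N x)) w' + B (N (N w)) x' := fun x w x' w' t => by
    rw [LN]
    simp only [map_add, map_smul, LinearMap.add_apply, smul_eq_mul, h21, h12, h11]
    ring
  have LB : ∀ (x w x' w' : V) (t : F), B (N (N (x + N w + t • N (N x)))) (x' + N w' + t • N (N x')) =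
      B (N (N x)) x' := fun x w x' w' t => by
    rw [LNN]
    simp only [map_add, map_smul, smul_eq_mul, h21]
    ring
  have LC : ∀ (x w x' w' : V) (t : F), B (x + N w + t • N (N x)) (x' + N w' + t • N (N x')) =
      B (x + N w) (x' + N w') + 2 * t * B (N (N x)) x' := fun x w x' w' t => by
    have e1 : B (N w) (N (N x')) = 0 := h12 _ _
    have e2 : B (N (N x)) (N w') = 0 := h21 _ _
    have e3 : B (N (N x)) (N (N x')) = 0 := h21 _ _
    have e4 : B x (N (N x')) = B (N (N x)) x' := (hsym _ _).symm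
    simp only [map_add, map_smul, LinearMap.add_apply, LinearMap.smul_apply, smul_eq_mul, e1, e2, e3, e4]
    ring
  -- the parameter `t`
  obtain ⟨t, ht⟩ : ∃ t, t = B (y₁ + N w₁) (y₂ + N w₂) - 1 := ⟨_, rfl⟩
  obtain ⟨z₁, hz₁⟩ : ∃ z₁, z₁ = y₁ + N w₁ + t • N (N y₁) := ⟨_, rfl⟩
  obtain ⟨z₂, hz₂⟩ : ∃ z₂, z₂ = y₂ + N w₂ + t • N (N y₂) := ⟨_, rfl⟩
  -- `ε` table
  have E11 : B (N (N y₁)) y₁ = 0 := hself _
  have E22 : B (N (N y₂)) y₂ = 0 := hself _
  have Ey1w1 : B (N (N y₁)) w₁ = -α := by
    rw [hw₁]; simp only [map_sub, map_smul, smul_eq_mul, E11, h12one]; ring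
  have Ey1w2 : B (N (N y₁)) w₂ = -β := by
    rw [hw₂]; simp only [map_sub, map_smul, smul_eq_mul, E11, h12one]; ring
  have Ey2w1 : B (N (N y₂)) w₁ = -β := by
    rw [hw₁]; simp only [map_sub, map_smul, smul_eq_mul, E22, h21one]; ring
  have Ey2w2 : B (N (N y₂)) w₂ = -γ := by
    rw [hw₂]; simp only [map_sub, map_smul, smul_eq_mul, E22, h21one]; ring
  have Ew1y1 : B (N (N w₁)) y₁ = α := by rw [hanti, Ey1w1]; ring
  have Ew1y2 : B (N (N w₁)) y₂ = β := by rw [hanti, Ey2w1]; ring
  have Ew2y1 : B (N (N w₂)) y₁ = β := by rw [hanti, Ey1w2]; ring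
  have Ew2y2 : B (N (N w₂)) y₂ = γ := by rw [hanti, Ey2w2]; ring
  -- the values on the new vectors
  have G11 : B (N z₁) z₁ = 0 := by
    rw [hz₁, LA, Ey1w1, Ew1y1, ← hα]; linear_combination α * h3
  have G22 : B (N z₂) z₂ = 0 := by
    rw [hz₂, LA, Ey2w2, Ew2y2, ← hγ]; linear_combination γ * h3
  have G21 : B (N z₂) z₁ = 1 := by
    rw [hz₁, hz₂, LA, Ey2w1, Ew2y1, hp']; linear_combination (β - 1) * h3
  have E12 : B (N (N z₁)) z₂ = 1 := by
    rw [hz₁, hz₂, LB, h12one]
  have B12 : B z₁ z₂ = 1 := by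
    rw [hz₁, hz₂, LC, h12one, ht]
    linear_combination (B (y₁ + N w₁) (y₂ + N w₂) - 1) * h3
  have B11 : B z₁ z₁ = 0 := hB _
  have B22 : B z₂ z₂ = 0 := hB _
  have Bz12N : B z₁ (N z₂) = -1 := by rw [hskew, G21]
  have Bz12NN : B z₁ (N (N z₂)) = 1 := by rw [← hsym, E12]
  refine ⟨z₁, z₂, a, b, c, d, ?_, ?_, B12, ?_, ?_, ?_, ?_⟩
  · rw [hz₁, hz₂, map_add, map_add, map_smul, hsN, hsN, hsN, hsw₁, ← hac]
    simp only [map_add, map_smul]
    module
  · rw [hz₁, hz₂, map_add, map_add, map_smul, hsN, hsN, hsN, hsw₂, ← hbd]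
    simp only [map_add, map_smul]
    module
  · rw [hux z₂, map_add, B12, Bz12N]; ring
  · rw [hux z₂, hux (z₂ + N z₂), map_add, map_add, map_add, map_add, B12, Bz12N, Bz12NN]; ring
  · rw [hux z₁, map_add, LinearMap.add_apply, B11, G11]; ring
  · rw [hux z₂, map_add, LinearMap.add_apply, B22, G22]; ring

end Cfsg.Agent.Lib.NCov.I5a
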