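/-
`I5b_struct`: from the tensor decomposition data to an `E`-structure, in characteristic 3.
-/
import Cfsg.Agent.Lib.NCov.Cubic

set_option autoImplicit false

open Polynomial Module Cfsg.Agent.Lib.NCov.Defs Cfsg.Agent.Lib.NCov.Cubic

namespace Cfsg.Agent.Lib.NCov.I5b

variable {F E V : Type*} [Field F] [Fintype F] [AddCommGroup V] [Module F V] [FiniteDimensional F V]
  [Field E] [Fintype E] [Algebra F E]

theorem I5b_struct (h3 : (3 : F) = 0) (hE3 : finrank F E = 3) {B : LinearMap.BilinForm F V}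
    (hB : B.IsAlt) (hN : B.Nondegenerate)
    (hdim : finrank F V = 6) (s u : V ≃ₗ[F] V) (hsu : ∀ x, s (u x) = u (s x))
    (hsB : ∀ x y, B (s x) (s y) = B x y) (huB : ∀ x y, B (u x) (u y) = B x y)
    (hu3 : ∀ x, u (u (u x)) = x)
    (y₁ y₂ : V) (a b c d : F) (h1 : s y₁ = a • y₁ + c • y₂) (h2' : s y₂ = b • y₁ + d • y₂)
    (h12 : B y₁ y₂ = 1) (h12' : B y₁ (u y₂) = 0) (h12'' : B y₁ (u (u y₂)) = 0)
    (h11 : B (u y₁) y₁ = 0) (h22 : B (u y₂) y₂ = 0) :
    ∃ m : E →ₐ[F] Module.End F V, (∀ a x y, B (m a x) y = B x (m a y)) ∧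
      (∀ a v, s (m a v) = m a (s v)) ∧ Normalizes (u : V →ₗ[F] V) m := by
  classical
  obtain ⟨θ, -, hpars⟩ := exists_orth (E := E) h3 hE3
  set θ₁ := sig F E θ with hθ₁
  set θ₂ := sig F E θ₁ with hθ₂
  have hσθ₂ : sig F E θ₂ = θ := sig3 hE3 θ
  -- Gram values
  have anti : ∀ x y, B x y = - B y x := fun x y => by
    rw [← LinearMap.BilinForm.IsAlt.neg_eq hB y x]
  have self : ∀ y : V, B (u y) y = 0 →
      (B y y = 0 ∧ B y (u y) = 0 ∧ B y (u (u y)) = 0 ∧ B (u y) y = 0 ∧ B (u y) (u y) = 0 ∧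
        B (u y) (u (u y)) = 0 ∧ B (u (u y)) y = 0 ∧ B (u (u y)) (u y) = 0 ∧
        B (u (u y)) (u (u y)) = 0) := by
    intro y hy
    have e1 : B y (u y) = 0 := by rw [anti, hy, neg_zero]
    have e2 : B (u (u y)) y = 0 := by
      rw [← huB, hu3, e1]
    have e3 : B y (u (u y)) = 0 := by rw [anti, e2, neg_zero]
    refine ⟨hB y, e1, e3, hy, hB _, ?_, e2, ?_, hB _⟩
    · rw [huB, e1]
    · rw [huB, hy]
  have cross : (B y₁ y₂ = 1 ∧ B y₁ (u y₂) = 0 ∧ B y₁ (u (u y₂)) = 0 ∧ B (u y₁) y₂ = 0 ∧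
      B (u y₁) (u y₂) = 1 ∧ B (u y₁) (u (u y₂)) = 0 ∧ B (u (u y₁)) y₂ = 0 ∧
      B (u (u y₁)) (u y₂) = 0 ∧ B (u (u y₁)) (u (u y₂)) = 1) := by
    have e1 : B (u y₁) y₂ = 0 := by
      rw [← huB, ← huB, hu3, h12'']
    have e2 : B (u (u y₁)) y₂ = 0 := by
      rw [← huB, hu3, h12']
    refine ⟨h12, h12', h12'', e1, ?_, ?_, e2, ?_, ?_⟩
    · rw [huB, h12]
    · rw [huB, h12']
    · rw [huB, e1]
    · rw [huB, huB, h12]
  obtain ⟨a1, a2, a3, a4, a5, a6, a7, a8, a9⟩ := self y₁ h11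
  obtain ⟨b1, b2, b3, b4, b5, b6, b7, b8, b9⟩ := self y₂ h22
  obtain ⟨c1, c2, c3, c4, c5, c6, c7, c8, c9⟩ := cross
  have d1 : B y₂ y₁ = -1 := by rw [anti, c1]
  have d2 : B (u y₂) y₁ = 0 := by rw [anti, c2, neg_zero]
  have d3 : B (u (u y₂)) y₁ = 0 := by rw [anti, c3, neg_zero]
  have d4 : B y₂ (u y₁) = 0 := by rw [anti, c4, neg_zero]
  have d5 : B (u y₂) (u y₁) = -1 := by rw [anti, c5]
  have d6 : B (u (u y₂)) (u y₁) = 0 := by rw [anti, c6, neg_zero]
  have d7 : B y₂ (u (u y₁)) = 0 := by rw [anti, c7, neg_zero]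
  have d8 : B (u y₂) (u (u y₁)) = 0 := by rw [anti, c8, neg_zero]
  have d9 : B (u (u y₂)) (u (u y₁)) = -1 := by rw [anti, c9]
  -- coordinates
  let co : E → (E →ₗ[F] F) := fun t => (Algebra.trace F E).comp (LinearMap.mulRight F t)
  have hco : ∀ t x, co t x = Algebra.trace F E (x * t) := fun _ _ => rfl
  let ψ : E × E →ₗ[F] V :=
    (((co θ).smulRight y₁ + (co θ₁).smulRight (u y₁) + (co θ₂).smulRight (u (u y₁))).comp
        (LinearMap.fst F E E)) +
      (((co θ).smulRight y₂ + (co θ₁).smulRight (u y₂) + (co θ₂).smulRight (u (u y₂))).comp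
        (LinearMap.snd F E E))
  have hψ : ∀ p : E × E, ψ p =
      Algebra.trace F E (p.1 * θ) • y₁ + Algebra.trace F E (p.1 * θ₁) • u y₁ +
        Algebra.trace F E (p.1 * θ₂) • u (u y₁) +
      (Algebra.trace F E (p.2 * θ) • y₂ + Algebra.trace F E (p.2 * θ₁) • u y₂ +
        Algebra.trace F E (p.2 * θ₂) • u (u y₂)) := fun _ => rfl
  have hB' : ∀ p q : E × E, B (ψ p) (ψ q) =
      Algebra.trace F E (p.1 * q.2) - Algebra.trace F E (p.2 * q.1) := by
    intro p q
    rw [hψ, hψ, hpars p.1 q.2, hpars p.2 q.1]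
    simp only [map_add, map_smul, LinearMap.add_apply, LinearMap.smul_apply, smul_eq_mul,
      a1, a2, a3, a4, a5, a6, a7, a8, a9, b1, b2, b3, b4, b5, b6, b7, b8, b9,
      c1, c2, c3, c4, c5, c6, c7, c8, c9, d1, d2, d3, d4, d5, d6, d7, d8, d9]
    ring
  have hinj : Function.Injective ψ := by
    rw [← LinearMap.ker_eq_bot, LinearMap.ker_eq_bot']
    intro p hp
    have e1 : p.1 = 0 := tr_nondeg (F := F) fun x => by
      have := hB' p (0, x)
      rw [hp] at this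
      simpa using this.symm
    have e2 : p.2 = 0 := tr_nondeg (F := F) fun x => by
      have := hB' p (x, 0)
      rw [hp] at this
      simpa using this.symm
    exact Prod.ext e1 e2
  have hrank : finrank F (E × E) = finrank F V := by
    rw [Module.finrank_prod, hE3, hdim]
  let Ψ : (E × E) ≃ₗ[F] V := LinearMap.linearEquivOfInjective ψ hinj hrank
  have hΨ : ∀ p, Ψ p = ψ p := fun _ => rfl
  refine ⟨mOf Ψ, mOf_selfadj Ψ B (fun p q => by rw [hΨ, hΨ, hB']), ?_, ?_⟩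
  · -- `s` is `E`-linear
    intro x v
    refine mOf_comm Ψ s (fun p => (a • p.1 + b • p.2, c • p.1 + d • p.2)) ?_ ?_ x v
    · intro p
      rw [hΨ, hΨ, hψ, hψ]
      simp only [map_add, map_smul, hsu, h1, h2', add_mul, smul_mul_assoc]
      simp only [smul_eq_mul]
      module
    · intro x p
      ext
      · simp only [Prod.smul_fst, Prod.smul_snd, smul_eq_mul, mul_add]
        simp only [Algebra.smul_def]
        ring
      · simp only [Prod.smul_fst, Prod.smul_snd, smul_eq_mul, mul_add]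
        simp only [Algebra.smul_def]
        ring
  · -- `u` is semilinear
    refine mOf_normalizes Ψ (u : V →ₗ[F] V) (fun p => (sig F E p.1, sig F E p.2)) ?_ (sig F E) ?_
    · intro p
      have t0 : ∀ x : E, Algebra.trace F E (sig F E x * θ) = Algebra.trace F E (x * θ₂) := by
        intro x
        rw [← tr_sig hE3 (x * θ₂), map_mul (sig F E), hσθ₂]
      have t1 : ∀ x : E, Algebra.trace F E (sig F E x * θ₁) = Algebra.trace F E (x * θ) := by
        intro x
        rw [← tr_sig hE3 (x * θ), map_mul (sig F E)]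
      have t2 : ∀ x : E, Algebra.trace F E (sig F E x * θ₂) = Algebra.trace F E (x * θ₁) := by
        intro x
        rw [← tr_sig hE3 (x * θ₁), map_mul (sig F E)]
      rw [hΨ, hΨ, hψ, hψ]
      simp only [LinearEquiv.coe_coe, map_add, map_smul, hu3, t0, t1, t2]
      abel
    · intro x p
      ext
      · simp
      · simp

end Cfsg.Agent.Lib.NCov.I5b
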