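/-
`I6_J6`: a regular unipotent isometry of a 6-dimensional symplectic space in characteristic 3
normalises an `E`-structure, where `E / F` is cubic.
-/
import Cfsg.Agent.Lib.NCov.Cubic

set_option autoImplicit false

open Polynomial Module Cfsg.Agent.Lib.NCov.Defs Cfsg.Agent.Lib.NCov.Cubic

namespace Cfsg.Agent.Lib.NCov.I6

section Gram

variable {F V V' : Type*} [Field F] [AddCommGroup V] [Module F V] [AddCommGroup V'] [Module F V']

/-- A chain `w₀, …, w₅` for the isometry `u`: `u wᵢ = wᵢ + wᵢ₊₁`. -/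
structure Sys (B : LinearMap.BilinForm F V) (u : V →ₗ[F] V) (w0 w1 w2 w3 w4 w5 : V) : Prop where
  alt : B.IsAlt
  iso : ∀ x y, B (u x) (u y) = B x y
  h0 : u w0 = w0 + w1
  h1 : u w1 = w1 + w2
  h2 : u w2 = w2 + w3
  h3 : u w3 = w3 + w4
  h4 : u w4 = w4 + w5
  h5 : u w5 = w5

theorem Sys.rel {B : LinearMap.BilinForm F V} {u : V →ₗ[F] V} {w0 w1 w2 w3 w4 w5 : V}
    (S : Sys B u w0 w1 w2 w3 w4 w5) (x x' y y' : V) (hx : u x = x + x') (hy : u y = y + y') :
    B x y' + B x' y + B x' y' = 0 := by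
  have := S.iso x y
  rw [hx, hy] at this
  simp only [map_add, LinearMap.add_apply] at this
  linear_combination this

/-- The Gram table of a chain, in characteristic 3. -/
theorem Sys.table (hF : (3 : F) = 0) {B : LinearMap.BilinForm F V} {u : V →ₗ[F] V}
    {w0 w1 w2 w3 w4 w5 : V} (S : Sys B u w0 w1 w2 w3 w4 w5) :
    B w0 w2 = B w0 w3 - B w0 w5 ∧ B w0 w4 = - B w0 w5 ∧ B w1 w2 = - B w0 w3 + B w0 w5 ∧
      B w1 w3 = - B w0 w5 ∧ B w1 w4 = - B w0 w5 ∧ B w1 w5 = 0 ∧ B w2 w3 = B w0 w5 ∧ B w2 w4 = 0 ∧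
      B w2 w5 = 0 ∧ B w3 w4 = 0 ∧ B w3 w5 = 0 ∧ B w4 w5 = 0 := by
  have h5' : u w5 = w5 + 0 := by rw [S.h5, add_zero]
  have r := S.rel
  have e15 := r w0 w1 w5 0 S.h0 h5'
  have e25 := r w1 w2 w5 0 S.h1 h5'
  have e35 := r w2 w3 w5 0 S.h2 h5'
  have e45 := r w3 w4 w5 0 S.h3 h5'
  simp only [map_zero, add_zero, zero_add] at e15 e25 e35 e45
  have e14 := r w0 w1 w4 w5 S.h0 S.h4
  have e24 := r w1 w2 w4 w5 S.h1 S.h4
  have e34 := r w2 w3 w4 w5 S.h2 S.h4
  have e03 := r w0 w1 w3 w4 S.h0 S.h3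
  have e13 := r w1 w2 w3 w4 S.h1 S.h3
  have e12 := r w1 w2 w2 w3 S.h1 S.h2
  have e02 := r w0 w1 w2 w3 S.h0 S.h2
  have e01 := r w0 w1 w1 w2 S.h0 S.h1
  rw [S.alt.self_eq_zero] at e12 e01
  rw [e15] at e14
  rw [e15, e25] at e24
  rw [e25, e35] at e34
  have t14 : B w1 w4 = - B w0 w5 := by linear_combination e14
  have t24 : B w2 w4 = 0 := by linear_combination e24
  have t34 : B w3 w4 = 0 := by linear_combination e34
  have t23 : B w2 w3 = B w0 w5 := by linear_combination e13 - t14 - t24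
  have t13 : B w1 w3 = - B w0 w5 := by linear_combination e12 - t23
  have t04 : B w0 w4 = - B w0 w5 := by linear_combination e03 - t13 - t14 + B w0 w5 * hF
  have t12 : B w1 w2 = - B w0 w3 + B w0 w5 := by linear_combination e02 - t13
  have t02 : B w0 w2 = B w0 w3 - B w0 w5 := by linear_combination e01 - t12
  exact ⟨t02, t04, t12, t13, t14, e15, t23, t24, e25, t34, e35, e45⟩

/-- The coordinates of a chain. -/
noncomputable def combo (w0 w1 w2 w3 w4 w5 : V) : (Fin 6 → F) →ₗ[F] V :=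
  (LinearMap.proj 0 : (Fin 6 → F) →ₗ[F] F).smulRight w0 +
  (LinearMap.proj 1 : (Fin 6 → F) →ₗ[F] F).smulRight w1 +
  (LinearMap.proj 2 : (Fin 6 → F) →ₗ[F] F).smulRight w2 +
  (LinearMap.proj 3 : (Fin 6 → F) →ₗ[F] F).smulRight w3 +
  (LinearMap.proj 4 : (Fin 6 → F) →ₗ[F] F).smulRight w4 +
  (LinearMap.proj 5 : (Fin 6 → F) →ₗ[F] F).smulRight w5

theorem combo_apply (w0 w1 w2 w3 w4 w5 : V) (c : Fin 6 → F) :
    combo w0 w1 w2 w3 w4 w5 c =
      c 0 • w0 + c 1 • w1 + c 2 • w2 + c 3 • w3 + c 4 • w4 + c 5 • w5 := rfl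

/-- The Gram polynomial. -/
def gramP (c d : Fin 6 → F) (a1 a3 a5 : F) : F :=
  a1 * (c 0 * d 1 - c 1 * d 0) + (a3 - a5) * (c 0 * d 2 - c 2 * d 0) + a3 * (c 0 * d 3 - c 3 * d 0)
    + (-a5) * (c 0 * d 4 - c 4 * d 0) + a5 * (c 0 * d 5 - c 5 * d 0)
    + (-a3 + a5) * (c 1 * d 2 - c 2 * d 1) + (-a5) * (c 1 * d 3 - c 3 * d 1)
    + (-a5) * (c 1 * d 4 - c 4 * d 1) + a5 * (c 2 * d 3 - c 3 * d 2)

theorem Sys.gram (hF : (3 : F) = 0) {B : LinearMap.BilinForm F V} {u : V →ₗ[F] V}
    {w0 w1 w2 w3 w4 w5 : V} (S : Sys B u w0 w1 w2 w3 w4 w5) (c d : Fin 6 → F) :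
    B (combo w0 w1 w2 w3 w4 w5 c) (combo w0 w1 w2 w3 w4 w5 d) =
      gramP c d (B w0 w1) (B w0 w3) (B w0 w5) := by
  obtain ⟨t1, t2, t3, t4, t5, t6, t7, t8, t9, t10, t11, t12⟩ := S.table hF
  have anti : ∀ x y, B y x = - B x y := fun x y => by
    rw [← LinearMap.BilinForm.IsAlt.neg_eq S.alt x y]
  have h : ∀ x, B x x = 0 := fun x => S.alt.self_eq_zero x
  rw [combo_apply, combo_apply, gramP]
  simp only [map_add, map_smul, LinearMap.add_apply, LinearMap.smul_apply, smul_eq_mul, h,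
    anti w0 w1, anti w0 w2, anti w0 w3, anti w0 w4, anti w0 w5,
    anti w1 w2, anti w1 w3, anti w1 w4, anti w1 w5, anti w2 w3, anti w2 w4, anti w2 w5,
    anti w3 w4, anti w3 w5, anti w4 w5, t1, t2, t3, t4, t5, t6, t7, t8, t9, t10, t11, t12]
  ring

/-- Coordinate shift. -/
def shift (c : Fin 6 → F) : Fin 6 → F :=
  ![c 0, c 0 + c 1, c 1 + c 2, c 2 + c 3, c 3 + c 4, c 4 + c 5]

theorem Sys.step {B : LinearMap.BilinForm F V} {u : V →ₗ[F] V}
    {w0 w1 w2 w3 w4 w5 : V} (S : Sys B u w0 w1 w2 w3 w4 w5) (c : Fin 6 → F) :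
    u (combo w0 w1 w2 w3 w4 w5 c) = combo w0 w1 w2 w3 w4 w5 (shift c) := by
  rw [combo_apply, combo_apply]
  simp only [map_add, map_smul, S.h0, S.h1, S.h2, S.h3, S.h4, S.h5]
  simp only [shift, Matrix.cons_val]
  module

theorem Sys.inj {B : LinearMap.BilinForm F V} {u : V →ₗ[F] V}
    {w0 w1 w2 w3 w4 w5 : V} (S : Sys B u w0 w1 w2 w3 w4 w5) (hw : w5 ≠ 0) :
    Function.Injective (combo w0 w1 w2 w3 w4 w5 : (Fin 6 → F) →ₗ[F] V) := by
  rw [← LinearMap.ker_eq_bot, LinearMap.ker_eq_bot']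
  intro c hc
  rw [combo_apply] at hc
  let N : V →ₗ[F] V := u - LinearMap.id
  have n0 : N w0 = w1 := by simp [N, S.h0]
  have n1 : N w1 = w2 := by simp [N, S.h1]
  have n2 : N w2 = w3 := by simp [N, S.h2]
  have n3 : N w3 = w4 := by simp [N, S.h3]
  have n4 : N w4 = w5 := by simp [N, S.h4]
  have n5 : N w5 = 0 := by simp [N, S.h5]
  have e1 := congrArg N hc
  simp only [map_add, map_smul, n0, n1, n2, n3, n4, n5, map_zero, smul_zero, add_zero] at e1
  have e2 := congrArg N e1
  simp only [map_add, map_smul, n1, n2, n3, n4, n5, map_zero, smul_zero, add_zero] at e2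
  have e3 := congrArg N e2
  simp only [map_add, map_smul, n1, n2, n3, n4, n5, map_zero, smul_zero, add_zero] at e3
  have e4 := congrArg N e3
  simp only [map_add, map_smul, n1, n2, n3, n4, n5, map_zero, smul_zero, add_zero] at e4
  have e5 := congrArg N e4
  simp only [map_add, map_smul, n1, n2, n3, n4, n5, map_zero, smul_zero, add_zero] at e5
  have c0 : c 0 = 0 := (smul_eq_zero.1 e5).resolve_right hw
  simp only [c0, zero_smul, zero_add] at e4 e3 e2 e1 hc
  have c1 : c 1 = 0 := (smul_eq_zero.1 e4).resolve_right hw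
  simp only [c1, zero_smul, zero_add] at e3 e2 e1 hc
  have c2 : c 2 = 0 := (smul_eq_zero.1 e3).resolve_right hw
  simp only [c2, zero_smul, zero_add] at e2 e1 hc
  have c3 : c 3 = 0 := (smul_eq_zero.1 e2).resolve_right hw
  simp only [c3, zero_smul, zero_add] at e1 hc
  have c4 : c 4 = 0 := (smul_eq_zero.1 e1).resolve_right hw
  simp only [c4, zero_smul, zero_add] at hc
  have c5 : c 5 = 0 := (smul_eq_zero.1 hc).resolve_right hw
  funext i
  fin_cases i <;> assumption

/-- Two chains with the same invariants are isometric. -/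
theorem compare [FiniteDimensional F V] [FiniteDimensional F V'] (hF : (3 : F) = 0)
    {B : LinearMap.BilinForm F V} {u : V →ₗ[F] V} {w0 w1 w2 w3 w4 w5 : V}
    (S : Sys B u w0 w1 w2 w3 w4 w5)
    {B' : LinearMap.BilinForm F V'} {u' : V' →ₗ[F] V'} {w0' w1' w2' w3' w4' w5' : V'}
    (S' : Sys B' u' w0' w1' w2' w3' w4' w5')
    (ha1 : B w0 w1 = B' w0' w1') (ha3 : B w0 w3 = B' w0' w3') (ha5 : B w0 w5 = B' w0' w5')
    (hne : B w0 w5 ≠ 0) (hd : finrank F V = 6) (hd' : finrank F V' = 6) :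
    ∃ Ψ : V' ≃ₗ[F] V, (∀ p q, B (Ψ p) (Ψ q) = B' p q) ∧ ∀ p, u (Ψ p) = Ψ (u' p) := by
  have hw : w5 ≠ 0 := by
    rintro rfl
    exact hne (map_zero _)
  have hw' : w5' ≠ 0 := by
    rintro rfl
    rw [ha5] at hne
    exact hne (map_zero _)
  have hA := S.inj hw
  have hA' := S'.inj hw'
  have hAs : Function.Surjective (combo w0 w1 w2 w3 w4 w5 : (Fin 6 → F) →ₗ[F] V) :=
    (LinearMap.injective_iff_surjective_of_finrank_eq_finrank (by simp [hd])).1 hA
  have hAs' : Function.Surjective (combo w0' w1' w2' w3' w4' w5' : (Fin 6 → F) →ₗ[F] V') :=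
    (LinearMap.injective_iff_surjective_of_finrank_eq_finrank (by simp [hd'])).1 hA'
  let eA := LinearEquiv.ofBijective _ ⟨hA, hAs⟩
  let eA' := LinearEquiv.ofBijective _ ⟨hA', hAs'⟩
  have hΨ : ∀ c : Fin 6 → F, (eA'.symm.trans eA) (combo w0' w1' w2' w3' w4' w5' c) =
      combo w0 w1 w2 w3 w4 w5 c := by
    intro c
    have : eA' c = combo w0' w1' w2' w3' w4' w5' c := rfl
    rw [← this, LinearEquiv.trans_apply, LinearEquiv.symm_apply_apply]
    rfl
  refine ⟨eA'.symm.trans eA, fun p q => ?_, fun p => ?_⟩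
  · obtain ⟨c, rfl⟩ := hAs' p
    obtain ⟨d, rfl⟩ := hAs' q
    rw [hΨ, hΨ, S.gram hF, S'.gram hF, ha1, ha3, ha5]
  · obtain ⟨c, rfl⟩ := hAs' p
    rw [hΨ, S.step, S'.step, hΨ]

end Gram

section Model

variable {F E : Type*} [Field F] [Fintype F] [Field E] [Fintype E] [Algebra F E]

/-- The model form on `E × E`. -/
noncomputable def BM (F E : Type*) [Field F] [Field E] [Algebra F E] [Fintype E] :
    LinearMap.BilinForm F (E × E) :=
  LinearMap.mk₂ F (fun p q => Algebra.trace F E (p.1 * q.2) - Algebra.trace F E (p.2 * q.1))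
    (fun x y z => by simp only [Prod.fst_add, Prod.snd_add, add_mul, map_add]; ring)
    (fun r x y => by
      simp only [Prod.smul_fst, Prod.smul_snd, smul_mul_assoc, map_smul, smul_eq_mul]; ring)
    (fun x y z => by simp only [Prod.fst_add, Prod.snd_add, mul_add, map_add]; ring)
    (fun r x y => by
      simp only [Prod.smul_fst, Prod.smul_snd, mul_smul_comm, map_smul, smul_eq_mul]; ring)

theorem BM_apply (p q : E × E) :
    BM F E p q = Algebra.trace F E (p.1 * q.2) - Algebra.trace F E (p.2 * q.1) := rfl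

/-- The model isometry on `E × E`. -/
noncomputable def UM (F : Type*) {E : Type*} [Field F] [Fintype F] [Field E] [Fintype E]
    [Algebra F E] (b : E) : E × E →ₗ[F] E × E where
  toFun p := (sig F E p.1 + b * sig F E p.2, sig F E p.2)
  map_add' p q := by
    ext
    · simp only [Prod.fst_add, Prod.snd_add, map_add]; ring
    · simp only [Prod.snd_add, map_add]
  map_smul' r p := by
    ext
    · simp only [Prod.smul_fst, Prod.smul_snd, map_smul, RingHom.id_apply, smul_add, mul_smul_comm]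
    · simp only [Prod.smul_snd, map_smul, RingHom.id_apply]

theorem UM_apply (b : E) (p : E × E) :
    UM F b p = (sig F E p.1 + b * sig F E p.2, sig F E p.2) := rfl

theorem BM_alt : (BM F E).IsAlt := fun p => by
  rw [BM_apply, mul_comm, sub_self]

theorem UM_iso (hE3 : finrank F E = 3) (b : E) (x y : E × E) :
    BM F E (UM F b x) (UM F b y) = BM F E x y := by
  rw [BM_apply, BM_apply, UM_apply, UM_apply]
  dsimp only
  have e1 : (sig F E x.1 + b * sig F E x.2) * sig F E y.2 =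
      sig F E (x.1 * y.2) + b * sig F E x.2 * sig F E y.2 := by
    rw [map_mul]; ring
  have e2 : sig F E x.2 * (sig F E y.1 + b * sig F E y.2) =
      sig F E (x.2 * y.1) + b * sig F E x.2 * sig F E y.2 := by
    rw [map_mul]; ring
  rw [e1, e2, map_add, map_add, tr_sig hE3, tr_sig hE3]
  ring

/-- The model contains a chain with any prescribed invariants. -/
theorem exists_chain (hF : (3 : F) = 0) (hE3 : finrank F E = 3) (a1 a3 a5 : F) (ha5 : a5 ≠ 0) :
    ∃ (b : E) (w0 w1 w2 w3 w4 w5 : E × E), Sys (BM F E) (UM F b) w0 w1 w2 w3 w4 w5 ∧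
      BM F E w0 w1 = a1 ∧ BM F E w0 w3 = a3 ∧ BM F E w0 w5 = a5 := by
  have h3E : (3 : E) = 0 := by
    have := congrArg (algebraMap F E) hF
    rwa [map_ofNat, map_zero] at this
  obtain ⟨b, hb⟩ := tr_surj (F := F) (E := E) (-a5)
  obtain ⟨f, hf1, hf2⟩ := exists_tr_sq (E := E) hF hE3 (a3 / a5)
  have σ3 : ∀ x, sig F E (sig F E (sig F E x)) = x := sig3 hE3
  have hb' : b + sig F E b + sig F E (sig F E b) = algebraMap F E (-a5) := by
    rw [← hb, tr_eq hE3]
  have hf' : f + sig F E f + sig F E (sig F E f) = 1 := by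
    rw [← tr_eq hE3, hf1, map_one]
  -- `σ f ≠ σ σ f`
  have hne : sig F E f - sig F E (sig F E f) ≠ 0 := by
    intro h
    have h1 : sig F E f = sig F E (sig F E f) := sub_eq_zero.1 h
    have h2 : f = sig F E f := (sig F E).injective h1
    rw [← h1, ← h2] at hf'
    have : (3 : E) * f = 1 := by linear_combination hf'
    rw [h3E] at this
    simp at this
  obtain ⟨y, hy⟩ := tr_surj (F := F) (E := E)
    (a1 + Algebra.trace F E (b * f * sig F E f))
  obtain ⟨e, he⟩ : ∃ e : E, e * (sig F E f - sig F E (sig F E f)) = y :=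
    ⟨y * (sig F E f - sig F E (sig F E f))⁻¹, by field_simp⟩
  obtain ⟨c, hcdef⟩ : ∃ c : E, c = algebraMap F E (-a5) := ⟨_, rfl⟩
  have hc : sig F E c = c := by rw [hcdef, AlgEquiv.commutes]
  have hcb : c = b + sig F E b + sig F E (sig F E b) := by rw [hcdef, hb']
  refine ⟨b, (e, f), (sig F E e + b * sig F E f - e, sig F E f - f),
    (e + sig F E e + sig F E (sig F E e) + sig F E b * sig F E (sig F E f) +
      b * sig F E (sig F E f) + b * sig F E f, 1),
    (c * f, 0), (c * (sig F E f - f), 0), (c, 0), ?_, ?_, ?_, ?_⟩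
  · refine ⟨BM_alt, UM_iso hE3 b, ?_, ?_, ?_, ?_, ?_, ?_⟩
    · rw [UM_apply]
      ext
      · simp
      · simp
    · rw [UM_apply]
      ext
      · simp only [map_add, map_sub, map_mul, Prod.fst_add]
        linear_combination (-sig F E e - b * sig F E f) * h3E
      · simp only [map_sub, Prod.snd_add]
        linear_combination hf' - sig F E f * h3E
    · rw [UM_apply]
      ext
      · simp only [map_add, map_mul, map_one, σ3, Prod.fst_add, mul_one]
        linear_combination (-b) * hf' - f * hcb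
      · simp
    · rw [UM_apply]
      ext
      · simp only [map_zero, mul_zero, add_zero, map_mul, hc, Prod.fst_add]
        ring
      · simp
    · rw [UM_apply]
      ext
      · simp only [map_zero, mul_zero, add_zero, map_mul, map_sub, hc, Prod.fst_add, σ3]
        linear_combination c * hf' - (c * sig F E f) * h3E
      · simp
    · rw [UM_apply]
      ext
      · simp [hc]
      · simp
  · rw [BM_apply]
    dsimp only
    have e1 : Algebra.trace F E (f * (sig F E e + b * sig F E f - e)) =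
        Algebra.trace F E (f * sig F E e) + Algebra.trace F E (b * f * sig F E f) -
          Algebra.trace F E (f * e) := by
      rw [show f * (sig F E e + b * sig F E f - e) = f * sig F E e + b * f * sig F E f - f * e by ring,
        map_sub, map_add]
    have e2 : Algebra.trace F E (e * (sig F E f - f)) =
        Algebra.trace F E (e * sig F E f) - Algebra.trace F E (e * f) := by
      rw [mul_sub, map_sub]
    have e3 : Algebra.trace F E (f * sig F E e) = Algebra.trace F E (e * sig F E (sig F E f)) := by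
      rw [mul_comm f, tr_mul_sig hE3]
    have e4 : Algebra.trace F E y =
        Algebra.trace F E (e * sig F E f) - Algebra.trace F E (e * sig F E (sig F E f)) := by
      rw [← he, mul_sub, map_sub]
    rw [e1, e2, e3, mul_comm f e]
    rw [e4] at hy
    linear_combination hy
  · rw [BM_apply]
    dsimp only
    have e1 : f * (c * f) = (-a5) • (f * f) := by
      rw [Algebra.smul_def, hcdef]; ring
    rw [mul_zero, map_zero, e1, map_smul, hf2, smul_eq_mul]
    field_simp
    ring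
  · rw [BM_apply]
    dsimp only
    have e1 : f * c = (-a5) • f := by
      rw [Algebra.smul_def, hcdef]; ring
    rw [mul_zero, map_zero, e1, map_smul, hf1, smul_eq_mul]
    ring

end Model

variable {F E V : Type*} [Field F] [Fintype F] [AddCommGroup V] [Module F V] [FiniteDimensional F V]
  [Field E] [Fintype E] [Algebra F E]

theorem I6_J6 (h3 : (3 : F) = 0) (hE3 : finrank F E = 3) {B : LinearMap.BilinForm F V} (hB : B.IsAlt)
    (hN : B.Nondegenerate) (hdim : finrank F V = 6) (u : V ≃ₗ[F] V)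
    (huB : ∀ x y, B (u x) (u y) = B x y)
    (hN6 : ((u : V →ₗ[F] V) - 1) ^ 6 = 0) (hN5 : ((u : V →ₗ[F] V) - 1) ^ 5 ≠ 0) :
    ∃ m : E →ₐ[F] Module.End F V, (∀ a x y, B (m a x) y = B x (m a y)) ∧
      Normalizes (u : V →ₗ[F] V) m := by
  classical
  set N : V →ₗ[F] V := (u : V →ₗ[F] V) - 1 with hNdef
  obtain ⟨v, hv⟩ : ∃ v, (N ^ 5) v ≠ 0 := by
    by_contra hc
    push Not at hc
    exact hN5 (LinearMap.ext hc)
  have hp : ∀ (n : ℕ) (x : V), (N ^ (n + 1)) x = (N ^ n) (N x) := by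
    intro n x
    rw [pow_succ, Module.End.mul_apply]
  have hu : ∀ x, (u : V →ₗ[F] V) x = x + N x := by
    intro x
    simp [hNdef]
  have hw6 : N (N (N (N (N (N v))))) = 0 := by
    have : (N ^ 6) v = 0 := by rw [hN6]; rfl
    simpa [hp, pow_zero] using this
  have hw5 : N (N (N (N (N v)))) ≠ 0 := by
    simpa [hp, pow_zero] using hv
  have S : Sys B (u : V →ₗ[F] V) v (N v) (N (N v)) (N (N (N v))) (N (N (N (N v))))
      (N (N (N (N (N v))))) :=
    { alt := hB
      iso := huB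
      h0 := hu _
      h1 := hu _
      h2 := hu _
      h3 := hu _
      h4 := hu _
      h5 := by rw [hu, hw6, add_zero] }
  have hinj := S.inj hw5
  have hsurj : Function.Surjective
      (combo v (N v) (N (N v)) (N (N (N v))) (N (N (N (N v)))) (N (N (N (N (N v))))) :
        (Fin 6 → F) →ₗ[F] V) :=
    (LinearMap.injective_iff_surjective_of_finrank_eq_finrank (by simp [hdim])).1 hinj
  have hne : B v (N (N (N (N (N v))))) ≠ 0 := by
    intro h0
    obtain ⟨t1, t2, t3, t4, t5, t6, t7, t8, t9, t10, t11, t12⟩ := S.table h3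
    apply hw5
    refine hN.2 _ fun x => ?_
    obtain ⟨c, rfl⟩ := hsurj x
    rw [combo_apply]
    simp only [map_add, map_smul, LinearMap.add_apply, LinearMap.smul_apply, smul_eq_mul, h0, t6,
      t9, t11, t12, S.alt.self_eq_zero]
    ring
  obtain ⟨b, w0, w1, w2, w3, w4, w5, S', h1', h3', h5'⟩ := exists_chain (F := F) (E := E) h3 hE3
    (B v (N v)) (B v (N (N (N v)))) (B v (N (N (N (N (N v)))))) hne
  obtain ⟨Ψ, hΨ, hΨu⟩ := compare h3 S S' h1'.symm h3'.symm h5'.symm hne hdim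
    (by rw [Module.finrank_prod, hE3])
  refine ⟨mOf Ψ, mOf_selfadj Ψ B (fun p q => by rw [hΨ, BM_apply]), ?_⟩
  refine mOf_normalizes Ψ (u : V →ₗ[F] V) (UM F b) hΨu (sig F E) ?_
  intro x p
  ext
  · simp only [UM_apply, Prod.smul_fst, Prod.smul_snd, smul_eq_mul, map_mul]
    ring
  · simp only [UM_apply, Prod.smul_snd, smul_eq_mul, map_mul]

end Cfsg.Agent.Lib.NCov.I6
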