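/-
`I8`: unipotent isometries of a 6-dimensional symplectic space with nilpotency index `1`, `2`, `4`
have a proper non-degenerate invariant subspace, and index `5` does not occur.
-/
import Cfsg.Agent.Lib.NCov.Defs
import Mathlib

set_option autoImplicit false

open Module

namespace Cfsg.Agent.Lib.NCov.I8

variable {F V : Type*} [Field F] [AddCommGroup V] [Module F V]

/-- The adjoint of `u - 1`. -/
theorem adj_one {B : LinearMap.BilinForm F V} (u : V ≃ₗ[F] V) (huB : ∀ x y, B (u x) (u y) = B x y)
    (x y : V) :
    B (((u : V →ₗ[F] V) - 1 : Module.End F V) x) y =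
      B x (((u.symm : V →ₗ[F] V) - 1 : Module.End F V) y) := by
  have h1 : B (u x) y = B x (u.symm y) := by
    have := huB x (u.symm y)
    rwa [LinearEquiv.apply_symm_apply] at this
  simp only [LinearMap.sub_apply, LinearEquiv.coe_coe, Module.End.one_apply, map_sub,
    LinearMap.sub_apply]
  rw [h1]

theorem adj_pow {B : LinearMap.BilinForm F V} (u : V ≃ₗ[F] V) (huB : ∀ x y, B (u x) (u y) = B x y)
    (i : ℕ) (x y : V) :
    B ((((u : V →ₗ[F] V) - 1 : Module.End F V) ^ i) x) y =
      B x ((((u.symm : V →ₗ[F] V) - 1 : Module.End F V) ^ i) y) := by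
  induction i generalizing x y with
  | zero => simp
  | succ i ih =>
    rw [pow_succ, Module.End.mul_apply, ih, pow_succ', Module.End.mul_apply, adj_one u huB]

/-- `(u⁻¹ - 1) z = - u⁻¹ ((u - 1) z)`. -/
theorem symm_sub_one_apply (u : V ≃ₗ[F] V) (z : V) :
    (((u.symm : V →ₗ[F] V) - 1 : Module.End F V)) z =
      - (u.symm (((u : V →ₗ[F] V) - 1 : Module.End F V) z)) := by
  simp

/-- `N` commutes with powers of `u⁻¹`. -/
theorem comm_apply (u : V ≃ₗ[F] V) (z : V) :
    (((u : V →ₗ[F] V) - 1 : Module.End F V)) (u.symm z) =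
      u.symm ((((u : V →ₗ[F] V) - 1 : Module.End F V)) z) := by
  simp

/-- Powers of `u⁻¹`. -/
def sp (u : V ≃ₗ[F] V) : ℕ → V → V
  | 0, z => z
  | i + 1, z => u.symm (sp u i z)

theorem N_sp (u : V ≃ₗ[F] V) (i : ℕ) (z : V) :
    (((u : V →ₗ[F] V) - 1 : Module.End F V)) (sp u i z) =
      sp u i ((((u : V →ₗ[F] V) - 1 : Module.End F V)) z) := by
  induction i with
  | zero => rfl
  | succ i ih => simp only [sp]; rw [comm_apply, ih]

theorem sp_zero (u : V ≃ₗ[F] V) (i : ℕ) : sp u i (0 : V) = 0 := by
  induction i with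
  | zero => rfl
  | succ i ih => simp only [sp]; rw [ih, map_zero]

theorem symm_pow_apply (u : V ≃ₗ[F] V) (i : ℕ) (y : V) :
    (((u.symm : V →ₗ[F] V) - 1 : Module.End F V) ^ i) y =
      ((-1 : F) ^ i) • sp u i ((((u : V →ₗ[F] V) - 1 : Module.End F V) ^ i) y) := by
  induction i with
  | zero => simp [sp]
  | succ i ih =>
    have e : (((u : V →ₗ[F] V) - 1 : Module.End F V) ^ (i + 1)) y =
        ((u : V →ₗ[F] V) - 1 : Module.End F V) ((((u : V →ₗ[F] V) - 1 : Module.End F V) ^ i) y) := by
      rw [pow_succ', Module.End.mul_apply]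
    rw [pow_succ', Module.End.mul_apply, ih, map_smul, symm_sub_one_apply, N_sp, e]
    simp only [sp]
    rw [pow_succ, mul_smul]
    simp

/-- The form vanishes on powers whose exponents sum to at least the nilpotency index. -/
theorem form_zero {B : LinearMap.BilinForm F V} (u : V ≃ₗ[F] V)
    (huB : ∀ x y, B (u x) (u y) = B x y) {k : ℕ}
    (hk : ((u : V →ₗ[F] V) - 1 : Module.End F V) ^ k = 0) (i j : ℕ) (hij : k ≤ i + j) (x y : V) :
    B ((((u : V →ₗ[F] V) - 1 : Module.End F V) ^ i) x)
        ((((u : V →ₗ[F] V) - 1 : Module.End F V) ^ j) y) = 0 := by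
  rw [adj_pow u huB, symm_pow_apply]
  have h1 : (((u : V →ₗ[F] V) - 1 : Module.End F V) ^ i)
      ((((u : V →ₗ[F] V) - 1 : Module.End F V) ^ j) y) = 0 := by
    rw [← Module.End.mul_apply, ← pow_add]
    obtain ⟨m, hm⟩ := Nat.exists_eq_add_of_le hij
    rw [hm, pow_add, hk]
    simp
  rw [h1, sp_zero]
  simp

/-- `u⁻¹` fixes the image of `N ^ (k-1)`. -/
theorem sp_top (u : V ≃ₗ[F] V) {k : ℕ}
    (hk : ((u : V →ₗ[F] V) - 1 : Module.End F V) ^ (k + 1) = 0) (i : ℕ) (y : V) :
    sp u i ((((u : V →ₗ[F] V) - 1 : Module.End F V) ^ k) y) =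
      (((u : V →ₗ[F] V) - 1 : Module.End F V) ^ k) y := by
  have h1 : u.symm (((((u : V →ₗ[F] V) - 1 : Module.End F V) ^ k) y)) =
      (((u : V →ₗ[F] V) - 1 : Module.End F V) ^ k) y := by
    have h2 : (((u : V →ₗ[F] V) - 1 : Module.End F V) ^ (k + 1)) y = 0 := by rw [hk]; rfl
    rw [pow_succ', Module.End.mul_apply] at h2
    simp only [LinearMap.sub_apply, LinearEquiv.coe_coe, Module.End.one_apply] at h2
    have h3 := sub_eq_zero.mp h2
    rw [LinearEquiv.symm_apply_eq]
    exact h3.symm
  induction i with
  | zero => rfl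
  | succ i ih =>
    simp only [sp]
    rw [ih, h1]

/-- The value on the anti-diagonal. -/
theorem form_anti {B : LinearMap.BilinForm F V} (u : V ≃ₗ[F] V)
    (huB : ∀ x y, B (u x) (u y) = B x y) {k : ℕ}
    (hk : ((u : V →ₗ[F] V) - 1 : Module.End F V) ^ (k + 1) = 0) (i j : ℕ) (hij : i + j = k)
    (x y : V) :
    B ((((u : V →ₗ[F] V) - 1 : Module.End F V) ^ i) x)
        ((((u : V →ₗ[F] V) - 1 : Module.End F V) ^ j) y) =
      (-1) ^ i * B x ((((u : V →ₗ[F] V) - 1 : Module.End F V) ^ k) y) := by
  rw [adj_pow u huB, symm_pow_apply]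
  have h1 : (((u : V →ₗ[F] V) - 1 : Module.End F V) ^ i)
      ((((u : V →ₗ[F] V) - 1 : Module.End F V) ^ j) y) =
      (((u : V →ₗ[F] V) - 1 : Module.End F V) ^ k) y := by
    rw [← Module.End.mul_apply, ← pow_add, hij]
  rw [h1, sp_top u hk, map_smul, smul_eq_mul]

/-- Dimension obstruction: two vectors with independent images under `N ^ n`, `N ^ (n+1)` killing
them, force `2 (n + 1)` to be at most the dimension. -/
theorem two_mul_le {V : Type*} [AddCommGroup V] [Module F V] [FiniteDimensional F V]
    (N : Module.End F V) (n : ℕ) (x y : V) (hx : (N ^ (n + 1)) x = 0) (hy : (N ^ (n + 1)) y = 0)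
    (hind : ∀ a b : F, a • (N ^ n) x + b • (N ^ n) y = 0 → a = 0 ∧ b = 0) :
    2 * (n + 1) ≤ finrank F V := by
  classical
  let v : Fin (n + 1) ⊕ Fin (n + 1) → V := Sum.elim (fun i => (N ^ (i : ℕ)) x) (fun i => (N ^ (i : ℕ)) y)
  have hv : LinearIndependent F v := by
    rw [Fintype.linearIndependent_iff]
    intro c hc
    -- the vanishing of coefficients, by strong induction
    have key : ∀ i : ℕ, ∀ hi : i < n + 1, c (Sum.inl ⟨i, hi⟩) = 0 ∧ c (Sum.inr ⟨i, hi⟩) = 0 := by
      intro i
      induction i using Nat.strong_induction_on with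
      | _ i ih =>
        intro hi
        have h0 := congrArg (N ^ (n - i)) hc
        rw [map_zero, Fintype.sum_sum_type, map_add, map_sum, map_sum] at h0
        have hterm : ∀ (w : V), (N ^ (n + 1)) w = 0 → ∀ j : Fin (n + 1), i < (j : ℕ) →
            (N ^ (n - i)) ((N ^ (j : ℕ)) w) = 0 := by
          intro w hw j hj
          rw [← Module.End.mul_apply, ← pow_add]
          obtain ⟨m, hm⟩ : ∃ m, n - i + (j : ℕ) = m + (n + 1) :=
            ⟨n - i + (j : ℕ) - (n + 1), by omega⟩
          rw [hm, pow_add, Module.End.mul_apply, hw, map_zero]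
        have hs1 : ∑ j : Fin (n + 1), (N ^ (n - i)) (c (Sum.inl j) • v (Sum.inl j)) =
            c (Sum.inl ⟨i, hi⟩) • (N ^ n) x := by
          rw [Finset.sum_eq_single (⟨i, hi⟩ : Fin (n + 1))]
          · simp only [v, Sum.elim_inl, map_smul]
            rw [← Module.End.mul_apply, ← pow_add]
            congr 3
            omega
          · intro j _ hj
            simp only [v, Sum.elim_inl, map_smul]
            rcases lt_trichotomy (j : ℕ) i with h | h | h
            · rw [(ih j h j.2).1]; simp
            · exact absurd (Fin.ext h) hj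
            · rw [hterm x hx j h]; simp
          · simp
        have hs2 : ∑ j : Fin (n + 1), (N ^ (n - i)) (c (Sum.inr j) • v (Sum.inr j)) =
            c (Sum.inr ⟨i, hi⟩) • (N ^ n) y := by
          rw [Finset.sum_eq_single (⟨i, hi⟩ : Fin (n + 1))]
          · simp only [v, Sum.elim_inr, map_smul]
            rw [← Module.End.mul_apply, ← pow_add]
            congr 3
            omega
          · intro j _ hj
            simp only [v, Sum.elim_inr, map_smul]
            rcases lt_trichotomy (j : ℕ) i with h | h | h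
            · rw [(ih j h j.2).2]; simp
            · exact absurd (Fin.ext h) hj
            · rw [hterm y hy j h]; simp
          · simp
        rw [hs1, hs2] at h0
        exact hind _ _ h0
    rintro (i | i)
    · exact (key i i.2).1
    · exact (key i i.2).2
  have := hv.fintype_card_le_finrank
  simpa [two_mul] using this

variable [FiniteDimensional F V]

/-- The main statement. -/
theorem I8_unip [Fintype F] (h2 : (2 : F) ≠ 0) {B : LinearMap.BilinForm F V} (hB : B.IsAlt)
    (hN : B.Nondegenerate)
    (hdim : finrank F V = 6) (u : V ≃ₗ[F] V) (huB : ∀ x y, B (u x) (u y) = B x y) (k : ℕ)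
    (hk : ((u : V →ₗ[F] V) - 1) ^ k = 0) (hk' : ∀ j < k, ((u : V →ₗ[F] V) - 1) ^ j ≠ 0)
    (hk5 : k = 1 ∨ k = 2 ∨ k = 4 ∨ k = 5) :
    ∃ U : Submodule F V, U ≠ ⊥ ∧ U ≠ ⊤ ∧ (∀ x ∈ U, u x ∈ U) ∧
      (∀ x ∈ U, (∀ y ∈ U, B x y = 0) → x = 0) := by
  classical
  set N : Module.End F V := (u : V →ₗ[F] V) - 1 with hNdef
  have hsep : ∀ x : V, (∀ y, B x y = 0) → x = 0 := hN.1
  have hk0 : 0 < k := by omega
  obtain ⟨l, rfl⟩ : ∃ l, k = l + 1 := ⟨k - 1, by omega⟩
  have hkN : N ^ (l + 1) = 0 := hk
  have htop : N ^ l ≠ 0 := hk' l (Nat.lt_succ_self l)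
  -- the form `S x y = B (N^l x) y`
  have hanti : ∀ x y, B ((N ^ l) x) y = (-1) ^ l * B x ((N ^ l) y) := by
    intro x y
    have := form_anti u huB hkN l 0 (by omega) x y
    simpa using this
  have hswap : ∀ x y, B ((N ^ l) x) y = (-1) ^ (l + 1) * B ((N ^ l) y) x := by
    intro x y
    rw [hanti, ← hB.neg_eq, pow_succ]
    ring
  obtain ⟨x₀, y₀, hxy⟩ : ∃ x₀ y₀, B ((N ^ l) x₀) y₀ ≠ 0 := by
    by_contra hcon
    push Not at hcon
    apply htop
    ext x
    exact hsep _ (hcon x)
  rcases Nat.even_or_odd (l + 1) with hev | hodd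
  · -- `k` is even: a cyclic non-degenerate subspace
    have hsym : ∀ x y, B ((N ^ l) x) y = B ((N ^ l) y) x := by
      intro x y
      rw [hswap, hev.neg_one_pow, one_mul]
    obtain ⟨y, hy⟩ : ∃ y, B ((N ^ l) y) y ≠ 0 := by
      by_contra hcon
      push Not at hcon
      apply hxy
      have h1 := hcon (x₀ + y₀)
      simp only [map_add, LinearMap.add_apply, hcon x₀, hcon y₀, add_zero, zero_add] at h1
      rw [hsym y₀ x₀] at h1
      have h3 : (2 : F) * B ((N ^ l) x₀) y₀ = 0 := by rw [two_mul]; exact h1
      exact (mul_eq_zero.mp h3).resolve_left h2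
    have hyne : y ≠ 0 := by
      rintro rfl
      simp at hy
    let b : Fin (l + 1) → V := fun i => (N ^ (i : ℕ)) y
    refine ⟨Submodule.span F (Set.range b), ?_, ?_, ?_, ?_⟩
    · intro h0
      have : y ∈ Submodule.span F (Set.range b) :=
        Submodule.subset_span ⟨0, by simp [b]⟩
      rw [h0, Submodule.mem_bot] at this
      exact hyne this
    · intro htop'
      have h1 := finrank_range_le_card (R := F) b
      rw [Set.finrank, htop', finrank_top, hdim, Fintype.card_fin] at h1
      omega
    · intro x hx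
      induction hx using Submodule.span_induction with
      | mem x hx =>
        obtain ⟨i, rfl⟩ := hx
        have h1 : u ((N ^ (i : ℕ)) y) = (N ^ (i : ℕ)) y + (N ^ ((i : ℕ) + 1)) y := by
          rw [pow_succ', Module.End.mul_apply]
          simp [hNdef]
        rw [show b i = (N ^ (i : ℕ)) y from rfl, h1]
        refine Submodule.add_mem _ (Submodule.subset_span ⟨i, rfl⟩) ?_
        by_cases hi : (i : ℕ) + 1 < l + 1
        · exact Submodule.subset_span ⟨⟨(i : ℕ) + 1, hi⟩, rfl⟩
        · have hi' : (i : ℕ) + 1 = l + 1 := by omega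
          rw [hi', hkN]
          simp
      | zero => simp
      | add a c _ _ ha hc => rw [map_add]; exact Submodule.add_mem _ ha hc
      | smul r a _ ha => rw [map_smul]; exact Submodule.smul_mem _ _ ha
    · intro x hx hperp
      obtain ⟨a, rfl⟩ := (Submodule.mem_span_range_iff_exists_fun F).mp hx
      have key : ∀ i : ℕ, ∀ hi : i < l + 1, a ⟨i, hi⟩ = 0 := by
        intro i
        induction i using Nat.strong_induction_on with
        | _ i ih =>
          intro hi
          have h1 := hperp ((N ^ (l - i)) y) (Submodule.subset_span ⟨⟨l - i, by omega⟩, rfl⟩)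
          rw [map_sum, LinearMap.sum_apply, Finset.sum_eq_single (⟨i, hi⟩ : Fin (l + 1))] at h1
          · simp only [map_smul, LinearMap.smul_apply, smul_eq_mul, b] at h1
            rw [form_anti u huB hkN i (l - i) (by omega) y y] at h1
            have h3 : B y ((N ^ l) y) ≠ 0 := by
              rw [hanti] at hy
              exact right_ne_zero_of_mul hy
            rcases mul_eq_zero.mp h1 with h4 | h4
            · exact h4
            · exfalso
              rcases mul_eq_zero.mp h4 with h5 | h5
              · exact pow_ne_zero _ (neg_ne_zero.mpr one_ne_zero) h5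
              · exact h3 h5
          · intro j _ hj
            simp only [map_smul, LinearMap.smul_apply, smul_eq_mul, b]
            rcases lt_trichotomy (j : ℕ) i with h | h | h
            · rw [ih j h j.2]; simp
            · exact absurd (Fin.ext h) hj
            · rw [form_zero u huB hkN j (l - i) (by omega) y y]; simp
          · simp
      apply Finset.sum_eq_zero
      intro i _
      rw [key i i.2, zero_smul]
  · -- `k` is odd: `k = 1` or `k = 5`
    rcases hk5 with hk1 | hk1 | hk1 | hk1
    · -- `u = 1`: a hyperbolic plane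
      have hl : l = 0 := by omega
      subst hl
      have huid : ∀ x, u x = x := by
        intro x
        have h1 : N x = 0 := by
          have : N ^ (0 + 1) = 0 := hkN
          rw [zero_add, pow_one] at this
          rw [this]
          rfl
        simp only [hNdef, LinearMap.sub_apply, LinearEquiv.coe_coe, Module.End.one_apply] at h1
        exact sub_eq_zero.mp h1
      simp only [pow_zero, Module.End.one_apply] at hxy
      let b : Fin 2 → V := ![x₀, y₀]
      have hx₀ : x₀ ≠ 0 := by
        rintro rfl
        simp at hxy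
      refine ⟨Submodule.span F (Set.range b), ?_, ?_, ?_, ?_⟩
      · intro h0
        have : x₀ ∈ Submodule.span F (Set.range b) :=
          Submodule.subset_span ⟨0, by simp [b]⟩
        rw [h0, Submodule.mem_bot] at this
        exact hx₀ this
      · intro htop'
        have h1 := finrank_range_le_card (R := F) b
        rw [Set.finrank, htop', finrank_top, hdim, Fintype.card_fin] at h1
        omega
      · intro x hx
        rwa [huid]
      · intro x hx hperp
        obtain ⟨a, rfl⟩ := (Submodule.mem_span_range_iff_exists_fun F).mp hx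
        have h3 := hperp y₀ (Submodule.subset_span ⟨1, by simp [b]⟩)
        have h4 := hperp x₀ (Submodule.subset_span ⟨0, by simp [b]⟩)
        simp only [Fin.sum_univ_two, b, Matrix.cons_val_zero, Matrix.cons_val_one, map_add, map_smul,
          LinearMap.add_apply, LinearMap.smul_apply, smul_eq_mul, hB.self_eq_zero, mul_zero, add_zero,
          zero_add] at h3 h4
        have h5 : a 0 = 0 := (mul_eq_zero.mp h3).resolve_right hxy
        have h6 : a 1 = 0 := by
          rw [← hB.neg_eq] at h4
          rcases mul_eq_zero.mp h4 with h7 | h7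
          · exact h7
          · exact absurd (neg_eq_zero.mp h7) hxy
        simp [Fin.sum_univ_two, h5, h6]
    · exfalso
      obtain ⟨c, hc⟩ := hodd
      omega
    · exfalso
      obtain ⟨c, hc⟩ := hodd
      omega
    · exfalso
      have hl : l = 4 := by omega
      subst hl
      have hskew : ∀ x y, B ((N ^ 4) x) y = - B ((N ^ 4) y) x := by
        intro x y
        rw [hswap]
        norm_num
      have hself : ∀ x, B ((N ^ 4) x) x = 0 := by
        intro x
        have h1 := hskew x x
        have h3 : (2 : F) * B ((N ^ 4) x) x = 0 := by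
          rw [two_mul]
          nth_rewrite 1 [h1]
          ring
        exact (mul_eq_zero.mp h3).resolve_left h2
      have hle := two_mul_le (F := F) N 4 x₀ y₀
        (by rw [hkN]; rfl) (by rw [hkN]; rfl) (by
          intro a c hac
          have h1 := congrArg (fun w => B w y₀) hac
          simp only [map_add, map_smul, LinearMap.add_apply, LinearMap.smul_apply, smul_eq_mul,
            hself y₀, mul_zero, add_zero, map_zero, LinearMap.zero_apply] at h1
          have ha : a = 0 := (mul_eq_zero.mp h1).resolve_right hxy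
          refine ⟨ha, ?_⟩
          have h3 := congrArg (fun w => B w x₀) hac
          simp only [map_add, map_smul, LinearMap.add_apply, LinearMap.smul_apply, smul_eq_mul,
            hself x₀, mul_zero, zero_add, map_zero, LinearMap.zero_apply] at h3
          rw [hskew y₀ x₀] at h3
          rcases mul_eq_zero.mp h3 with h4 | h4
          · exact h4
          · exact absurd (neg_eq_zero.mp h4) hxy)
      omega

end Cfsg.Agent.Lib.NCov.I8
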