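/-
`I9`: isometries `s`, `u` commuting, `s² - t s + 1 = 0`, `t² ≠ 4`, `u` unipotent, in dimension 6.
-/
import Mathlib
import Cfsg.Agent.Lib.NCov.I4

set_option autoImplicit false
set_option linter.style.haveILetI false
set_option linter.unusedVariables false
set_option linter.unusedSectionVars false

namespace Cfsg.Agent.Lib.NCov.I9

open Polynomial Module Cfsg.Agent.Lib.NCov.I4

variable {F V : Type*} [Field F] [AddCommGroup V] [Module F V] [FiniteDimensional F V]

/-- The polynomial `X² - t X + 1`. -/
noncomputable def mP (t : F) : F[X] := X ^ 2 - C t * X + 1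

omit [AddCommGroup V] [Module F V] [FiniteDimensional F V] in
lemma mP_natDegree (t : F) : (mP t).natDegree = 2 := by
  unfold mP
  compute_degree!

lemma aeval_mP (t : F) (s : V →ₗ[F] V) (hs : ∀ x, s (s x) - t • s x + x = 0) :
    aeval s (mP t) = 0 := by
  ext x
  simpa [mP, pow_two, Module.End.mul_apply, Module.algebraMap_end_apply] using hs x

omit [AddCommGroup V] [Module F V] [FiniteDimensional F V] in
lemma mP_irred (t : F) (h : ∀ l : F, l ^ 2 - t * l + 1 ≠ 0) : Irreducible (mP t) := by
  apply Polynomial.irreducible_of_degree_le_three_of_not_isRoot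
  · rw [mP_natDegree]; simp
  · intro x hx
    apply h x
    simpa [mP, IsRoot] using hx

/-- A totally isotropic subspace of a 6-dimensional non-degenerate space has dimension at most 3. -/
lemma ti_le {B : LinearMap.BilinForm F V} (hN : B.Nondegenerate) (hdim : finrank F V = 6)
    (W : Submodule F V) (hW : ∀ x ∈ W, ∀ y ∈ W, B x y = 0) : finrank F W ≤ 3 := by
  have h1 : W ≤ B.orthogonal W := fun x hx => by
    rw [LinearMap.BilinForm.mem_orthogonal_iff]
    exact fun y hy => hW y hy x hx
  have h2 := Submodule.finrank_mono h1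
  rw [LinearMap.BilinForm.finrank_orthogonal hN, hdim] at h2
  omega

/-- A nilpotent operator commuting with a field structure. -/
lemma nil_pow (T S : Module.End F V) (hc : ∀ x, T (S x) = S (T x)) (hS : IsNilpotent S) (m : F[X])
    (hm : Irreducible m) (h : aeval T m = 0) (k : ℕ) (hk : m.natDegree * k = finrank F V) :
    S ^ k = 0 := by
  haveI := Fact.mk hm
  let φ := rootHom T m h
  letI : Module (AdjoinRoot m) V := Module.compHom V φ.toRingHom
  have hsmul : ∀ (a : AdjoinRoot m) (x : V), a • x = φ a x := fun _ _ => rfl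
  haveI : IsScalarTower F (AdjoinRoot m) V := ⟨fun c k v => by
    change φ (c • k) v = c • φ k v
    rw [map_smul]
    rfl⟩
  haveI : Module.Finite (AdjoinRoot m) V := Module.Finite.of_restrictScalars_finite F _ _
  have hd : finrank F (AdjoinRoot m) = m.natDegree := by
    rw [(AdjoinRoot.powerBasis hm.ne_zero).finrank, AdjoinRoot.powerBasis_dim]
  have hk' : finrank (AdjoinRoot m) V = k := by
    have h1 := Module.finrank_mul_finrank F (AdjoinRoot m) V
    rw [hd, ← hk] at h1
    have h2 : 0 < m.natDegree := by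
      by_contra h0
      have h3 : m.natDegree = 0 := by omega
      have h4 := Polynomial.natDegree_pos_iff_degree_pos.2 (Polynomial.degree_pos_of_irreducible hm)
      omega
    exact Nat.eq_of_mul_eq_mul_left h2 h1
  let SK : Module.End (AdjoinRoot m) V :=
    { toFun := S
      map_add' := S.map_add
      map_smul' := fun a x => by
        obtain ⟨f, rfl⟩ := AdjoinRoot.mk_surjective a
        rw [RingHom.id_apply, hsmul, hsmul, rootHom_mk]
        exact (I3.comm_aeval T S (fun x => (hc x).symm) f x) }
  have hpow : ∀ (n : ℕ) (x : V), (SK ^ n) x = (S ^ n) x := by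
    intro n
    induction n with
    | zero => intro x; rfl
    | succ n ih =>
      intro x
      rw [pow_succ', pow_succ', Module.End.mul_apply, Module.End.mul_apply, ih]
      rfl
  obtain ⟨n, hn⟩ := hS
  have hnil : IsNilpotent SK := ⟨n, by
    ext x
    rw [hpow, hn]
    rfl⟩
  have hchar := (LinearMap.isNilpotent_iff_charpoly SK).1 hnil
  have hCH := LinearMap.aeval_self_charpoly SK
  rw [hchar, hk', map_pow, aeval_X] at hCH
  ext x
  rw [← hpow, hCH]
  rfl

/-- A nilpotent operator on an invariant subspace of dimension `≤ k`. -/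
lemma pow_eq_zero_on (W : Submodule F V) (N : Module.End F V) (hW : ∀ x ∈ W, N x ∈ W)
    (hN : IsNilpotent N) (k : ℕ) (hk : finrank F W ≤ k) : ∀ x ∈ W, (N ^ k) x = 0 := by
  let T : Module.End F W := N.restrict hW
  have hpow : ∀ (n : ℕ) (x : W), (((T ^ n) x : W) : V) = (N ^ n) x := by
    intro n
    induction n with
    | zero => intro x; rfl
    | succ n ih =>
      intro x
      rw [pow_succ', pow_succ', Module.End.mul_apply, Module.End.mul_apply, ← ih]
      rfl
  obtain ⟨n, hn⟩ := hN
  have hnil : IsNilpotent T := ⟨n, by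
    ext x
    rw [hpow, hn]
    rfl⟩
  have hchar := (LinearMap.isNilpotent_iff_charpoly T).1 hnil
  have hCH := LinearMap.aeval_self_charpoly T
  rw [hchar, map_pow, aeval_X] at hCH
  have hT : T ^ k = 0 := by
    obtain ⟨j, rfl⟩ := Nat.exists_eq_add_of_le hk
    rw [pow_add, hCH, zero_mul]
  intro x hx
  rw [← hpow k ⟨x, hx⟩, hT]
  rfl

/-- The two eigenspaces of `s` in the split case. -/
structure SplitData (s : V →ₗ[F] V) (W W' : Submodule F V) (l l' : F) : Prop where
  mem : ∀ x, x ∈ W ↔ s x = l • x
  mem' : ∀ x, x ∈ W' ↔ s x = l' • x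
  sup : W ⊔ W' = ⊤
  dis : Disjoint W W'

lemma exists_split (t l : F) (s : V →ₗ[F] V) (hs : ∀ x, s (s x) - t • s x + x = 0)
    (hl : l ^ 2 - t * l + 1 = 0) (hne : l ≠ t - l) :
    SplitData s (LinearMap.ker (aeval s (X - C l))) (LinearMap.ker (aeval s (X - C (t - l)))) l (t - l) := by
  have hfac : mP t = (X - C l) * (X - C (t - l)) := by
    have : C (l * (t - l)) = (1 : F[X]) := by
      have : l * (t - l) = 1 := by linear_combination -hl
      rw [this, C_1]
    unfold mP
    rw [← this, C_mul]
    simp only [C_sub]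
    ring
  have hcop : IsCoprime (X - C l) (X - C (t - l)) :=
    Polynomial.isCoprime_X_sub_C_of_isUnit_sub (IsUnit.mk0 _ (sub_ne_zero.2 hne))
  have hmem : ∀ (a : F) (x : V), x ∈ LinearMap.ker (aeval s (X - C a)) ↔ s x = a • x := by
    intro a x
    rw [LinearMap.mem_ker]
    simp [sub_eq_zero, Module.algebraMap_end_apply]
  refine ⟨hmem l, hmem _, ?_, disjoint_ker_aeval_of_isCoprime s hcop⟩
  rw [sup_ker_aeval_eq_ker_aeval_mul_of_coprime s hcop, ← hfac, aeval_mP t s hs, LinearMap.ker_zero]

lemma split_ti {B : LinearMap.BilinForm F V} (s : V ≃ₗ[F] V)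
    (hsB : ∀ x y, B (s x) (s y) = B x y) (l : F) (hl : l ^ 2 ≠ 1) (W : Submodule F V)
    (hW : ∀ x, x ∈ W ↔ s x = l • x) : ∀ x ∈ W, ∀ y ∈ W, B x y = 0 := by
  intro x hx y hy
  have h1 := hsB x y
  rw [(hW x).1 hx, (hW y).1 hy] at h1
  simp only [map_smul, LinearMap.smul_apply, smul_eq_mul] at h1
  have h2 : (l ^ 2 - 1) * B x y = 0 := by linear_combination h1
  exact (mul_eq_zero.1 h2).resolve_left (sub_ne_zero.2 hl)

omit [AddCommGroup V] [Module F V] [FiniteDimensional F V] in
lemma root_facts (h2 : (2 : F) ≠ 0) {t l : F} (ht : t ^ 2 ≠ 4) (hl : l ^ 2 - t * l + 1 = 0) :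
    l ≠ t - l ∧ l ^ 2 ≠ 1 ∧ (t - l) ^ 2 ≠ 1 := by
  have hl' : l * (t - l) = 1 := by linear_combination -hl
  have h1 : l ≠ t - l := by
    intro h
    apply ht
    have ht' : t = 2 * l := by linear_combination -h
    have : l ^ 2 = 1 := by
      have h3 := hl'
      rw [← h] at h3
      linear_combination h3
    rw [ht']
    linear_combination 4 * this
  refine ⟨h1, ?_, ?_⟩
  · intro h
    -- `l² = 1` with `l (t - l) = 1` gives `t - l = l`
    apply h1
    have : l * (t - l - l) = 0 := by linear_combination hl' - h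
    have hl0 : l ≠ 0 := by
      rintro rfl
      simp at hl
    have := (mul_eq_zero.1 this).resolve_left hl0
    linear_combination -this
  · intro h
    apply h1
    have h4 : (t - l) * (l - (t - l)) = 0 := by linear_combination hl' - h
    have hl0 : t - l ≠ 0 := by
      intro h5
      rw [h5] at hl'
      simp at hl'
    have := (mul_eq_zero.1 h4).resolve_left hl0
    exact sub_eq_zero.1 this

/-- `I9`: `s² - t s + 1 = 0`, `t² ≠ 4`, `u` unipotent commuting: `(u-1)³ = 0`. -/
theorem I9a (h2 : (2 : F) ≠ 0) {B : LinearMap.BilinForm F V} (hB : B.IsAlt) (hN : B.Nondegenerate)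
    (hdim : finrank F V = 6) (s u : V ≃ₗ[F] V) (hsu : ∀ x, s (u x) = u (s x))
    (hsB : ∀ x y, B (s x) (s y) = B x y) (huB : ∀ x y, B (u x) (u y) = B x y)
    (t : F) (ht : t ^ 2 ≠ 4) (hs : ∀ x, s (s x) - t • s x + x = 0)
    (hu : IsNilpotent ((u : V →ₗ[F] V) - 1)) :
    ((u : V →ₗ[F] V) - 1) ^ 3 = 0 := by
  classical
  set N : Module.End F V := (u : V →ₗ[F] V) - 1 with hNdef
  have hNx : ∀ x, N x = u x - x := fun x => rfl
  have hcomm : ∀ x, (s : V →ₗ[F] V) (N x) = N ((s : V →ₗ[F] V) x) := by
    intro x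
    simp only [hNx, LinearEquiv.coe_coe, map_sub, hsu]
  by_cases hroot : ∃ l : F, l ^ 2 - t * l + 1 = 0
  · obtain ⟨l, hl⟩ := hroot
    obtain ⟨h1, h3, h4⟩ := root_facts h2 ht hl
    have hsd := exists_split t l (s : V →ₗ[F] V) hs hl h1
    set W := LinearMap.ker (aeval (s : V →ₗ[F] V) (X - C l))
    set W' := LinearMap.ker (aeval (s : V →ₗ[F] V) (X - C (t - l)))
    have hW := ti_le hN hdim W (split_ti s hsB l h3 W hsd.mem)
    have hW' := ti_le hN hdim W' (split_ti s hsB (t - l) h4 W' hsd.mem')
    have hinv : ∀ (a : F) (Y : Submodule F V), (∀ x, x ∈ Y ↔ (s : V →ₗ[F] V) x = a • x) →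
        ∀ x ∈ Y, N x ∈ Y := by
      intro a Y hY x hx
      rw [hY, hcomm, (hY x).1 hx, map_smul]
    have e1 := pow_eq_zero_on W N (hinv _ _ hsd.mem) hu 3 hW
    have e2 := pow_eq_zero_on W' N (hinv _ _ hsd.mem') hu 3 hW'
    ext x
    have hx : x ∈ W ⊔ W' := by rw [hsd.sup]; trivial
    obtain ⟨x1, hx1, x2, hx2, rfl⟩ := Submodule.mem_sup.1 hx
    rw [map_add, e1 x1 hx1, e2 x2 hx2, add_zero]
    rfl
  · push Not at hroot
    have hirr := mP_irred t hroot
    exact nil_pow (s : V →ₗ[F] V) N (fun x => hcomm x) hu (mP t) hirr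
      (aeval_mP t _ hs) 3 (by rw [mP_natDegree, hdim])

/-- On an invariant subspace, an operator of square zero has a large kernel. -/
lemma finrank_ker_inf (W : Submodule F V) (N : Module.End F V) (hW : ∀ x ∈ W, N x ∈ W)
    (hN : ∀ x, N (N x) = 0) :
    finrank F W ≤ 2 * finrank F (LinearMap.ker N ⊓ W : Submodule F V) := by
  have h1 := LinearMap.finrank_range_add_finrank_ker (N.domRestrict W)
  have h2 : LinearMap.range (N.domRestrict W) ≤ (LinearMap.ker N ⊓ W : Submodule F V) := by
    rintro _ ⟨x, rfl⟩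
    exact ⟨hN x, hW x x.2⟩
  have h3 := Submodule.finrank_mono h2
  have h4 : finrank F (LinearMap.ker (N.domRestrict W)) =
      finrank F (LinearMap.ker N ⊓ W : Submodule F V) := by
    have hmap : (LinearMap.ker (N.domRestrict W)).map W.subtype = LinearMap.ker N ⊓ W := by
      ext x
      constructor
      · rintro ⟨y, hy, rfl⟩
        exact ⟨hy, y.2⟩
      · rintro ⟨hx1, hx2⟩
        exact ⟨⟨x, hx2⟩, hx1, rfl⟩
    rw [← hmap]
    exact (LinearEquiv.finrank_eq (Submodule.equivMapOfInjective _ W.subtype_injective _))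
  omega

/-- `I9b`: the same with `(u-1)² = 0`: a proper non-degenerate invariant subspace. -/
theorem I9b [Fintype F] (hF : Odd (Fintype.card F)) {B : LinearMap.BilinForm F V} (hB : B.IsAlt)
    (hN : B.Nondegenerate)
    (hdim : finrank F V = 6) (s u : V ≃ₗ[F] V) (hsu : ∀ x, s (u x) = u (s x))
    (hsB : ∀ x y, B (s x) (s y) = B x y) (huB : ∀ x y, B (u x) (u y) = B x y)
    (t : F) (ht : t ^ 2 ≠ 4) (hs : ∀ x, s (s x) - t • s x + x = 0)
    (hu : ((u : V →ₗ[F] V) - 1) ^ 2 = 0) :
    ∃ U : Submodule F V, U ≠ ⊥ ∧ U ≠ ⊤ ∧ (∀ x ∈ U, s (u x) ∈ U) ∧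
      (∀ x ∈ U, (∀ y ∈ U, B x y = 0) → x = 0) := by
  classical
  have h2 : (2 : F) ≠ 0 := by
    intro h
    haveI : CharP F 2 := CharTwo.of_one_ne_zero_of_two_eq_zero one_ne_zero h
    have h3 := FiniteField.even_card_of_char_two (ringChar.eq F 2)
    have h4 := Nat.odd_iff.1 hF
    omega
  set N : Module.End F V := (u : V →ₗ[F] V) - 1 with hNdef
  have hNx : ∀ x, N x = u x - x := fun x => rfl
  have hNN : ∀ x, N (N x) = 0 := by
    intro x
    have := LinearMap.congr_fun hu x
    rwa [pow_two] at this
  have hcomm : ∀ x, s (N x) = N (s x) := by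
    intro x
    simp only [hNx, map_sub, hsu]
  have halt : ∀ x y, B y x = - B x y := fun x y => (hB.neg_eq x y).symm
  let K : Submodule F V := LinearMap.ker N
  have hK : ∀ x, x ∈ K ↔ N x = 0 := fun x => Iff.rfl
  have hKs : ∀ x ∈ K, s x ∈ K := by
    intro x hx
    rw [hK, ← hcomm, (hK x).1 hx, map_zero]
  have hKge : 3 ≤ finrank F K := by
    have h1 := LinearMap.finrank_range_add_finrank_ker N
    have h3 : LinearMap.range N ≤ K := by
      rintro _ ⟨x, rfl⟩
      exact hNN x
    have h4 := Submodule.finrank_mono h3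
    rw [hdim] at h1
    have h5 : finrank F (LinearMap.ker N) = finrank F K := rfl
    omega
  -- a vector of `K` with `B v (s v) ≠ 0`
  have hex : ∃ v ∈ K, B v (s v) ≠ 0 := by
    by_contra hno
    push Not at hno
    -- `K` is totally isotropic
    have hinv : ∀ y, s (t • y - s y) = y := by
      intro y
      have := hs y
      rw [map_sub, map_smul]
      linear_combination (norm := module) -this
    have hpol : ∀ x ∈ K, ∀ y ∈ K, B x (s y) + B y (s x) = 0 := by
      intro x hx y hy
      have h1 := hno (x + y) (K.add_mem hx hy)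
      have h3 := hno x hx
      have h4 := hno y hy
      simp only [map_add, LinearMap.add_apply] at h1
      linear_combination h1 - h3 - h4
    have hstar : ∀ x ∈ K, ∀ y ∈ K, 2 * B x (s y) - t * B x y = 0 := by
      intro x hx y hy
      have h1 := hpol x hx y hy
      have h3 : B y (s x) = t * B y x - B (s y) x := by
        have := hsB (t • y - s y) x
        rw [hinv y] at this
        rw [this]
        simp only [map_sub, map_smul, LinearMap.sub_apply, LinearMap.smul_apply, smul_eq_mul]
      rw [h3, halt x y, halt x (s y)] at h1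
      linear_combination h1
    have ht4 : t ^ 2 - 4 ≠ 0 := sub_ne_zero.2 ht
    have hKti : ∀ x ∈ K, ∀ y ∈ K, B x y = 0 := by
      intro x hx y hy
      have h1 := hstar x hx y hy
      have h3 := hstar x hx (s y) (hKs y hy)
      have h4 : s (s y) = t • s y - y := by
        have := hs y
        linear_combination (norm := module) this
      rw [h4, map_sub, map_smul, smul_eq_mul] at h3
      have h5 : (t ^ 2 - 4) * B x y = 0 := by linear_combination 2 * h3 - t * h1
      exact (mul_eq_zero.1 h5).resolve_left ht4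
    have hK3 := ti_le hN hdim K hKti
    have hKeq : finrank F K = 3 := le_antisymm hK3 hKge
    by_cases hroot : ∃ l : F, l ^ 2 - t * l + 1 = 0
    · obtain ⟨l, hl⟩ := hroot
      obtain ⟨h1, h3, h4⟩ := root_facts h2 ht hl
      have hsd := exists_split t l (s : V →ₗ[F] V) hs hl h1
      set W := LinearMap.ker (aeval (s : V →ₗ[F] V) (X - C l))
      set W' := LinearMap.ker (aeval (s : V →ₗ[F] V) (X - C (t - l)))
      have hW := ti_le hN hdim W (split_ti s hsB l h3 W hsd.mem)
      have hW' := ti_le hN hdim W' (split_ti s hsB (t - l) h4 W' hsd.mem')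
      have hsum := Submodule.finrank_sup_add_finrank_inf_eq W W'
      rw [hsd.sup, finrank_top, hdim] at hsum
      have hinvN : ∀ (a : F) (Y : Submodule F V), (∀ x, x ∈ Y ↔ (s : V →ₗ[F] V) x = a • x) →
          ∀ x ∈ Y, N x ∈ Y := by
        intro a Y hY x hx
        rw [hY]
        have h5 : (s : V →ₗ[F] V) x = a • x := (hY x).1 hx
        have h6 : (s : V →ₗ[F] V) (N x) = s (N x) := rfl
        rw [h6, hcomm]
        have h7 : s x = a • x := h5
        rw [h7, map_smul]
      have a1 := finrank_ker_inf W N (hinvN _ _ hsd.mem) hNN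
      have a2 := finrank_ker_inf W' N (hinvN _ _ hsd.mem') hNN
      have hbot : (K ⊓ W) ⊓ (K ⊓ W') = ⊥ := by
        rw [eq_bot_iff]
        intro x hx
        exact (Submodule.disjoint_def.1 hsd.dis) x hx.1.2 hx.2.2
      have hs2 := Submodule.finrank_sup_add_finrank_inf_eq (K ⊓ W) (K ⊓ W')
      rw [hbot, finrank_bot] at hs2
      have hle : (K ⊓ W) ⊔ (K ⊓ W') ≤ K := sup_le inf_le_left inf_le_left
      have hm := Submodule.finrank_mono hle
      have e3 : finrank F (LinearMap.ker N ⊓ W : Submodule F V) = finrank F (K ⊓ W : Submodule F V) := rfl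
      have e4 : finrank F (LinearMap.ker N ⊓ W' : Submodule F V) = finrank F (K ⊓ W' : Submodule F V) := rfl
      omega
    · push Not at hroot
      have hirr := mP_irred t hroot
      let Tk : Module.End F K := (s : V →ₗ[F] V).restrict hKs
      have hTk : aeval Tk (mP t) = 0 := by
        apply aeval_mP t Tk
        intro x
        apply Subtype.ext
        exact hs x
      have := natDegree_dvd_finrank Tk (mP t) hirr hTk
      rw [mP_natDegree, hKeq] at this
      omega
  obtain ⟨v, hv, hc⟩ := hex
  have hv0 : v ≠ 0 := by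
    rintro rfl
    simp at hc
  have huv : u v = v := sub_eq_zero.1 ((hK v).1 hv)
  have husv : u (s v) = s v := sub_eq_zero.1 ((hK _).1 (hKs v hv))
  have hsvv : B (s v) v = - B v (s v) := halt _ _
  have hvv : B v v = 0 := hB v
  have hsvsv : B (s v) (s v) = 0 := hB _
  refine ⟨Submodule.span F {v, s v}, ?_, ?_, ?_, ?_⟩
  · intro h
    have h1 : v ∈ Submodule.span F {v, s v} := Submodule.subset_span (by simp)
    rw [h, Submodule.mem_bot] at h1
    exact hv0 h1
  · intro h
    have h1 := finrank_span_finset_le_card (R := F) ({v, s v} : Finset V)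
    rw [Finset.coe_insert, Finset.coe_singleton, Set.finrank, h, finrank_top, hdim] at h1
    have h3 : ({v, s v} : Finset V).card ≤ 2 := Finset.card_le_two
    omega
  · intro x hx
    obtain ⟨a, b, rfl⟩ := Submodule.mem_span_pair.1 hx
    refine Submodule.mem_span_pair.2 ⟨-b, a + b * t, ?_⟩
    have h4 : s (s v) = t • s v - v := by
      have := hs v
      linear_combination (norm := module) this
    rw [map_add, map_smul, map_smul, huv, husv, map_add, map_smul, map_smul, h4]
    module
  · intro x hx hy
    obtain ⟨a, b, rfl⟩ := Submodule.mem_span_pair.1 hx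
    have h1 := hy v (Submodule.subset_span (by simp))
    have h3 := hy (s v) (Submodule.subset_span (by simp))
    simp only [map_add, map_smul, LinearMap.add_apply, LinearMap.smul_apply, smul_eq_mul, hvv,
      hsvv, hsvsv] at h1 h3
    have hb : b = 0 := by
      have : b * B v (s v) = 0 := by linear_combination -h1
      exact (mul_eq_zero.1 this).resolve_right hc
    have ha : a = 0 := by
      have : a * B v (s v) = 0 := by linear_combination h3
      exact (mul_eq_zero.1 this).resolve_right hc
    rw [ha, hb, zero_smul, zero_smul, add_zero]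

end Cfsg.Agent.Lib.NCov.I9
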