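/-
`I7`: every isometry of a 6-dimensional symplectic space in characteristic 3 has a proper non-degenerate
invariant subspace or normalises a self-adjoint cubic structure.
-/
import Cfsg.Agent.Lib.NCov.I2
import Cfsg.Agent.Lib.NCov.I5b
import Cfsg.Agent.Lib.NCov.I8
import Cfsg.Agent.Lib.NCov.I5a
import Cfsg.Agent.Lib.NCov.I3
import Cfsg.Agent.Lib.NCov.I4
import Cfsg.Agent.Lib.NCov.I6
import Cfsg.Agent.Lib.NCov.I9

set_option autoImplicit false

open Module Polynomial Cfsg.Agent.Lib.NCov.Defs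
open Cfsg.Agent.Lib.NCov.I3 Cfsg.Agent.Lib.NCov.I4 Cfsg.Agent.Lib.NCov.I6 Cfsg.Agent.Lib.NCov.I9

namespace Cfsg.Agent.Lib.NCov.I7

variable {F E V : Type*} [Field F] [Fintype F] [Field E] [Fintype E] [Algebra F E]
  [AddCommGroup V] [Module F V] [FiniteDimensional F V]

/-- `x ↦ u x` has cube `1` if `(u - 1)³ = 0` in characteristic 3. -/
theorem cube_eq (h3 : (3 : F) = 0) (u : V ≃ₗ[F] V) (hN3 : ((u : V →ₗ[F] V) - 1) ^ 3 = 0) (x : V) :
    u (u (u x)) = x := by
  have h := congrArg (fun φ : Module.End F V => φ x) hN3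
  simp only [pow_succ, pow_zero, one_mul, Module.End.mul_apply, LinearMap.sub_apply,
    LinearEquiv.coe_coe, Module.End.one_apply, map_sub, LinearMap.zero_apply] at h
  have h3v : ∀ w : V, w + w + w = 0 := by
    intro w
    have : (3 : F) • w = 0 := by rw [h3, zero_smul]
    rw [← this, show (3 : F) = 1 + 1 + 1 by norm_num, add_smul, add_smul, one_smul]
  have e1 := h3v (u (u x))
  have e2 := h3v (u x)
  have : u (u (u x)) - x = 0 := by
    have : u (u (u x)) - x = (u (u (u x)) - u (u x) - (u (u x) - u x) - (u (u x) - u x - (u x - x)))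
        + (u (u x) + u (u x) + u (u x)) - (u x + u x + u x) := by abel
    rw [this, h, e1, e2]
    simp
  exact sub_eq_zero.1 this

theorem I7_cover (h3 : (3 : F) = 0) (hE3 : finrank F E = 3) {B : LinearMap.BilinForm F V}
    (hB : B.IsAlt) (hN : B.Nondegenerate)
    (hdim : finrank F V = 6) (g : V ≃ₗ[F] V) (hg : ∀ x y, B (g x) (g y) = B x y) :
    (∃ U : Submodule F V, U ≠ ⊥ ∧ U ≠ ⊤ ∧ (∀ x ∈ U, g x ∈ U) ∧
      (∀ x ∈ U, (∀ y ∈ U, B x y = 0) → x = 0)) ∨
    (∃ m : E →ₐ[F] Module.End F V, (∀ a x y, B (m a x) y = B x (m a y)) ∧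
      Normalizes (g : V →ₗ[F] V) m) := by
  classical
  have h2 : (2 : F) ≠ 0 := by
    intro h
    have : (1 : F) = 0 := by
      have e : (1 : F) = 3 - 2 := by norm_num
      rw [e, h3, h, sub_zero]
    exact one_ne_zero this
  have hsepR : ∀ x : V, (∀ y, B y x = 0) → x = 0 := hN.2
  have : Nontrivial V := by
    apply Module.nontrivial_of_finrank_pos (R := F)
    omega
  obtain ⟨s, u, hgsu, hsu, hss, hunil, hsB, huB⟩ :=
    Cfsg.Agent.Lib.NCov.I2.I2_jordan h2 hB hN g hg
  -- `τ = s + s⁻¹`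
  set f : Module.End F V := (s : V →ₗ[F] V) with hf
  set f' : Module.End F V := (s.symm : V →ₗ[F] V) with hf'
  have hadj : ∀ x y, B (f x) y = B x (f' y) := by
    intro x y
    have := hsB x (s.symm y)
    simpa [hf, hf'] using this
  have hadj' : ∀ x y, B (f' x) y = B x (f y) := by
    intro x y
    have := hsB (s.symm x) y
    simpa [hf, hf'] using this.symm
  have hss' : f'.IsSemisimple :=
    Module.End.isSemisimple_of_squarefree_aeval_eq_zero hss.minpoly_squarefree
      (Cfsg.Agent.Lib.NCov.I2.aeval_adj_eq_zero hsepR f f' hadj _ (minpoly.aeval F f))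
  have hff' : Commute f f' := by
    show f * f' = f' * f
    ext x
    simp [hf, hf']
  set τ : Module.End F V := f + f' with hτ
  have hτss : τ.IsSemisimple := hss.add_of_commute hff' hss'
  have hτB : ∀ x y, B (τ x) y = B x (τ y) := by
    intro x y
    simp only [hτ, LinearMap.add_apply, map_add, hadj, hadj']
    exact add_comm _ _
  have hsu' : ∀ x, s.symm (u x) = u (s.symm x) := by
    intro x
    apply s.injective
    rw [LinearEquiv.apply_symm_apply, hsu, LinearEquiv.apply_symm_apply]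
  have hgτ : ∀ x, (g : V →ₗ[F] V) (τ x) = τ ((g : V →ₗ[F] V) x) := by
    intro x
    simp only [hτ, LinearMap.add_apply, LinearEquiv.coe_coe, hf, hf', map_add, hgsu]
    congr 1
    · rw [← hsu]
    · rw [← hsu', LinearEquiv.apply_symm_apply, LinearEquiv.symm_apply_apply]
  -- Reduction: `g` normalises a structure commuting with `s` and normalised by `u`.
  have hnorm : ∀ m : E →ₐ[F] Module.End F V, (∀ a v, s (m a v) = m a (s v)) →
      Normalizes (u : V →ₗ[F] V) m → Normalizes (g : V →ₗ[F] V) m := by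
    intro m hsm hum a
    obtain ⟨b, hb⟩ := hum a
    refine ⟨b, fun v => ?_⟩
    have := hb v
    simp only [LinearEquiv.coe_coe] at this ⊢
    rw [hgsu, this, hsm, hgsu]
  -- The tensor case.
  have htensor : ((u : V →ₗ[F] V) - 1) ^ 3 = 0 → ((u : V →ₗ[F] V) - 1) ^ 2 ≠ 0 →
      ∃ m : E →ₐ[F] Module.End F V, (∀ a x y, B (m a x) y = B x (m a y)) ∧
      Normalizes (g : V →ₗ[F] V) m := by
    intro hN3 hN2
    obtain ⟨y₁, y₂, a, b, c, d, h1, h2', h12, h12', h12'', h11, h22⟩ :=
      Cfsg.Agent.Lib.NCov.I5a.I5a_tensor h3 hB hN hdim s u hsu hss hsB huB hN3 hN2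
    obtain ⟨m, hm, hsm, hum⟩ := Cfsg.Agent.Lib.NCov.I5b.I5b_struct h3 hE3 hB hN hdim s u hsu hsB huB
      (cube_eq h3 u hN3) y₁ y₂ a b c d h1 h2' h12 h12' h12'' h11 h22
    exact ⟨m, hm, hnorm m hsm hum⟩
  have hμ0 : minpoly F τ ≠ 0 := minpoly.ne_zero (Algebra.IsIntegral.isIntegral τ)
  have hμmonic : (minpoly F τ).Monic := minpoly.monic (Algebra.IsIntegral.isIntegral τ)
  have hμsq : Squarefree (minpoly F τ) := hτss.minpoly_squarefree
  by_cases hirr : Irreducible (minpoly F τ)
  swap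
  · -- not irreducible: split
    have hμunit : ¬ IsUnit (minpoly F τ) := minpoly.not_isUnit F τ
    obtain ⟨p, p', hp, hp', hprod⟩ : ∃ p p' : F[X], ¬ IsUnit p ∧ ¬ IsUnit p' ∧ minpoly F τ = p * p' := by
      by_contra hcon
      push_neg at hcon
      apply hirr
      refine ⟨hμunit, ?_⟩
      intro a b hab
      by_contra hc
      push_neg at hc
      exact hcon a b hc.1 hc.2 hab
    have hcop : IsCoprime p p' := by
      rw [hprod] at hμsq
      exact (squarefree_mul_iff.1 hμsq).1.isCoprime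
    left
    exact I3_split hB hN τ (g : V →ₗ[F] V) hτB hgτ p p' hcop hp hp' hprod
  -- irreducible
  have hdvd := I4_even h2 hB hN τ hτB hirr
  rw [hdim] at hdvd
  have hdpos : (minpoly F τ).natDegree ≠ 0 := hirr.natDegree_pos.ne'
  have hd13 : (minpoly F τ).natDegree = 1 ∨ (minpoly F τ).natDegree = 3 := by
    obtain ⟨k, hk⟩ := hdvd
    have h1 : (minpoly F τ).natDegree * k = 3 := by
      rw [mul_assoc] at hk
      omega
    have h2 : (minpoly F τ).natDegree ∣ 3 := ⟨k, h1.symm⟩
    exact (Nat.dvd_prime Nat.prime_three).1 h2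
  rcases hd13 with hd1 | hd3
  swap
  · -- degree 3
    obtain ⟨m, hm, hcm⟩ := I4b_struct hE3 (E := E) τ hτB hirr hd3
    right
    refine ⟨m, hm, fun a => ⟨a, fun v => hcm _ hgτ a v⟩⟩
  -- degree 1
  obtain ⟨t, ht⟩ : ∃ t : F, τ = algebraMap F _ t := by
    have e := Polynomial.Monic.eq_X_add_C hμmonic hd1
    refine ⟨-(minpoly F τ).coeff 0, ?_⟩
    have h0 := minpoly.aeval F τ
    rw [e, map_add, aeval_X, aeval_C, ← eq_neg_iff_add_eq_zero] at h0
    simpa using h0
  have hτapp : ∀ x, τ x = t • x := by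
    intro x
    rw [ht]
    simp [Module.algebraMap_end_apply]
  have hs2 : ∀ x, s (s x) - t • s x + x = 0 := by
    intro x
    have := hτapp (s x)
    simp only [hτ, LinearMap.add_apply, hf, hf', LinearEquiv.coe_coe,
      LinearEquiv.symm_apply_apply] at this
    rw [← this]
    abel
  have hodd : Odd (Fintype.card F) := Nat.odd_iff.2 <| FiniteField.odd_card_of_char_ne_two (by
    intro hc
    exact h2 (by
      have := ringChar.spec F 2
      exact_mod_cast (this.2 (by rw [hc]))))
  by_cases ht4 : t ^ 2 = 4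
  swap
  · -- `t² ≠ 4`
    have hN3 := I9a h2 hB hN hdim s u hsu hsB huB t ht4 hs2 hunil
    by_cases hN2 : ((u : V →ₗ[F] V) - 1) ^ 2 = 0
    · left
      obtain ⟨U, h1, h2', h3', h4⟩ := I9b hodd hB hN hdim s u hsu hsB huB t ht4 hs2 hN2
      exact ⟨U, h1, h2', fun x hx => by rw [hgsu]; exact h3' x hx, h4⟩
    · right
      exact htensor hN3 hN2
  -- `t² = 4`: `s` is a scalar
  set ε : F := t / 2 with hε
  have hε2 : ε ^ 2 = 1 := by
    rw [hε, div_pow, ht4]
    have : (2 : F) ^ 2 = 4 := by norm_num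
    rw [← this]
    exact div_self (pow_ne_zero 2 h2)
  have ht2 : t = 2 * ε := by
    rw [hε]
    field_simp
  have hsε : ∀ x, s x = ε • x := by
    have hnilp : IsNilpotent (f - algebraMap F (Module.End F V) ε) := by
      refine ⟨2, ?_⟩
      ext x
      have h1 := hs2 x
      simp only [pow_two, Module.End.mul_apply, LinearMap.sub_apply, Module.algebraMap_end_apply,
        map_sub, map_smul, hf, LinearEquiv.coe_coe, LinearMap.zero_apply]
      rw [ht2] at h1
      have h2' : s (s x) = (2 * ε) • s x - x := by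
        rw [← sub_eq_zero, ← h1]; abel
      rw [h2']
      have e1 : ε • (s x - ε • x) = ε • s x - x := by
        rw [smul_sub, smul_smul, ← pow_two, hε2, one_smul]
      rw [e1, two_mul, add_smul]
      abel
    have hssε : (f - algebraMap F (Module.End F V) ε).IsSemisimple :=
      Module.End.isSemisimple_sub_algebraMap_iff.2 hss
    have h0 := Module.End.eq_zero_of_isNilpotent_isSemisimple hnilp hssε
    intro x
    have := congrArg (fun φ : Module.End F V => φ x) h0
    simp only [LinearMap.sub_apply, Module.algebraMap_end_apply, hf, LinearEquiv.coe_coe,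
      LinearMap.zero_apply] at this
    exact sub_eq_zero.1 this
  -- `g = ε u`
  set N : Module.End F V := (u : V →ₗ[F] V) - 1 with hNdef
  have hN6 : N ^ 6 = 0 := by
    have hc := (LinearMap.isNilpotent_iff_charpoly N).1 hunil
    have := LinearMap.aeval_self_charpoly N
    rw [hc, hdim] at this
    simpa using this
  have hexk : ∃ k, N ^ k = 0 := ⟨6, hN6⟩
  set k := Nat.find hexk with hkdef
  have hk : N ^ k = 0 := Nat.find_spec hexk
  have hk' : ∀ j < k, N ^ j ≠ 0 := fun j hj => Nat.find_min hexk hj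
  have hk6 : k ≤ 6 := Nat.find_min' hexk hN6
  have hk0 : k ≠ 0 := by
    intro h0
    rw [h0, pow_zero] at hk
    exact one_ne_zero hk
  have hk_cases : k = 3 ∨ k = 6 ∨ (k = 1 ∨ k = 2 ∨ k = 4 ∨ k = 5) := by omega
  rcases hk_cases with h | h | h
  · right
    apply htensor
    · rw [← h]; exact hk
    · exact hk' 2 (by omega)
  · right
    have h5 : N ^ 5 ≠ 0 := hk' 5 (by omega)
    obtain ⟨m, hm, hum⟩ := I6_J6 h3 hE3 hB hN hdim u huB hN6 h5
    refine ⟨m, hm, hnorm m ?_ hum⟩
    intro a v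
    rw [hsε, hsε, map_smul]
  · left
    obtain ⟨U, h1, h2', h3', h4⟩ :=
      Cfsg.Agent.Lib.NCov.I8.I8_unip h2 hB hN hdim u huB k hk hk' h
    refine ⟨U, h1, h2', fun x hx => ?_, h4⟩
    rw [hgsu, hsε]
    exact U.smul_mem ε (h3' x hx)

end Cfsg.Agent.Lib.NCov.I7
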