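/-
`PSL₂`, `PSL₃`, `PSL₄` over a finite field are unions of the conjugates of two proper subgroups:
the stabiliser of a line and the centraliser of a root of an irreducible polynomial.
-/
import Cfsg.Agent.Lib.NCov.Defs
import Cfsg.Agent.Lib.NCov.A1_conj_of_aeval_eq_zero
import Cfsg.Agent.Lib.NCov.A2_exists_J
import Cfsg.Agent.Lib.NCov.A3_exists_J0

set_option autoImplicit false

open Polynomial Module Cfsg.Agent.Lib.NCov.Defs
open scoped MatrixGroups

namespace Cfsg.Agent.Lib.NCov.PSL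

variable {F : Type*} [Field F] [Fintype F]

/-- The stabiliser of the line of a vector. -/
def lineStab {n : ℕ} (e : Fin n → F) (he : e ≠ 0) : Subgroup (Matrix.SpecialLinearGroup (Fin n) F) where
  carrier := {h | ∃ μ : F, (h : Matrix (Fin n) (Fin n) F).mulVec e = μ • e}
  mul_mem' := by
    rintro a b ⟨μ, hμ⟩ ⟨ν, hν⟩
    refine ⟨ν * μ, ?_⟩
    rw [Matrix.SpecialLinearGroup.coe_mul, ← Matrix.mulVec_mulVec, hν, Matrix.mulVec_smul, hμ, smul_smul]
  one_mem' := ⟨1, by simp⟩
  inv_mem' := by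
    rintro a ⟨μ, hμ⟩
    have h1 : (((a⁻¹ * a : Matrix.SpecialLinearGroup (Fin n) F)) : Matrix (Fin n) (Fin n) F).mulVec e = e := by simp
    rw [Matrix.SpecialLinearGroup.coe_mul, ← Matrix.mulVec_mulVec, hμ, Matrix.mulVec_smul] at h1
    have hμ0 : μ ≠ 0 := by
      rintro rfl
      rw [zero_smul] at h1
      exact he h1.symm
    refine ⟨μ⁻¹, ?_⟩
    calc ((a⁻¹ : Matrix.SpecialLinearGroup (Fin n) F) : Matrix (Fin n) (Fin n) F).mulVec e
        = μ⁻¹ • μ • ((a⁻¹ : Matrix.SpecialLinearGroup (Fin n) F) : Matrix (Fin n) (Fin n) F).mulVec e := by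
          rw [smul_smul, inv_mul_cancel₀ hμ0, one_smul]
      _ = μ⁻¹ • e := by rw [h1]

/-- The centraliser of a matrix. -/
def commSL {n : ℕ} (J : Matrix (Fin n) (Fin n) F) : Subgroup (Matrix.SpecialLinearGroup (Fin n) F) where
  carrier := {h | (h : Matrix (Fin n) (Fin n) F) * J = J * (h : Matrix (Fin n) (Fin n) F)}
  mul_mem' := by
    intro a b ha hb
    simp only [Set.mem_setOf_eq, Matrix.SpecialLinearGroup.coe_mul] at *
    rw [mul_assoc, hb, ← mul_assoc, ha, mul_assoc]
  one_mem' := by simp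
  inv_mem' := by
    intro a ha
    simp only [Set.mem_setOf_eq] at *
    have h1 : ((a⁻¹ * a : Matrix.SpecialLinearGroup (Fin n) F) : Matrix (Fin n) (Fin n) F) = 1 := by simp
    have h2 : ((a * a⁻¹ : Matrix.SpecialLinearGroup (Fin n) F) : Matrix (Fin n) (Fin n) F) = 1 := by simp
    rw [Matrix.SpecialLinearGroup.coe_mul] at h1 h2
    calc ((a⁻¹ : Matrix.SpecialLinearGroup (Fin n) F) : Matrix (Fin n) (Fin n) F) * J
        = ((a⁻¹ : Matrix.SpecialLinearGroup (Fin n) F) : Matrix (Fin n) (Fin n) F) * J * ((a : Matrix (Fin n) (Fin n) F) * ((a⁻¹ : Matrix.SpecialLinearGroup (Fin n) F) : Matrix (Fin n) (Fin n) F)) := by rw [h2, mul_one]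
      _ = ((a⁻¹ : Matrix.SpecialLinearGroup (Fin n) F) : Matrix (Fin n) (Fin n) F) * ((a : Matrix (Fin n) (Fin n) F) * J) * ((a⁻¹ : Matrix.SpecialLinearGroup (Fin n) F) : Matrix (Fin n) (Fin n) F) := by rw [ha]; simp only [mul_assoc]
      _ = J * ((a⁻¹ : Matrix.SpecialLinearGroup (Fin n) F) : Matrix (Fin n) (Fin n) F) := by rw [← mul_assoc, h1, one_mul]

/-- A nonzero vector moved onto a line by `SL`. -/
theorem exists_SL_line {n : ℕ} (i₀ : Fin n) {v : Fin n → F} (hv : v ≠ 0) :
    ∃ (x : Matrix.SpecialLinearGroup (Fin n) F) (t : F), t ≠ 0 ∧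
      (x : Matrix (Fin n) (Fin n) F).mulVec v = t • Pi.single i₀ 1 := by
  classical
  set e0 : Fin n → F := Pi.single i₀ 1 with he0
  have he0ne : e0 ≠ 0 := by
    intro h
    have := congrFun h i₀
    simp [he0] at this
  let f : Submodule.span F {v} ≃ₗ[F] Submodule.span F {e0} :=
    (LinearEquiv.toSpanNonzeroSingleton F (Fin n → F) v hv).symm.trans
      (LinearEquiv.toSpanNonzeroSingleton F (Fin n → F) e0 he0ne)
  obtain ⟨y, hy⟩ := Submodule.exists_linearEquiv_restrict_eq f
  have hyv : y v = e0 := by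
    have h1 := hy ⟨v, Submodule.mem_span_singleton_self v⟩
    rw [← h1]
    have h2 : (LinearEquiv.toSpanNonzeroSingleton F (Fin n → F) v hv).symm ⟨v, Submodule.mem_span_singleton_self v⟩ = 1 := by
      rw [LinearEquiv.symm_apply_eq]
      ext i
      simp [LinearEquiv.toSpanNonzeroSingleton]
    simp only [f, LinearEquiv.trans_apply, h2]
    simp [LinearEquiv.toSpanNonzeroSingleton]
  let Y : Matrix (Fin n) (Fin n) F := LinearMap.toMatrix' (y : (Fin n → F) →ₗ[F] (Fin n → F))
  have hYv : Y.mulVec v = e0 := by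
    simp only [Y, LinearMap.toMatrix'_mulVec]
    exact hyv
  have hdetY : LinearMap.det (y : (Fin n → F) →ₗ[F] (Fin n → F)) ≠ 0 := by
    exact (LinearEquiv.isUnit_det' y).ne_zero
  have hdY : Y.det ≠ 0 := by
    simp only [Y, LinearMap.det_toMatrix']
    exact hdetY
  set t := (Y.det)⁻¹ with ht
  have ht0 : t ≠ 0 := inv_ne_zero hdY
  let D : Matrix (Fin n) (Fin n) F := Matrix.diagonal (fun i => if i = i₀ then t else 1)
  have hdD : D.det = t := by
    simp only [D]
    rw [Matrix.det_diagonal, Finset.prod_ite_eq']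
    simp
  have hDe : D.mulVec e0 = t • e0 := by
    ext i
    simp only [D, he0, Matrix.mulVec_diagonal, Pi.smul_apply, smul_eq_mul]
    by_cases h : i = i₀
    · subst h; simp
    · simp [h]
  refine ⟨⟨D * Y, ?_⟩, t, ht0, ?_⟩
  · rw [Matrix.det_mul, hdD, ht, inv_mul_cancel₀ hdY]
  · change (D * Y).mulVec v = _
    rw [← Matrix.mulVec_mulVec, hYv, hDe]

/-- The covering, given the shape of the characteristic polynomials without root. -/
theorem cover (n d : ℕ) (hn : 2 ≤ n) (hd : 2 ≤ d) (hdn : d ∣ n)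
    (hfac : ∀ g : Matrix (Fin n) (Fin n) F, (∀ a : F, ¬ g.charpoly.IsRoot a) →
      ∀ p : F[X], Irreducible p → p ∣ g.charpoly → d ∣ p.natDegree) :
    HasCover (Matrix.ProjectiveSpecialLinearGroup (Fin n) F) := by
  classical
  obtain ⟨m₀, J₀, hm₀, hdeg, hJ₀, hc⟩ := A3_exists_J0.A3_exists_J0 (F := F) n d hd hdn (by omega)
  let i₀ : Fin n := ⟨0, by omega⟩
  let i₁ : Fin n := ⟨1, by omega⟩
  have hi : i₁ ≠ i₀ := by simp [i₀, i₁, Fin.ext_iff]
  let e0 : Fin n → F := Pi.single i₀ 1
  have he0 : e0 ≠ 0 := by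
    intro h
    have := congrFun h i₀
    simp [e0] at this
  refine HasCover.quot (Subgroup.center _) (lineStab e0 he0) (commSL J₀) ?_ ?_ ?_ ?_ ?_
  · intro z hz
    obtain ⟨r, -, hr⟩ := (Matrix.SpecialLinearGroup.mem_center_iff).1 hz
    refine ⟨r, ?_⟩
    rw [← hr]
    ext i
    simp [Matrix.mulVec_smul, Matrix.scalar_apply, Matrix.mulVec_diagonal]
  · intro z hz
    obtain ⟨r, -, hr⟩ := (Matrix.SpecialLinearGroup.mem_center_iff).1 hz
    change (z : Matrix (Fin n) (Fin n) F) * J₀ = J₀ * (z : Matrix (Fin n) (Fin n) F)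
    rw [← hr]
    exact Matrix.scalar_commute r (fun _ => Commute.all _ _) J₀
  · intro h
    let t : Matrix.TransvectionStruct (Fin n) F := ⟨i₁, i₀, hi, 1⟩
    have hmem : (⟨t.toMatrix, t.det⟩ : Matrix.SpecialLinearGroup (Fin n) F) ∈ lineStab e0 he0 := by
      rw [h]; trivial
    obtain ⟨μ, hμ⟩ := hmem
    have h1 := congrFun hμ i₁
    have h2 : (t.toMatrix).mulVec e0 i₁ = 1 := by
      simp [t, e0, Matrix.TransvectionStruct.toMatrix, Matrix.transvection, Matrix.add_mulVec, hi]
    have h3 : (μ • e0) i₁ = 0 := by simp [e0, hi]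
    change (t.toMatrix).mulVec e0 i₁ = _ at h1
    rw [h2, h3] at h1
    exact one_ne_zero h1
  · intro h
    have hcomm : ∀ t : Matrix.TransvectionStruct (Fin n) F, Commute t.toMatrix J₀ := by
      intro t
      have hmem : (⟨t.toMatrix, t.det⟩ : Matrix.SpecialLinearGroup (Fin n) F) ∈ commSL J₀ := by
        rw [h]; trivial
      exact hmem
    obtain ⟨a, ha⟩ := Matrix.mem_range_scalar_of_commute_transvectionStruct hcomm
    have h0 : ∀ b : F, Matrix.scalar (Fin n) b = algebraMap F (Matrix (Fin n) (Fin n) F) b := by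
      intro b
      ext i j
      simp [Matrix.scalar_apply, Matrix.algebraMap_matrix_apply, Matrix.diagonal_apply]
    have h1 : aeval (Matrix.scalar (Fin n) a) m₀ = Matrix.scalar (Fin n) (aeval a m₀) := by
      rw [h0, h0]
      exact Polynomial.aeval_algebraMap_apply _ a m₀
    rw [← ha] at hJ₀
    rw [h1] at hJ₀
    have h2 : aeval a m₀ = 0 := by
      have := congrFun (congrFun hJ₀ i₀) i₀
      simpa [Matrix.scalar_apply] using this
    have h3 : m₀.IsRoot a := by simpa [aeval_def] using h2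
    have := Polynomial.degree_eq_one_of_irreducible_of_root hm₀ h3
    have h4 : m₀.natDegree = 1 := natDegree_eq_of_degree_eq_some this
    omega
  · intro g
    by_cases hroot : ∃ a : F, (g : Matrix (Fin n) (Fin n) F).charpoly.IsRoot a
    · obtain ⟨a, ha⟩ := hroot
      have hdet : (Matrix.scalar (Fin n) a - (g : Matrix (Fin n) (Fin n) F)).det = 0 := by
        rw [← Matrix.eval_charpoly]
        exact ha
      obtain ⟨v, hv, hgv⟩ := Matrix.exists_mulVec_eq_zero_iff.2 hdet
      have hgv' : (g : Matrix (Fin n) (Fin n) F).mulVec v = a • v := by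
        rw [Matrix.sub_mulVec, sub_eq_zero] at hgv
        rw [← hgv]
        ext i
        simp [Matrix.scalar_apply, Matrix.mulVec_diagonal]
      obtain ⟨x, t, ht, hx⟩ := exists_SL_line i₀ hv
      refine ⟨x, Or.inl ⟨a, ?_⟩⟩
      have h1 : ((x⁻¹ * x : Matrix.SpecialLinearGroup (Fin n) F) : Matrix (Fin n) (Fin n) F).mulVec v = v := by simp
      rw [Matrix.SpecialLinearGroup.coe_mul, ← Matrix.mulVec_mulVec, hx, Matrix.mulVec_smul] at h1
      have h2 : ((x⁻¹ : Matrix.SpecialLinearGroup (Fin n) F) : Matrix (Fin n) (Fin n) F).mulVec e0 = t⁻¹ • v := by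
        calc ((x⁻¹ : Matrix.SpecialLinearGroup (Fin n) F) : Matrix (Fin n) (Fin n) F).mulVec e0
            = t⁻¹ • t • ((x⁻¹ : Matrix.SpecialLinearGroup (Fin n) F) : Matrix (Fin n) (Fin n) F).mulVec e0 := by
              rw [smul_smul, inv_mul_cancel₀ ht, one_smul]
          _ = t⁻¹ • v := by
              congr 1
      simp only [Matrix.SpecialLinearGroup.coe_mul]
      rw [← Matrix.mulVec_mulVec, ← Matrix.mulVec_mulVec, h2, Matrix.mulVec_smul, hgv',
        Matrix.mulVec_smul, Matrix.mulVec_smul, hx, smul_smul, smul_smul]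
      change (t⁻¹ * a * t) • e0 = a • e0
      congr 1
      field_simp
    · push_neg at hroot
      have hfac' : ∀ p : F[X], Irreducible p → p ∣ (g : Matrix (Fin n) (Fin n) F).charpoly → m₀.natDegree ∣ p.natDegree := by
        intro p hp hd'
        rw [hdeg]
        exact hfac _ hroot p hp hd'
      obtain ⟨J, hJg, hJ⟩ := A2_exists_J.A2_exists_J _ hm₀ hfac'
      obtain ⟨y, hy⟩ := A1_conj_of_aeval_eq_zero.A1_conj_of_aeval_eq_zero hm₀ J J₀ hJ hJ₀
      have hdy : (y : Matrix (Fin n) (Fin n) F).det ≠ 0 :=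
        ((Matrix.isUnit_iff_isUnit_det _).1 y.isUnit).ne_zero
      obtain ⟨c, hcJ, hcd⟩ := hc ((y : Matrix (Fin n) (Fin n) F).det)⁻¹ (inv_ne_zero hdy)
      let XX : Matrix (Fin n) (Fin n) F := (c : Matrix (Fin n) (Fin n) F) * (y : Matrix (Fin n) (Fin n) F)
      have hX : XX.det = 1 := by
        simp only [XX]
        rw [Matrix.det_mul, hcd, inv_mul_cancel₀ hdy]
      let x : Matrix.SpecialLinearGroup (Fin n) F := ⟨XX, hX⟩
      have hxJ : XX * J = J₀ * XX := by
        simp only [XX]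
        rw [mul_assoc, hy, ← mul_assoc, hcJ, mul_assoc]
      refine ⟨x, Or.inr ?_⟩
      change ((x * g * x⁻¹ : Matrix.SpecialLinearGroup (Fin n) F) : Matrix (Fin n) (Fin n) F) * J₀ = J₀ * ((x * g * x⁻¹ : Matrix.SpecialLinearGroup (Fin n) F) : Matrix (Fin n) (Fin n) F)
      have h1 : ((x⁻¹ * x : Matrix.SpecialLinearGroup (Fin n) F) : Matrix (Fin n) (Fin n) F) = 1 := by simp
      have h2 : ((x * x⁻¹ : Matrix.SpecialLinearGroup (Fin n) F) : Matrix (Fin n) (Fin n) F) = 1 := by simp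
      rw [Matrix.SpecialLinearGroup.coe_mul] at h1 h2
      set XI : Matrix (Fin n) (Fin n) F := ((x⁻¹ : Matrix.SpecialLinearGroup (Fin n) F) : Matrix (Fin n) (Fin n) F) with hXI
      have hx1 : (x : Matrix (Fin n) (Fin n) F) = XX := rfl
      rw [hx1] at h1 h2
      have h3 : J * XI = XI * J₀ := by
        calc J * XI = (XI * XX) * J * XI := by rw [h1, one_mul]
          _ = XI * (XX * J) * XI := by simp only [mul_assoc]
          _ = XI * (J₀ * XX) * XI := by rw [hxJ]
          _ = XI * J₀ * (XX * XI) := by simp only [mul_assoc]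
          _ = XI * J₀ := by rw [h2, mul_one]
      simp only [Matrix.SpecialLinearGroup.coe_mul, hx1, ← hXI]
      calc XX * (g : Matrix (Fin n) (Fin n) F) * XI * J₀ = XX * (g : Matrix (Fin n) (Fin n) F) * (XI * J₀) := by simp only [mul_assoc]
        _ = XX * (g : Matrix (Fin n) (Fin n) F) * (J * XI) := by rw [h3]
        _ = XX * ((g : Matrix (Fin n) (Fin n) F) * J) * XI := by simp only [mul_assoc]
        _ = XX * (J * (g : Matrix (Fin n) (Fin n) F)) * XI := by rw [hJg]
        _ = (XX * J) * (g : Matrix (Fin n) (Fin n) F) * XI := by simp only [mul_assoc]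
        _ = (J₀ * XX) * (g : Matrix (Fin n) (Fin n) F) * XI := by rw [hxJ]
        _ = J₀ * (XX * (g : Matrix (Fin n) (Fin n) F) * XI) := by simp only [mul_assoc]

/-- Degrees of the factors of a characteristic polynomial without root. -/
theorem degs {n : ℕ} (g : Matrix (Fin n) (Fin n) F) (h : ∀ a : F, ¬ g.charpoly.IsRoot a) (p : F[X])
    (hp : Irreducible p) (hd : p ∣ g.charpoly) :
    ∃ q : ℕ, p.natDegree + q = n ∧ p.natDegree ≠ 0 ∧ p.natDegree ≠ 1 ∧ q ≠ 1 := by
  obtain ⟨q, hq⟩ := hd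
  have hne : g.charpoly ≠ 0 := g.charpoly_monic.ne_zero
  have hp0 : p ≠ 0 := left_ne_zero_of_mul (hq ▸ hne)
  have hq0 : q ≠ 0 := right_ne_zero_of_mul (hq ▸ hne)
  refine ⟨q.natDegree, ?_, hp.natDegree_pos.ne', ?_, ?_⟩
  · rw [← natDegree_mul hp0 hq0, ← hq, Matrix.charpoly_natDegree_eq_dim, Fintype.card_fin]
  · intro h1
    have h2 : p.degree = 1 := by
      rw [degree_eq_natDegree hp0, h1]; rfl
    obtain ⟨a, ha⟩ := Polynomial.exists_root_of_degree_eq_one h2
    apply h a
    rw [hq, IsRoot, eval_mul, ha.eq_zero, zero_mul]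
  · intro h1
    have h2 : q.degree = 1 := by
      rw [degree_eq_natDegree hq0, h1]; rfl
    obtain ⟨a, ha⟩ := Polynomial.exists_root_of_degree_eq_one h2
    apply h a
    rw [hq, IsRoot, eval_mul, ha.eq_zero, mul_zero]

theorem psl2 : HasCover (Matrix.ProjectiveSpecialLinearGroup (Fin 2) F) :=
  cover 2 2 (by norm_num) (by norm_num) (by norm_num) (by
    intro g h p hp hd
    obtain ⟨q, h1, h2, h3, h4⟩ := degs g h p hp hd
    have : p.natDegree = 2 := by omega
    omega)

theorem psl3 : HasCover (Matrix.ProjectiveSpecialLinearGroup (Fin 3) F) :=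
  cover 3 3 (by norm_num) (by norm_num) (by norm_num) (by
    intro g h p hp hd
    obtain ⟨q, h1, h2, h3, h4⟩ := degs g h p hp hd
    have : p.natDegree = 3 := by omega
    omega)

theorem psl4 : HasCover (Matrix.ProjectiveSpecialLinearGroup (Fin 4) F) :=
  cover 4 2 (by norm_num) (by norm_num) (by norm_num) (by
    intro g h p hp hd
    obtain ⟨q, h1, h2, h3, h4⟩ := degs g h p hp hd
    have : p.natDegree = 2 ∨ p.natDegree = 4 := by omega
    omega)

end Cfsg.Agent.Lib.NCov.PSL
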