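/-
`PSU₃(3^a)` is covered by the conjugates of the stabiliser of an anisotropic line and of the
normaliser of a cubic structure.
-/
import Cfsg.Agent.Lib.NCov.Defs
import Cfsg.Agent.Lib.NCov.F1
import Cfsg.Agent.Lib.NCov.G3
import Cfsg.Agent.Lib.NCov.G3Model
import Cfsg.Agent.Lib.NCov.G4
import Cfsg.Agent.Lib.NCov.G5
import Cfsg.Agent.Lib.SUSpec.HermAlg

set_option autoImplicit false
set_option linter.unusedSectionVars false

namespace Cfsg.Agent.Lib.NCov.PSU3

open Module Matrix Cfsg Cfsg.Agent.Lib.NCov.Defs Cfsg.Agent.Lib.HermCount.Field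
  Cfsg.Agent.Lib.HermCount.Space Cfsg.Agent.Lib.Witt.HermModel
open Cfsg.Agent.Lib.HermCount.Lines (herm_space)
open Cfsg.Agent.Lib.SUSpec.HermAlg (su_of_isometry scalar_of_center center_of_scalar)

variable {F : Type*} [Field F] [Fintype F] {q : ℕ}

/-! ### The action -/

/-- The action of `SU₃` on coordinate vectors. -/
def act (g : ↥(SU 3 F q)) (v : Fin 3 → F) : Fin 3 → F := (g.1 : Matrix (Fin 3) (Fin 3) F) *ᵥ v

theorem act_mul (a b : ↥(SU 3 F q)) (v : Fin 3 → F) : act (a * b) v = act a (act b v) := by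
  show ((a.1 : Matrix (Fin 3) (Fin 3) F) * (b.1 : Matrix (Fin 3) (Fin 3) F)) *ᵥ v = _
  rw [← Matrix.mulVec_mulVec]
  rfl

theorem act_one (v : Fin 3 → F) : act (1 : ↥(SU 3 F q)) v = v := by
  show (1 : Matrix (Fin 3) (Fin 3) F) *ᵥ v = v
  rw [Matrix.one_mulVec]

theorem act_inv_act (a : ↥(SU 3 F q)) (v : Fin 3 → F) : act a⁻¹ (act a v) = v := by
  rw [← act_mul, inv_mul_cancel, act_one]

theorem act_act_inv (a : ↥(SU 3 F q)) (v : Fin 3 → F) : act a (act a⁻¹ v) = v := by
  rw [← act_mul, mul_inv_cancel, act_one]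

theorem act_add (a : ↥(SU 3 F q)) (u v : Fin 3 → F) : act a (u + v) = act a u + act a v :=
  Matrix.mulVec_add _ _ _

theorem act_smul (a : ↥(SU 3 F q)) (c : F) (v : Fin 3 → F) : act a (c • v) = c • act a v :=
  Matrix.mulVec_smul _ _ _

theorem act_iso (a : ↥(SU 3 F q)) (u v : Fin 3 → F) : hermForm 3 F q (act a u) (act a v) = hermForm 3 F q u v :=
  a.2 u v

/-- The linear map of an element. -/
def toL (g : ↥(SU 3 F q)) : (Fin 3 → F) →ₗ[F] (Fin 3 → F) where
  toFun := act g
  map_add' := act_add g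
  map_smul' := act_smul g

/-! ### The line stabiliser -/

/-- The stabiliser of the line of `e`. -/
def lineStab (e : Fin 3 → F) (he : e ≠ 0) : Subgroup ↥(SU 3 F q) where
  carrier := {g | ∃ μ : F, act g e = μ • e}
  mul_mem' := by
    rintro a b ⟨μ, hμ⟩ ⟨ν, hν⟩
    refine ⟨ν * μ, ?_⟩
    rw [act_mul, hν, act_smul, hμ, smul_smul]
  one_mem' := ⟨1, by rw [act_one, one_smul]⟩
  inv_mem' := by
    rintro a ⟨μ, hμ⟩
    have h1 : act a⁻¹ (act a e) = e := act_inv_act a e
    rw [hμ, act_smul] at h1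
    have hμ0 : μ ≠ 0 := by
      rintro rfl
      rw [zero_smul] at h1
      exact he h1.symm
    refine ⟨μ⁻¹, ?_⟩
    calc act a⁻¹ e = μ⁻¹ • μ • act a⁻¹ e := by rw [smul_smul, inv_mul_cancel₀ hμ0, one_smul]
      _ = μ⁻¹ • e := by rw [h1]

/-! ### Isometries and determinants -/

/-- The determinant of an isometry has norm one. -/
theorem det_norm (hF : Fintype.card F = q ^ 2) (f : (Fin 3 → F) →ₗ[F] (Fin 3 → F))
    (hf : ∀ x y, hermForm 3 F q (f x) (f y) = hermForm 3 F q x y) :
    LinearMap.det f ^ (q + 1) = 1 := by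
  classical
  let A := LinearMap.toMatrix' f
  have hA : ∀ x, A *ᵥ x = f x := LinearMap.toMatrix'_mulVec f
  have key : Aᵀ * (frobHom hF).mapMatrix A = 1 := by
    ext i j
    have h1 := hf (Pi.single i 1) (Pi.single j 1)
    rw [← hA, ← hA] at h1
    simp only [hermForm] at h1
    rw [Matrix.mul_apply]
    simp only [Matrix.mulVec_single_one, Matrix.col_apply, Matrix.transpose_apply, RingHom.mapMatrix_apply,
      Matrix.map_apply, frobHom_apply] at h1 ⊢
    rw [h1, Matrix.one_apply]
    have hq0 : q ≠ 0 := by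
      rintro rfl
      have := Fintype.one_lt_card (α := F)
      rw [hF] at this
      simp at this
    rw [Finset.sum_eq_single i (fun k _ hk => by simp [Pi.single_eq_of_ne hk]) (by simp)]
    by_cases hij : i = j
    · subst hij; simp
    · simp [hij, Pi.single_eq_of_ne hij, hq0]
  have h2 := congrArg Matrix.det key
  rw [Matrix.det_mul, Matrix.det_transpose, ← RingHom.map_det, Matrix.det_one, frobHom_apply] at h2
  have h3 : LinearMap.det f = A.det := by
    simp only [A, LinearMap.det_toMatrix']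
  rw [h3, pow_succ']
  exact h2

/-- Scaling an isometry to determinant one, when `3 ∣ q`. -/
theorem exists_su_scaled (hF : Fintype.card F = q ^ 2) (h3q : 3 ∣ q)
    (f : (Fin 3 → F) ≃ₗ[F] (Fin 3 → F))
    (hf : ∀ x y, hermForm 3 F q (f x) (f y) = hermForm 3 F q x y) :
    ∃ (x : ↥(SU 3 F q)) (c : F), c ≠ 0 ∧ ∀ v, act x v = c • f v := by
  classical
  obtain ⟨k, hk⟩ := h3q
  set δ := LinearMap.det (f : (Fin 3 → F) →ₗ[F] (Fin 3 → F)) with hδ
  have hδn : δ ^ (3 * k + 1) = 1 := by rw [← hk]; exact det_norm hF _ hf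
  have hδ0 : δ ≠ 0 := by
    rintro h
    rw [h, zero_pow (by omega)] at hδn
    exact zero_ne_one hδn
  set c := (δ⁻¹) ^ (2 * k + 1) with hc
  have hc0 : c ≠ 0 := pow_ne_zero _ (inv_ne_zero hδ0)
  have hcn : c ^ (3 * k + 1) = 1 := by
    rw [hc, ← pow_mul, mul_comm, pow_mul, inv_pow, hδn, inv_one, one_pow]
  have hc3 : c ^ 3 * δ = 1 := by
    have h1 : c ^ 3 = (δ⁻¹) * ((δ⁻¹) ^ (3 * k + 1)) ^ 2 := by
      rw [hc, ← pow_mul, ← pow_mul, ← pow_succ']
      congr 1
      ring
    rw [h1, inv_pow, hδn, inv_one, one_pow, mul_one, inv_mul_cancel₀ hδ0]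
  have hq : (c : F) * c ^ q = 1 := by rw [← pow_succ', hk]; exact hcn
  let g : (Fin 3 → F) →ₗ[F] (Fin 3 → F) := c • (f : (Fin 3 → F) →ₗ[F] (Fin 3 → F))
  have S := herm_space (F := F) 3 hF
  have hg : ∀ x y, hermForm 3 F q (g x) (g y) = hermForm 3 F q x y := by
    intro x y
    change hermForm 3 F q (c • f x) (c • f y) = _
    rw [S.smul_left, S.smul_right hF, hf, ← mul_assoc, hq, one_mul]
  have hdet : LinearMap.det g = 1 := by
    simp only [g]
    rw [LinearMap.det_smul]
    simp only [finrank_fintype_fun_eq_card, Fintype.card_fin]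
    exact hc3
  obtain ⟨x, hx⟩ := su_of_isometry hF g hg hdet
  exact ⟨x, c, hc0, fun v => hx v⟩

/-- An orthonormal family is the image of the standard one under a model. -/
theorem exists_model_of_orthonormal {V : Type*} [AddCommGroup V] [Module F V] [FiniteDimensional F V] {h : V → V → F}
    (S : HSpace q h) (r : ℕ) (hr : finrank F V = r) (b : Fin r → V)
    (hb : ∀ i j, h (b i) (b j) = if i = j then 1 else 0) :
    ∃ ψ : (Fin r → F) ≃ₗ[F] V, (∀ x y, h (ψ x) (ψ y) = hermForm r F q x y) ∧ ∀ x, ψ x = ∑ i, x i • b i := by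
  classical
  let f : (Fin r → F) →ₗ[F] V := Fintype.linearCombination F b
  have hf : ∀ x, f x = ∑ i, x i • b i := fun x => rfl
  have hfb : ∀ x j, h (f x) (b j) = x j := by
    intro x j
    rw [hf, sum_smul_left S, Finset.sum_eq_single j]
    · rw [hb, if_pos rfl, mul_one]
    · intro i _ hi
      rw [hb, if_neg hi, mul_zero]
    · simp
  have hinj : Function.Injective f := by
    rw [injective_iff_map_eq_zero]
    intro x hx
    funext j
    have := hfb x j
    rw [hx, S.zero_left] at this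
    exact this.symm
  have hiso : ∀ x y, h (f x) (f y) = hermForm r F q x y := by
    intro x y
    conv_lhs => rw [hf x]
    rw [sum_smul_left S]
    unfold hermForm
    refine Finset.sum_congr rfl fun i _ => ?_
    rw [S.conj (f y) (b i), hfb]
  refine ⟨LinearMap.linearEquivOfInjective f hinj (by rw [hr]; simp), fun x y => ?_, fun x => ?_⟩
  · simpa using hiso x y
  · simpa using hf x

/-- A unit vector is the first vector of an orthonormal basis. -/
theorem exists_orthonormal_of_unit (hF : Fintype.card F = q ^ 2) (v : Fin 3 → F)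
    (hv : hermForm 3 F q v v = 1) :
    ∃ b : Fin 3 → (Fin 3 → F), b 0 = v ∧ ∀ i j, hermForm 3 F q (b i) (b j) = if i = j then 1 else 0 := by
  classical
  have S := herm_space (F := F) 3 hF
  set K := perp S hF v with hK
  have hKnd : ∀ u ∈ K, (∀ w ∈ K, hermForm 3 F q u w = 0) → u = 0 := by
    intro u hu huv
    apply S.nd
    intro y
    have h1 : y - (hermForm 3 F q y v) • v ∈ K := by
      rw [mem_perp, S.sub_left, S.smul_left, hv]
      ring
    have h2 := huv _ h1
    have hue : hermForm 3 F q u v = 0 := hu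
    rw [S.sub_right hF, S.smul_right hF, hue] at h2
    simpa using h2
  have SK := S.restrict K hKnd
  have hfinK : finrank F K = 2 := by
    let φ : (Fin 3 → F) →ₗ[F] F :=
      { toFun := fun y => hermForm 3 F q y v
        map_add' := fun x y => S.add_left _ _ _
        map_smul' := fun a x => by simpa using S.smul_left a x v }
    have hker : LinearMap.ker φ = K := rfl
    have hsurj : Function.Surjective φ := by
      intro t
      refine ⟨t • v, ?_⟩
      change hermForm 3 F q (t • v) v = t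
      rw [S.smul_left, hv, mul_one]
    have h1 := LinearMap.finrank_range_add_finrank_ker φ
    rw [LinearMap.range_eq_top.mpr hsurj, finrank_top, finrank_self, hker] at h1
    simp at h1
    omega
  obtain ⟨b', hb'⟩ := exists_orthonormal hF 2 K (fun a b : K => hermForm 3 F q a b) SK hfinK
  refine ⟨Fin.cons v (fun i => (b' i : Fin 3 → F)), rfl, ?_⟩
  intro i j
  refine Fin.cases ?_ (fun i' => ?_) i <;> refine Fin.cases ?_ (fun j' => ?_) j
  · simpa using hv
  · have : hermForm 3 F q v (b' j' : Fin 3 → F) = 0 := S.zero_of_zero hF (b' j').2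
    simpa [Fin.succ_ne_zero, (Fin.succ_ne_zero j').symm] using this
  · have : hermForm 3 F q (b' i' : Fin 3 → F) v = 0 := (b' i').2
    simpa [Fin.succ_ne_zero] using this
  · have := hb' i' j'
    simpa using this

/-- The line of an anisotropic vector is conjugate to the standard line. -/
theorem exists_su_line (hF : Fintype.card F = q ^ 2) (h3q : 3 ∣ q) (v : Fin 3 → F)
    (hv : hermForm 3 F q v v ≠ 0) :
    ∃ (x : ↥(SU 3 F q)) (c : F), c ≠ 0 ∧ act x v = c • Pi.single 0 1 := by
  classical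
  have S := herm_space (F := F) 3 hF
  obtain ⟨a, ha⟩ := exists_norm_one_scale S hF v hv
  have ha0 : a ≠ 0 := by
    rintro rfl
    rw [zero_smul, S.zero_left] at ha
    exact zero_ne_one ha
  obtain ⟨b, hb0, hb⟩ := exists_orthonormal_of_unit hF (a • v) ha
  obtain ⟨ψ, hψ, hψb⟩ := exists_model_of_orthonormal S 3 (by simp) b hb
  obtain ⟨x, c, hc, hx⟩ := exists_su_scaled hF h3q ψ.symm (fun y z => by
    rw [← hψ, ψ.apply_symm_apply, ψ.apply_symm_apply])
  have h1 : ψ (Pi.single 0 1) = a • v := by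
    rw [hψb, ← hb0, Finset.sum_eq_single 0]
    · simp
    · intro i _ hi
      simp [Pi.single_eq_of_ne hi]
    · simp
  refine ⟨x, c * a⁻¹, mul_ne_zero hc (inv_ne_zero ha0), ?_⟩
  have h2 : act x (a • v) = c • Pi.single 0 1 := by
    rw [hx, ← h1, ψ.symm_apply_apply]
  rw [act_smul] at h2
  calc act x v = a⁻¹ • a • act x v := by rw [smul_smul, inv_mul_cancel₀ ha0, one_smul]
    _ = (c * a⁻¹) • Pi.single 0 1 := by rw [h2, smul_smul, mul_comm]

/-! ### The cubic structure -/

section cubic

variable {E : Type*} [Field E] [Fintype E] [Algebra F E]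

/-- The transport of the action to `E`. -/
def DD (ι : E ≃ₗ[F] (Fin 3 → F)) (x : ↥(SU 3 F q)) (w : E) : E := ι.symm (act x (ι w))

theorem DD_mul (ι : E ≃ₗ[F] (Fin 3 → F)) (x y : ↥(SU 3 F q)) (w : E) :
    DD ι (x * y) w = DD ι x (DD ι y w) := by
  simp [DD, act_mul]

theorem DD_one (ι : E ≃ₗ[F] (Fin 3 → F)) (w : E) : DD ι (1 : ↥(SU 3 F q)) w = w := by
  simp [DD, act_one]

/-- The predicate of the normaliser. -/
def IsNorm (ι : E ≃ₗ[F] (Fin 3 → F)) (x : ↥(SU 3 F q)) : Prop :=
  ∀ a : E, ∃ b : E, ∀ w : E, DD ι x (a * w) = b * DD ι x w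

theorem IsNorm.mul {ι : E ≃ₗ[F] (Fin 3 → F)} {x y : ↥(SU 3 F q)} (hx : IsNorm ι x) (hy : IsNorm ι y) :
    IsNorm ι (x * y) := by
  intro a
  obtain ⟨b, hb⟩ := hy a
  obtain ⟨b', hb'⟩ := hx b
  refine ⟨b', fun w => ?_⟩
  rw [DD_mul, DD_mul, hb, hb']

theorem IsNorm.one (ι : E ≃ₗ[F] (Fin 3 → F)) : IsNorm ι (1 : ↥(SU 3 F q)) := by
  intro a
  exact ⟨a, fun w => by rw [DD_one, DD_one]⟩

theorem IsNorm.pow {ι : E ≃ₗ[F] (Fin 3 → F)} {x : ↥(SU 3 F q)} (hx : IsNorm ι x) (n : ℕ) :
    IsNorm ι (x ^ n) := by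
  induction n with
  | zero => rw [pow_zero]; exact IsNorm.one ι
  | succ n ih => rw [pow_succ]; exact ih.mul hx

/-- The normaliser of the cubic structure. -/
def normSub (ι : E ≃ₗ[F] (Fin 3 → F)) : Subgroup ↥(SU 3 F q) where
  carrier := {x | IsNorm ι x}
  mul_mem' := fun hx hy => hx.mul hy
  one_mem' := IsNorm.one ι
  inv_mem' := by
    intro x hx
    obtain ⟨n, hn, hpn⟩ := (isOfFinOrder_of_finite x).exists_pow_eq_one
    have h1 : x⁻¹ = x ^ (n - 1) := by
      apply inv_eq_of_mul_eq_one_right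
      rw [← pow_succ', Nat.sub_add_cancel hn, hpn]
    change IsNorm ι x⁻¹
    rw [h1]
    exact IsNorm.pow hx _

/-- The map `d = diag(-1,-1,1)` does not normalise any cubic structure. -/
theorem not_isNorm_d (hF : Fintype.card F = q ^ 2) (hE3 : finrank F E = 3) (h3 : (3 : F) = 0)
    (ι : E ≃ₗ[F] (Fin 3 → F)) (d : ↥(SU 3 F q))
    (hd : ∀ v : Fin 3 → F, act d v = ![- v 0, - v 1, v 2]) : ¬ IsNorm ι d := by
  classical
  intro hK
  have h2 : (2 : F) ≠ 0 := by
    intro h
    have : (1 : F) = 3 - 2 := by norm_num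
    rw [h3, h, sub_zero] at this
    exact one_ne_zero this
  -- the linear map on `E`
  let DL : E →ₗ[F] E := (ι.symm : (Fin 3 → F) →ₗ[F] E) ∘ₗ (toL d) ∘ₗ (ι : E →ₗ[F] (Fin 3 → F))
  have hDL : ∀ w, DL w = DD ι d w := fun w => rfl
  have hdd : ∀ w, DL (DL w) = w := by
    intro w
    rw [hDL, hDL, ← DD_mul]
    have : d * d = 1 := by
      apply Subtype.ext
      apply Subtype.ext
      apply Matrix.mulVec_injective
      funext v
      have h1 : ((d * d).1 : Matrix (Fin 3) (Fin 3) F) *ᵥ v = act d (act d v) := act_mul d d v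
      have h2 : ((1 : ↥(SU 3 F q)).1 : Matrix (Fin 3) (Fin 3) F) *ᵥ v = v := act_one v
      rw [h1, h2, hd, hd]
      funext i
      fin_cases i <;> simp
    rw [this, DD_one]
  set c := DL 1 with hc
  have hc0 : c ≠ 0 := by
    intro h
    have := hdd 1
    rw [← hc, h, map_zero] at this
    exact zero_ne_one this
  have hstar : ∀ a w, DL (a * w) = (DL a * c⁻¹) * DL w := by
    intro a w
    obtain ⟨b, hb⟩ := hK a
    have h1 := hb 1
    have h4 := hb w
    rw [mul_one, ← hDL, ← hDL, ← hc] at h1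
    rw [← hDL, ← hDL] at h4
    rw [h4, h1]
    field_simp
  let σ : E →ₐ[F] E := AlgHom.ofLinearMap ((LinearMap.mulRight F c⁻¹) ∘ₗ DL)
    (by
      change DL 1 * c⁻¹ = 1
      rw [← hc, mul_inv_cancel₀ hc0])
    (by
      intro a b
      change DL (a * b) * c⁻¹ = (DL a * c⁻¹) * (DL b * c⁻¹)
      rw [hstar]
      ring)
  have hσ : ∀ a, σ a = DL a * c⁻¹ := fun a => rfl
  have hDc : DL c = 1 := by
    rw [hc]
    exact hdd 1
  have hσσ : ∀ a, σ (σ a) = a := by
    intro a
    have h1 : DL a = σ a * c := by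
      rw [hσ, mul_assoc, inv_mul_cancel₀ hc0, mul_one]
    have h4 := hdd a
    rw [h1, hstar, hDc, mul_one] at h4
    rw [hσ, h4]
  let σ' : E ≃ₐ[F] E := AlgEquiv.ofAlgHom σ σ (AlgHom.ext hσσ) (AlgHom.ext hσσ)
  have hσ1 : σ' = 1 := by
    have h4 : σ' ^ 2 = 1 := by
      ext a
      exact hσσ a
    have h5 : σ' ^ 3 = 1 := by
      have := pow_card_eq_one' (x := σ')
      rwa [IsGalois.card_aut_eq_finrank, hE3] at this
    calc σ' = σ' ^ 3 * (σ' ^ 2)⁻¹ := by group
      _ = 1 := by rw [h4, h5]; simp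
  have hid : ∀ a, DL a = a * c := by
    intro a
    have h1 : σ' a = a := by rw [hσ1]; rfl
    have h4 : DL a * c⁻¹ = a := h1
    calc DL a = DL a * c⁻¹ * c := by rw [mul_assoc, inv_mul_cancel₀ hc0, mul_one]
      _ = a * c := by rw [h4]
  -- contradiction
  let w₂ : E := ι.symm (Pi.single 2 1)
  let w₀ : E := ι.symm (Pi.single 0 1)
  have hw₂ : DL w₂ = w₂ := by
    change ι.symm (act d (ι (ι.symm (Pi.single 2 1)))) = ι.symm (Pi.single 2 1)
    rw [ι.apply_symm_apply, hd]
    congr 1
    funext i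
    fin_cases i <;> simp
  have hw₂0 : w₂ ≠ 0 := by
    intro h
    have h1 : ι w₂ = Pi.single 2 1 := ι.apply_symm_apply _
    rw [h, map_zero] at h1
    have := congrFun h1 2
    simp at this
  have hc1 : c = 1 := by
    have h1 := hid w₂
    rw [hw₂] at h1
    have h4 : w₂ * (c - 1) = 0 := by rw [mul_sub, ← h1]; ring
    rcases mul_eq_zero.1 h4 with h5 | h5
    · exact absurd h5 hw₂0
    · exact sub_eq_zero.1 h5
  have hw₀ : DL w₀ = w₀ := by rw [hid, hc1, mul_one]
  have hw₀' : act d (Pi.single 0 1) = (Pi.single 0 1 : Fin 3 → F) := by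
    have h1 : ι (DL w₀) = act d (ι w₀) := by
      change ι (ι.symm _) = _
      rw [ι.apply_symm_apply]
      rfl
    have h4 : ι w₀ = Pi.single 0 1 := ι.apply_symm_apply _
    rw [hw₀, h4] at h1
    rw [← h1]
  rw [hd] at hw₀'
  have h0 := congrFun hw₀' 0
  simp at h0
  apply h2
  have h6 : (1 : F) = -1 := by simpa using h0.symm
  linear_combination h6

/-- The covering, with a given cubic extension. -/
theorem cover_aux (hF : Fintype.card F = q ^ 2) (h3q : 3 ∣ q) (hqo : Odd q) (h3 : (3 : F) = 0)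
    (hE3 : finrank F E = 3) : HasCover (PSU 3 F q) := by
  classical
  obtain ⟨ι, hι, hιF⟩ := Cfsg.Agent.Lib.NCov.G3_model (F := F) (E := E) hF hE3 h3
  have S := herm_space (F := F) 3 hF
  let e₀ : Fin 3 → F := Pi.single 0 1
  have he₀ : e₀ ≠ 0 := by
    intro h
    have := congrFun h 0
    simp [e₀] at this
  refine HasCover.quot (Subgroup.center _) (lineStab e₀ he₀) (normSub ι) ?_ ?_ ?_ ?_ ?_
  · -- the centre is in the line stabiliser
    intro z hz
    obtain ⟨a, ha⟩ := scalar_of_center hF (by norm_num) hz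
    exact ⟨a, ha e₀⟩
  · -- the centre normalises
    intro z hz
    obtain ⟨s, hs⟩ := scalar_of_center hF (by norm_num) hz
    intro a
    refine ⟨a, fun w => ?_⟩
    have h1 : ∀ w : E, DD ι z w = s • w := by
      intro w
      change ι.symm ((z.1 : Matrix (Fin 3) (Fin 3) F) *ᵥ ι w) = _
      rw [hs, map_smul, ι.symm_apply_apply]
    rw [h1, h1, mul_smul_comm]
  · -- the line stabiliser is proper
    intro h
    let e₁ : Fin 3 → F := Pi.single 1 1
    have he₁ : hermForm 3 F q e₁ e₁ ≠ 0 := by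
      have hq0 : q ≠ 0 := by
        rintro rfl
        simp at hqo
      simp [hermForm, Fin.sum_univ_three, e₁, hq0]
    obtain ⟨x, c, hc, hx⟩ := exists_su_line hF h3q e₁ he₁
    have hmem : x⁻¹ ∈ lineStab e₀ he₀ := by rw [h]; trivial
    obtain ⟨μ, hμ⟩ := hmem
    have h1 : act x⁻¹ (act x e₁) = e₁ := act_inv_act x e₁
    rw [hx, act_smul] at h1
    change c • act x⁻¹ e₀ = e₁ at h1
    rw [hμ] at h1
    have := congrFun h1 1
    simp [e₀, e₁] at this
  · -- the normaliser is proper
    intro h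
    let f : (Fin 3 → F) →ₗ[F] (Fin 3 → F) := Matrix.toLin' (Matrix.diagonal ![-1, -1, 1])
    have hf : ∀ v, f v = ![- v 0, - v 1, v 2] := by
      intro v
      funext i
      fin_cases i <;> simp [f, Matrix.toLin'_apply, Matrix.mulVec_diagonal]
    have hfiso : ∀ x y, hermForm 3 F q (f x) (f y) = hermForm 3 F q x y := by
      intro x y
      rw [hf, hf]
      simp only [hermForm, Fin.sum_univ_three]
      simp [hqo.neg_pow]
    have hfdet : LinearMap.det f = 1 := by
      simp only [f]
      rw [LinearMap.det_toLin', Matrix.det_diagonal, Fin.prod_univ_three]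
      simp
    obtain ⟨d, hd⟩ := su_of_isometry hF f hfiso hfdet
    have hmem : d ∈ normSub ι := by rw [h]; trivial
    exact not_isNorm_d hF hE3 h3 ι d (fun v => (hd v).trans (hf v)) hmem
  · -- the covering
    intro g
    have hT : ∀ x y, hermForm 3 F q (toL g x) (toL g y) = hermForm 3 F q x y := act_iso g
    have hdet : LinearMap.det (toL g) = 1 := by
      have h1 : toL g = Matrix.toLin' (g.1 : Matrix (Fin 3) (Fin 3) F) := by
        ext x i
        rfl
      rw [h1, LinearMap.det_toLin']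
      exact g.1.2
    rcases Cfsg.Agent.Lib.NCov.G5.G5_trichotomy hF h3 S (by simp) (toL g) hT hdet with ⟨v, hv, c₁, hvc⟩ | hno | ⟨hN3, hN2⟩
    · -- an anisotropic eigenvector
      obtain ⟨x, c, hc, hx⟩ := exists_su_line hF h3q v hv
      refine ⟨x, Or.inl ⟨c₁, ?_⟩⟩
      have h1 : act x⁻¹ e₀ = c⁻¹ • v := by
        have h2 : act x⁻¹ (act x v) = v := act_inv_act x v
        rw [hx, act_smul] at h2
        calc act x⁻¹ e₀ = c⁻¹ • c • act x⁻¹ e₀ := by rw [smul_smul, inv_mul_cancel₀ hc, one_smul]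
          _ = c⁻¹ • v := by
              congr 1
      have hvc' : act g v = c₁ • v := hvc
      rw [act_mul, act_mul, h1, act_smul, hvc', act_smul, act_smul, hx, smul_smul, smul_smul]
      change (c⁻¹ * c₁ * c) • e₀ = c₁ • e₀
      congr 1
      field_simp
    · -- no eigenvector
      obtain ⟨φ, lam, hφ, hφT⟩ := Cfsg.Agent.Lib.NCov.G4_irr_model hF hE3 (toL g) hT hno
      obtain ⟨x, c, hc, hx⟩ := exists_su_scaled hF h3q (φ.trans ι) (fun u v => by
        simp only [LinearEquiv.trans_apply]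
        rw [hι, hφ])
      refine ⟨x, Or.inr ?_⟩
      have hD : ∀ w : E, DD ι (x * g * x⁻¹) w = lam * w := by
        intro w
        set u := act x⁻¹ (ι w) with hu
        have h1 : act x u = ι w := act_act_inv x _
        rw [hx, LinearEquiv.trans_apply] at h1
        have h2 : c • φ u = w := by
          apply ι.injective
          rw [map_smul, h1]
        change ι.symm (act (x * g * x⁻¹) (ι w)) = _
        rw [act_mul, act_mul, ← hu, hx, LinearEquiv.trans_apply, map_smul, ι.symm_apply_apply]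
        have h4 : φ (act g u) = lam * φ u := hφT u
        rw [h4, ← h2, mul_smul_comm]
      intro a
      refine ⟨a, fun w => ?_⟩
      rw [hD, hD]
      ring
    · -- the regular unipotent class
      obtain ⟨v, hv1, hv2, hv3⟩ := Cfsg.Agent.Lib.NCov.F1.F1_reg_normal hF h3 S (by simp) (toL g) hT hN3 hN2
      have h3v : ∀ z : Fin 3 → F, z + z + z = 0 := by
        intro z
        have h1 : (3 : F) • z = 0 := by rw [h3, zero_smul]
        have h4 : (3 : F) • z = z + z + z := by
          have : (3 : F) = 1 + 1 + 1 := by norm_num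
          rw [this, add_smul, add_smul, one_smul]
        rw [← h4, h1]
      have hT3 : ∀ z, toL g (toL g (toL g z)) = z := by
        intro z
        have h1 := LinearMap.congr_fun hN3 z
        simp only [pow_succ, pow_zero, one_mul, Module.End.mul_apply, LinearMap.sub_apply,
          Module.End.one_apply, map_sub, LinearMap.zero_apply] at h1
        have h4 := h3v (toL g (toL g z))
        have h5 := h3v (toL g z)
        calc toL g (toL g (toL g z)) = ((toL g (toL g (toL g z)) - toL g (toL g z) - (toL g (toL g z) - toL g z)) -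
              (toL g (toL g z) - toL g z - (toL g z - z))) + (toL g (toL g z) + toL g (toL g z) + toL g (toL g z))
              - (toL g z + toL g z + toL g z) + z := by abel
          _ = z := by rw [h1, h4, h5]; simp
      let b : Fin 3 → (Fin 3 → F) := ![v, toL g v, toL g (toL g v)]
      have h11 : hermForm 3 F q v v = 1 := hv1
      have h22 : hermForm 3 F q (toL g v) (toL g v) = 1 := by rw [hT, hv1]
      have h33 : hermForm 3 F q (toL g (toL g v)) (toL g (toL g v)) = 1 := by rw [hT, hT, hv1]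
      have h21 : hermForm 3 F q (toL g v) v = 0 := hv2
      have h31 : hermForm 3 F q (toL g (toL g v)) v = 0 := hv3
      have h32 : hermForm 3 F q (toL g (toL g v)) (toL g v) = 0 := by rw [hT]; exact hv2
      have h12 : hermForm 3 F q v (toL g v) = 0 := S.zero_of_zero hF h21
      have h13 : hermForm 3 F q v (toL g (toL g v)) = 0 := S.zero_of_zero hF h31
      have h23 : hermForm 3 F q (toL g v) (toL g (toL g v)) = 0 := S.zero_of_zero hF h32
      have hb : ∀ i j, hermForm 3 F q (b i) (b j) = if i = j then 1 else 0 := by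
        intro i j
        fin_cases i <;> fin_cases j <;> simp [b, h11, h22, h33, h21, h31, h32, h12, h13, h23]
      obtain ⟨ψ, hψ, hψb⟩ := exists_model_of_orthonormal S 3 (by simp) b hb
      have hψ3 : ∀ y : Fin 3 → F, ψ y = y 0 • v + y 1 • toL g v + y 2 • toL g (toL g v) := by
        intro y
        rw [hψb, Fin.sum_univ_three]
        rfl
      have hTψ : ∀ y : Fin 3 → F, toL g (ψ y) = ψ (fun i => y (i - 1)) := by
        intro y
        rw [hψ3, hψ3, map_add, map_add, map_smul, map_smul, map_smul, hT3]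
        have e0 : (0 - 1 : Fin 3) = 2 := rfl
        have e1 : (1 - 1 : Fin 3) = 0 := rfl
        have e2 : (2 - 1 : Fin 3) = 1 := rfl
        simp only [e0, e1, e2]
        abel
      obtain ⟨x, c, hc, hx⟩ := exists_su_scaled hF h3q ψ.symm (fun y z => by
        rw [← hψ, ψ.apply_symm_apply, ψ.apply_symm_apply])
      refine ⟨x, Or.inr ?_⟩
      have hD : ∀ w : E, DD ι (x * g * x⁻¹) w = w ^ (q ^ 2) := by
        intro w
        set u := act x⁻¹ (ι w) with hu
        have h1 : act x u = ι w := act_act_inv x _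
        rw [hx] at h1
        have h2 : u = ψ (c⁻¹ • ι w) := by
          rw [← h1, smul_smul, inv_mul_cancel₀ hc, one_smul, ψ.apply_symm_apply]
        change ι.symm (act (x * g * x⁻¹) (ι w)) = _
        rw [act_mul, act_mul, ← hu, hx]
        have h4 : act g u = toL g u := rfl
        rw [h4, h2, hTψ, ψ.symm_apply_apply, LinearEquiv.symm_apply_eq]
        funext i
        rw [hιF w i]
        simp only [Pi.smul_apply, smul_eq_mul]
        rw [← mul_assoc, mul_inv_cancel₀ hc, one_mul]
      intro a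
      refine ⟨a ^ (q ^ 2), fun w => ?_⟩
      rw [hD, hD, mul_pow]

end cubic

/-- `PSU₃(3^a)` has normal covering number 2. -/
theorem psu3 (q a : ℕ) (hF : Fintype.card F = q ^ 2) (ha : 1 ≤ a) (hq : q = 3 ^ a) :
    HasCover (PSU 3 F q) := by
  classical
  have h3q : 3 ∣ q := by
    rw [hq]
    exact dvd_pow_self 3 (by omega)
  have hqo : Odd q := by
    rw [hq]
    exact Odd.pow (by decide)
  have h3 : (3 : F) = 0 := by
    have h1 : ((Fintype.card F : ℕ) : F) = 0 := Nat.cast_card_eq_zero F
    rw [hF, hq] at h1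
    push_cast at h1
    exact pow_eq_zero_iff (by positivity) |>.1 (pow_eq_zero_iff (by positivity) |>.1 h1)
  let p := ringChar F
  haveI : Fact p.Prime := ⟨CharP.char_is_prime F p⟩
  let E := FiniteField.Extension F p 3
  have hE3 : finrank F E = 3 := FiniteField.finrank_extension F p 3
  letI : Fintype E := Fintype.ofFinite E
  exact cover_aux (E := E) hF h3q hqo h3 hE3

end Cfsg.Agent.Lib.NCov.PSU3
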