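import Mathlib
import Cfsg.Agent.Lib.NCov.Defs
import Cfsg.Agent.Lib.NCov.E1
import Cfsg.Agent.Lib.Elusive.HermPair
import Cfsg.Agent.Lib.SUSpec.HermAlg
import Cfsg.Agent.Lib.Witt.Hermitian

/-!
`PSU_4(q)` is covered by the conjugates of the stabiliser of an anisotropic line and of the
stabiliser of a totally isotropic plane.
-/

set_option autoImplicit false
set_option linter.unusedSectionVars false

namespace Cfsg.Agent.Lib.NCov.PSU4

open Module Matrix Cfsg Cfsg.Geo Cfsg.Agent.Lib.NCov.Defs Cfsg.Agent.Lib.HermCount.Field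
  Cfsg.Agent.Lib.HermCount.Space
open Cfsg.Agent.Lib.HermCount.Lines (herm_space)
open Cfsg.Agent.Lib.Elusive.HermPair (IsPair exists_conj_pair two_mul_finrank)

universe u

variable {F : Type u} [Field F] [Fintype F] {q : ℕ}

/-! ### The action -/

/-- The action of `SU₄` on coordinate vectors. -/
def act (g : ↥(SU 4 F q)) (v : Fin 4 → F) : Fin 4 → F := (g.1 : Matrix (Fin 4) (Fin 4) F) *ᵥ v

theorem act_mul (a b : ↥(SU 4 F q)) (v : Fin 4 → F) : act (a * b) v = act a (act b v) := by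
  show ((a.1 : Matrix (Fin 4) (Fin 4) F) * (b.1 : Matrix (Fin 4) (Fin 4) F)) *ᵥ v = _
  rw [← Matrix.mulVec_mulVec]
  rfl

theorem act_one (v : Fin 4 → F) : act (1 : ↥(SU 4 F q)) v = v := by
  show (1 : Matrix (Fin 4) (Fin 4) F) *ᵥ v = v
  rw [Matrix.one_mulVec]

theorem act_inv_act (a : ↥(SU 4 F q)) (v : Fin 4 → F) : act a⁻¹ (act a v) = v := by
  rw [← act_mul, inv_mul_cancel, act_one]

theorem act_act_inv (a : ↥(SU 4 F q)) (v : Fin 4 → F) : act a (act a⁻¹ v) = v := by
  rw [← act_mul, mul_inv_cancel, act_one]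

theorem act_add (a : ↥(SU 4 F q)) (u v : Fin 4 → F) : act a (u + v) = act a u + act a v :=
  Matrix.mulVec_add _ _ _

theorem act_smul (a : ↥(SU 4 F q)) (c : F) (v : Fin 4 → F) : act a (c • v) = c • act a v :=
  Matrix.mulVec_smul _ _ _

theorem act_iso (a : ↥(SU 4 F q)) (u v : Fin 4 → F) : hermForm 4 F q (act a u) (act a v) = hermForm 4 F q u v :=
  a.2 u v

/-- The stabiliser of a subspace. -/
def stab (W : Submodule F (Fin 4 → F)) : Subgroup ↥(SU 4 F q) where
  carrier := {g | ∀ v, v ∈ W ↔ act g v ∈ W}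
  mul_mem' {a b} ha hb v := by
    rw [act_mul, ← ha, ← hb]
  one_mem' v := by rw [act_one]
  inv_mem' {a} ha v := by
    rw [ha (act a⁻¹ v), act_act_inv]

theorem mem_stab_of_le {W : Submodule F (Fin 4 → F)} {t : ↥(SU 4 F q)} (h : ∀ y ∈ W, act t y ∈ W) :
    t ∈ stab W := by
  have hpow : ∀ (n : ℕ), ∀ y ∈ W, act (t ^ n) y ∈ W := by
    intro n
    induction n with
    | zero => intro y hy; rw [pow_zero, act_one]; exact hy
    | succ n ih =>
      intro y hy
      rw [pow_succ, act_mul]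
      exact ih _ (h y hy)
  intro v
  refine ⟨h v, fun hv => ?_⟩
  obtain ⟨n, hn, hpn⟩ := (isOfFinOrder_of_finite t).exists_pow_eq_one
  have h1 : act (t ^ (n - 1)) (act t v) = v := by
    rw [← act_mul, ← pow_succ, Nat.sub_add_cancel hn, hpn, act_one]
  rw [← h1]
  exact hpow _ _ hv

/-- The linear equivalence of an element. -/
noncomputable def toE (x : ↥(SU 4 F q)) : (Fin 4 → F) ≃ₗ[F] (Fin 4 → F) where
  toFun := act x
  invFun := act x⁻¹
  map_add' := act_add x
  map_smul' := act_smul x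
  left_inv := act_inv_act x
  right_inv := act_act_inv x

theorem conj_mem_stab {W W₁ : Submodule F (Fin 4 → F)} {g x : ↥(SU 4 F q)}
    (hg : ∀ w ∈ W, act g w ∈ W) (hx : ∀ w ∈ W, act x w ∈ W₁) (hd : finrank F W = finrank F W₁) :
    x * g * x⁻¹ ∈ stab W₁ := by
  have hmap : W.map (toE x : (Fin 4 → F) →ₗ[F] (Fin 4 → F)) = W₁ := by
    apply Submodule.eq_of_le_of_finrank_eq
    · rintro _ ⟨w, hw, rfl⟩
      exact hx w hw
    · rw [LinearEquiv.finrank_map_eq, hd]
  apply mem_stab_of_le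
  intro y hy
  rw [← hmap] at hy
  obtain ⟨w, hw, rfl⟩ := hy
  have h1 : act (x * g * x⁻¹) ((toE x : (Fin 4 → F) →ₗ[F] (Fin 4 → F)) w) = act x (act g w) := by
    show act (x * g * x⁻¹) (act x w) = _
    rw [act_mul, act_mul, act_inv_act]
  rw [h1]
  exact hx _ (hg w hw)

/-! ### Witt -/

section witt

variable (hF : Fintype.card F = q ^ 2)
include hF

/-- The form in Witt's convention. -/
noncomputable def B₀ : (Fin 4 → F) →ₛₗ[frobHom hF] (Fin 4 → F) →ₗ[F] F :=
  LinearMap.mk₂'ₛₗ (frobHom hF) (RingHom.id F) (fun x y => hermForm 4 F q y x)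
    (fun x x' y => (herm_space 4 hF).add_right hF y x x')
    (fun a x y => by
      rw [(herm_space 4 hF).smul_right hF]
      rfl)
    (fun x y y' => (herm_space 4 hF).add_left y y' x)
    (fun a x y => by
      rw [(herm_space 4 hF).smul_left]
      rfl)

theorem B₀_apply (x y : Fin 4 → F) : B₀ hF x y = hermForm 4 F q y x := rfl

theorem exists_isometry {ι : Type*} [Finite ι] (u u' : ι → Fin 4 → F) (hu : LinearIndependent F u)
    (hu' : LinearIndependent F u') (hgram : ∀ i j, hermForm 4 F q (u i) (u j) = hermForm 4 F q (u' i) (u' j)) :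
    ∃ g : (Fin 4 → F) ≃ₗ[F] (Fin 4 → F), (∀ x y, hermForm 4 F q (g x) (g y) = hermForm 4 F q x y) ∧
      ∀ i, g (u i) = u' i := by
  have S := herm_space (F := F) 4 hF
  have hσ : frobHom hF ≠ RingHom.id F := by
    intro h
    obtain ⟨x, hx⟩ := exists_frob_ne hF
    exact hx (congrArg (fun f : F →+* F => f x) h)
  obtain ⟨g, hg, hgu⟩ := Cfsg.Agent.Lib.Witt.Hermitian.witt_family (B := B₀ hF) hσ (frob_frob hF)
    ⟨fun x y => (S.conj y x).symm⟩ ⟨fun x hx => S.nd x (fun y => by
      have := hx y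
      rw [B₀_apply] at this
      exact S.zero_of_zero hF this), fun y hy => S.nd y (fun x => hy x)⟩ u u' hu hu'
    (fun i j => hgram j i)
  exact ⟨g, fun x y => hg y x, hgu⟩

/-- An isometry, corrected on the last coordinate, lies in `SU₄`. -/
theorem exists_su_of_equiv (g : (Fin 4 → F) ≃ₗ[F] (Fin 4 → F))
    (hg : ∀ x y, hermForm 4 F q (g x) (g y) = hermForm 4 F q x y) :
    ∃ (x : ↥(SU 4 F q)) (δ : F), δ ≠ 0 ∧ ∀ w, act x w = Function.update (g w) 3 (δ * g w 3) := by
  classical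
  set M := LinearMap.toMatrix' (g : (Fin 4 → F) →ₗ[F] (Fin 4 → F)) with hM
  have hMv : ∀ w, M *ᵥ w = g w := fun w => LinearMap.toMatrix'_mulVec _ _
  have hdet := Cfsg.Agent.Lib.Witt.HermParabolic.det_mul_frob hF M (fun x y => by rw [hMv, hMv, hg])
  set δ₀ := M.det with hδ₀
  have hδ₀0 : δ₀ ≠ 0 := by
    intro h
    rw [h, zero_mul] at hdet
    exact zero_ne_one hdet
  have hδq : δ₀⁻¹ * δ₀⁻¹ ^ q = 1 := by
    rw [inv_pow, ← mul_inv, hdet, inv_one]
  let D : (Fin 4 → F) →ₗ[F] (Fin 4 → F) := Matrix.toLin' (Matrix.diagonal ![1, 1, 1, δ₀⁻¹])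
  have hD : ∀ w, D w = Function.update w 3 (δ₀⁻¹ * w 3) := by
    intro w
    funext i
    show ((Matrix.diagonal ![1, 1, 1, δ₀⁻¹]) *ᵥ w) i = _
    rw [Matrix.mulVec_diagonal]
    fin_cases i <;> simp [Function.update]
  have hDiso : ∀ x y, hermForm 4 F q (D x) (D y) = hermForm 4 F q x y := by
    intro x y
    simp only [hermForm, Fin.sum_univ_four, hD, Function.update]
    simp only [show (0 : Fin 4) ≠ 3 by decide, show (1 : Fin 4) ≠ 3 by decide, show (2 : Fin 4) ≠ 3 by decide,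
      dite_false, dite_true, eq_rec_constant, mul_pow]
    have : δ₀⁻¹ * x 3 * (δ₀⁻¹ ^ q * y 3 ^ q) = (δ₀⁻¹ * δ₀⁻¹ ^ q) * (x 3 * y 3 ^ q) := by ring
    simp only [this, hδq, one_mul]
  let f : (Fin 4 → F) →ₗ[F] (Fin 4 → F) := D ∘ₗ (g : (Fin 4 → F) →ₗ[F] (Fin 4 → F))
  have hfdet : LinearMap.det f = 1 := by
    have h1 : LinearMap.det (g : (Fin 4 → F) →ₗ[F] (Fin 4 → F)) = δ₀ := by
      rw [hδ₀, hM, ← LinearMap.det_toLin', Matrix.toLin'_toMatrix']
    rw [LinearMap.det_comp, h1, LinearMap.det_toLin', Matrix.det_diagonal, Fin.prod_univ_four]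
    simp [hδ₀0]
  obtain ⟨x, hx⟩ := Cfsg.Agent.Lib.SUSpec.HermAlg.su_of_isometry hF f (fun a b => by
    show hermForm 4 F q (D (g a)) (D (g b)) = _
    rw [hDiso, hg]) hfdet
  exact ⟨x, δ₀⁻¹, inv_ne_zero hδ₀0, fun w => (hx w).trans (hD (g w))⟩

end witt

/-! ### The anisotropic line -/

/-- The coordinate vector. -/
def e₀ (F : Type*) [Field F] : Fin 4 → F := Pi.single 0 1

theorem e₀_ne : e₀ F ≠ 0 := by
  intro h
  have := congrFun h 0
  simp [e₀] at this

section aniso

variable (hF : Fintype.card F = q ^ 2)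
include hF

theorem herm_e₀ : hermForm 4 F q (e₀ F) (e₀ F) = 1 := by
  have hq := two_le hF
  simp only [hermForm, e₀, Fin.sum_univ_four]
  simp [Pi.single_apply, zero_pow (by omega : q ≠ 0)]

/-- An anisotropic vector is moved to a multiple of `e₀`. -/
theorem exists_su_line {v : Fin 4 → F} (hv : hermForm 4 F q v v ≠ 0) :
    ∃ (x : ↥(SU 4 F q)) (a : F), act x v = a • e₀ F := by
  classical
  have S := herm_space (F := F) 4 hF
  obtain ⟨a, ha⟩ := Cfsg.Agent.Lib.Witt.HermModel.exists_norm_one_scale S hF v hv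
  have ha0 : a ≠ 0 := by
    rintro rfl
    rw [zero_smul, S.zero_left] at ha
    exact zero_ne_one ha
  have hv0 : a • v ≠ 0 := by
    intro h
    rw [h, S.zero_left] at ha
    exact zero_ne_one ha
  obtain ⟨g, hg, hgu⟩ := exists_isometry hF (ι := Unit) (fun _ => a • v) (fun _ => e₀ F)
    (linearIndependent_unique_iff.2 hv0) (linearIndependent_unique_iff.2 e₀_ne) (fun _ _ => by rw [ha, herm_e₀ hF])
  obtain ⟨x, δ, _, hx⟩ := exists_su_of_equiv hF g hg
  have h1 : act x (a • v) = e₀ F := by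
    rw [hx, hgu ()]
    funext i
    by_cases hi : i = 3
    · subst hi
      simp [e₀, Pi.single_apply]
    · simp [Function.update, hi]
  refine ⟨x, a⁻¹, ?_⟩
  rw [← h1, ← act_smul, smul_smul, inv_mul_cancel₀ ha0, one_smul]

end aniso

/-! ### The pair of totally isotropic planes -/

/-- The totally isotropic plane attached to a root of `a^(q+1) = -1`. -/
def W0 (a : F) : Submodule F (Fin 4 → F) where
  carrier := {x | x 1 = a * x 0 ∧ x 3 = a * x 2}
  add_mem' {x y} hx hy := by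
    constructor
    · show x 1 + y 1 = a * (x 0 + y 0)
      rw [hx.1, hy.1]; ring
    · show x 3 + y 3 = a * (x 2 + y 2)
      rw [hx.2, hy.2]; ring
  zero_mem' := by simp
  smul_mem' c {x} hx := by
    constructor
    · show c * x 1 = a * (c * x 0)
      rw [hx.1]; ring
    · show c * x 3 = a * (c * x 2)
      rw [hx.2]; ring

theorem mem_W0 {a : F} {x : Fin 4 → F} : x ∈ W0 a ↔ x 1 = a * x 0 ∧ x 3 = a * x 2 := Iff.rfl

section pair

variable (hF : Fintype.card F = q ^ 2)
include hF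

theorem ti_W0 {a : F} (ha : a ^ (q + 1) = -1) : IsTotallySingularFor (hermForm 4 F q) (W0 a) := by
  rintro u ⟨hu1, hu3⟩ v ⟨hv1, hv3⟩
  simp only [hermForm, Fin.sum_univ_four]
  rw [hu1, hu3, hv1, hv3, mul_pow, mul_pow]
  have : a * u 0 * (a ^ q * v 0 ^ q) = a ^ (q + 1) * (u 0 * v 0 ^ q) := by ring
  rw [this]
  have : a * u 2 * (a ^ q * v 2 ^ q) = a ^ (q + 1) * (u 2 * v 2 ^ q) := by ring
  rw [this, ha]
  ring

theorem exists_roots : ∃ a a' : F, a ≠ a' ∧ a ^ (q + 1) = -1 ∧ a' ^ (q + 1) = -1 := by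
  have hq := two_le hF
  have hn : (-1 : F) ^ q = -1 := by
    have := (frobHom hF).map_neg 1
    simpa using this
  have hcard := card_norm_fiber hF (-1 : F) hn (by simp)
  have : 1 < Nat.card {a : F // a ^ (q + 1) = -1} := by
    rw [hcard]
    omega
  obtain ⟨⟨a, ha⟩, ⟨a', ha'⟩, hne⟩ := (Finite.one_lt_card_iff_nontrivial.1 this).exists_pair_ne
  exact ⟨a, a', fun h => hne (Subtype.ext h), ha, ha'⟩

theorem pair_W0 {a a' : F} (hne : a ≠ a') (ha : a ^ (q + 1) = -1) (ha' : a' ^ (q + 1) = -1) :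
    IsPair q (W0 a) (W0 a') := by
  refine ⟨ti_W0 hF ha, ti_W0 hF ha', ?_⟩
  rw [eq_top_iff]
  intro x _
  have hd : a - a' ≠ 0 := sub_ne_zero.2 hne
  set s : F := (x 1 - a' * x 0) / (a - a') with hs
  set t : F := (x 3 - a' * x 2) / (a - a') with ht
  have hsa : a * s + a' * (x 0 - s) = x 1 := by
    rw [hs]
    field_simp
    ring
  have hta : a * t + a' * (x 2 - t) = x 3 := by
    rw [ht]
    field_simp
    ring
  refine Submodule.mem_sup.2 ⟨![s, a * s, t, a * t], ?_, ![x 0 - s, a' * (x 0 - s), x 2 - t, a' * (x 2 - t)], ?_, ?_⟩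
  · exact ⟨by simp, by simp⟩
  · exact ⟨by simp, by simp⟩
  · funext i
    fin_cases i
    · simp
    · simpa using hsa
    · simp
    · simpa using hta

/-- A totally isotropic plane is moved to `W0 a`. -/
theorem exists_su_ti {a a' : F} (hne : a ≠ a') (ha : a ^ (q + 1) = -1) (ha' : a' ^ (q + 1) = -1)
    (W : Submodule F (Fin 4 → F)) (hW : finrank F W = 2)
    (hti : ∀ u ∈ W, ∀ v ∈ W, hermForm 4 F q u v = 0) :
    ∃ x : ↥(SU 4 F q), ∀ w ∈ W, act x w ∈ W0 a := by
  classical
  have S := herm_space (F := F) 4 hF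
  have hD := pair_W0 hF hne ha ha'
  have hW0 : finrank F (W0 a) = 2 := by
    have := two_mul_finrank hF hD
    omega
  let b := finBasisOfFinrankEq F W hW
  let b' := finBasisOfFinrankEq F (W0 a) hW0
  obtain ⟨g, hg, hgu⟩ := exists_isometry hF (fun i => (b i : Fin 4 → F)) (fun i => (b' i : Fin 4 → F))
    (b.linearIndependent.map' W.subtype (Submodule.ker_subtype W))
    (b'.linearIndependent.map' (W0 a).subtype (Submodule.ker_subtype _))
    (fun i j => by
      rw [hti _ (b i).2 _ (b j).2, ti_W0 hF ha _ (b' i).2 _ (b' j).2])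
  -- `g` maps `W` into `W0 a`
  have hgW : ∀ w ∈ W, g w ∈ W0 a := by
    intro w hw
    have h2 : w = ∑ i, b.repr ⟨w, hw⟩ i • (b i : Fin 4 → F) := by
      have h3 := congrArg W.subtype (b.sum_repr ⟨w, hw⟩)
      rw [map_sum] at h3
      simp only [map_smul, Submodule.subtype_apply] at h3
      exact h3.symm
    rw [h2, map_sum]
    refine Submodule.sum_mem _ fun i _ => ?_
    rw [map_smul, hgu]
    exact Submodule.smul_mem _ _ (b' i).2
  have hmap : W.map (g : (Fin 4 → F) →ₗ[F] (Fin 4 → F)) = W0 a := by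
    apply Submodule.eq_of_le_of_finrank_eq
    · rintro _ ⟨w, hw, rfl⟩
      exact hgW w hw
    · rw [LinearEquiv.finrank_map_eq, hW, hW0]
  -- the complement
  let W' : Submodule F (Fin 4 → F) := (W0 a').comap (g : (Fin 4 → F) →ₗ[F] (Fin 4 → F))
  have hP : IsPair q W W' := by
    refine ⟨hti, ?_, ?_⟩
    · intro u hu v hv
      rw [← hg]
      exact ti_W0 hF ha' _ hu _ hv
    · rw [eq_top_iff]
      intro z _
      have hz : g z ∈ W0 a ⊔ W0 a' := by
        rw [hD.sup]
        exact Submodule.mem_top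
      obtain ⟨y, hy, y', hy', hyy⟩ := Submodule.mem_sup.1 hz
      rw [← hmap] at hy
      obtain ⟨w, hw, rfl⟩ := hy
      refine Submodule.mem_sup.2 ⟨w, hw, z - w, ?_, by abel⟩
      show g (z - w) ∈ W0 a'
      have : g (z - w) = y' := by
        rw [map_sub, ← hyy]
        show (g w + y') - g w = y'
        abel
      rw [this]
      exact hy'
  obtain ⟨g₁, ⟨hg₁, hg₁det⟩, hg₁W, -⟩ := exists_conj_pair hF hP hD (m := 2) (by norm_num) (by norm_num)
  have hdet : (g₁ : Matrix (Fin 4) (Fin 4) F).det = 1 := Units.ext_iff.1 hg₁det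
  refine ⟨⟨⟨(g₁ : Matrix (Fin 4) (Fin 4) F), hdet⟩, fun x y => hg₁ x y⟩, fun w hw => ?_⟩
  rw [← hg₁W]
  exact ⟨w, hw, rfl⟩

end pair

/-! ### The proper subgroups -/

section proper

/-- The three-cycle as an element of `SU₄`. -/
def cyc : Equiv.Perm (Fin 4) := Equiv.swap 0 1 * Equiv.swap 1 2

theorem cyc_sign : Equiv.Perm.sign cyc = 1 := by decide

/-- The three-cycle as an element of `SU₄`. -/
def rr (F : Type u) [Field F] [Fintype F] (q : ℕ) : ↥(SU 4 F q) :=
  ⟨⟨Equiv.Perm.permMatrix F cyc, by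
    rw [Matrix.det_permutation, cyc_sign]
    simp⟩, fun u v => by
    show hermForm 4 F q (Equiv.Perm.permMatrix F cyc *ᵥ u) (Equiv.Perm.permMatrix F cyc *ᵥ v) = _
    rw [Matrix.permMatrix_mulVec, Matrix.permMatrix_mulVec]
    unfold hermForm
    exact Equiv.sum_comp cyc (fun i => u i * v i ^ q)⟩

theorem act_rr (v : Fin 4 → F) : act (rr F q) v = ![v 1, v 2, v 0, v 3] := by
  show Equiv.Perm.permMatrix F cyc *ᵥ v = _
  rw [Matrix.permMatrix_mulVec]
  funext i
  fin_cases i
  · show v (cyc 0) = v 1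
    rw [show cyc 0 = 1 by decide]
  · show v (cyc 1) = v 2
    rw [show cyc 1 = 2 by decide]
  · show v (cyc 2) = v 0
    rw [show cyc 2 = 0 by decide]
  · show v (cyc 3) = v 3
    rw [show cyc 3 = 3 by decide]

end proper

/-! ### The covering -/

/-- `PSU₄(q)` has a normal `2`-covering, given the classification of isometries. -/
theorem psu4_of_E1 (hF : Fintype.card F = q ^ 2)
    (hE1 : ∀ T : (Fin 4 → F) →ₗ[F] (Fin 4 → F),
      (∀ x y, hermForm 4 F q (T x) (T y) = hermForm 4 F q x y) →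
      (∃ v, hermForm 4 F q v v ≠ 0 ∧ ∃ c : F, T v = c • v) ∨
      (∃ W : Submodule F (Fin 4 → F), finrank F W = 2 ∧ (∀ a ∈ W, ∀ b ∈ W, hermForm 4 F q a b = 0) ∧ W.map T ≤ W)) :
    HasCover (PSU 4 F q) := by
  classical
  obtain ⟨a, a', hne, ha, ha'⟩ := exists_roots hF
  have hcenter : ∀ W : Submodule F (Fin 4 → F), Subgroup.center ↥(SU 4 F q) ≤ stab W := by
    intro W z hz
    obtain ⟨c, hc⟩ := Cfsg.Agent.Lib.SUSpec.HermAlg.scalar_of_center hF (by norm_num) hz
    apply mem_stab_of_le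
    intro y hy
    have : act z y = c • y := hc y
    rw [this]
    exact W.smul_mem _ hy
  refine HasCover.quot (Subgroup.center ↥(SU 4 F q)) (stab (F ∙ e₀ F)) (stab (W0 a)) (hcenter _) (hcenter _) ?_ ?_ ?_
  · -- the line
    intro htop
    have h1 : rr F q ∈ stab (F ∙ e₀ F) := by rw [htop]; trivial
    have h2 : act (rr F q) (e₀ F) ∈ (F ∙ e₀ F) := (h1 (e₀ F)).1 (Submodule.mem_span_singleton_self _)
    obtain ⟨k, hk⟩ := Submodule.mem_span_singleton.1 h2
    rw [act_rr] at hk
    have := congrFun hk 2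
    simp [e₀] at this
  · -- the plane
    intro htop
    have ha0 : a ≠ 0 := by
      rintro rfl
      rw [zero_pow (by omega)] at ha
      have := neg_eq_zero.1 ha.symm
      exact one_ne_zero this
    have h1 : rr F q ∈ stab (W0 a) := by rw [htop]; trivial
    have h0 : (![1, a, 0, 0] : Fin 4 → F) ∈ W0 a := ⟨by simp, by simp⟩
    have h2 := (h1 _).1 h0
    rw [act_rr] at h2
    have h3 := h2.1
    simp at h3
    exact ha0 h3
  · intro g
    have hT : ∀ x y, hermForm 4 F q (Matrix.toLin' (g.1 : Matrix (Fin 4) (Fin 4) F) x)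
        (Matrix.toLin' (g.1 : Matrix (Fin 4) (Fin 4) F) y) = hermForm 4 F q x y := fun x y => g.2 x y
    rcases hE1 _ hT with ⟨v, hv, c, hc⟩ | ⟨W, hW, hti, hTW⟩
    · obtain ⟨x, b, hx⟩ := exists_su_line hF hv
      have hv0 : v ≠ 0 := by
        rintro rfl
        exact hv ((herm_space 4 hF).zero_left _)
      have hb0 : b ≠ 0 := by
        rintro rfl
        rw [zero_smul] at hx
        apply hv0
        have := act_inv_act x v
        rw [hx] at this
        rw [← this]
        exact Matrix.mulVec_zero _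
      refine ⟨x, Or.inl (conj_mem_stab (W := F ∙ v) ?_ ?_ ?_)⟩
      · intro w hw
        obtain ⟨k, rfl⟩ := Submodule.mem_span_singleton.1 hw
        rw [act_smul]
        have : act g v = c • v := hc
        rw [this]
        exact Submodule.smul_mem _ _ (Submodule.smul_mem _ _ (Submodule.mem_span_singleton_self _))
      · intro w hw
        obtain ⟨k, rfl⟩ := Submodule.mem_span_singleton.1 hw
        rw [act_smul, hx]
        exact Submodule.smul_mem _ _ (Submodule.smul_mem _ _ (Submodule.mem_span_singleton_self _))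
      · rw [finrank_span_singleton hv0, finrank_span_singleton e₀_ne]
    · obtain ⟨x, hx⟩ := exists_su_ti hF hne ha ha' W hW hti
      have hW0 : finrank F (W0 a) = 2 := by
        have := two_mul_finrank hF (pair_W0 hF hne ha ha')
        omega
      refine ⟨x, Or.inr (conj_mem_stab (W := W) ?_ hx (by rw [hW, hW0]))⟩
      intro w hw
      exact hTW ⟨w, hw, rfl⟩

/-- `PSU_4(q)` is a union of conjugates of proper subgroups of the two prescribed kinds. -/
theorem psu4 (q : ℕ) (hF : Fintype.card F = q ^ 2) : HasCover (PSU 4 F q) :=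
  psu4_of_E1 hF (fun T hT =>
    Cfsg.Agent.Lib.NCov.E1.E1_aniso_or_ti hF (herm_space 4 hF) (by simp) T hT)

end Cfsg.Agent.Lib.NCov.PSU4
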