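/-
`PSp_6(3^a)` is covered by the conjugates of the stabiliser of a non-degenerate plane and of the
normaliser of a self-adjoint cubic structure, given the dichotomy `I7`.
-/
import Mathlib
import Cfsg.Prelude.Def_Classical
import Cfsg.Agent.Lib.NCov.Defs
import Cfsg.Agent.Lib.NCov.I1
import Cfsg.Agent.Lib.NCov.Cubic
import Cfsg.Agent.Lib.Classical.SympSimple
import Cfsg.Agent.Lib.Witt.SympModel
import Cfsg.Agent.Lib.ElusQ.UniRank

set_option autoImplicit false
set_option linter.unusedSectionVars false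

namespace Cfsg.Agent.Lib.NCov.PSp6Core

open Matrix Module Cfsg.Agent.Lib.NCov.Defs
open Cfsg.Agent.Lib.Classical.SympForm Cfsg.Agent.Lib.Classical.SympSimple
open Cfsg.Agent.Lib.Classical.Alt

theorem inv_mem_of_finite {G : Type*} [Group G] [Finite G] {S : Set G}
    (hmul : ∀ {a b}, a ∈ S → b ∈ S → a * b ∈ S) (hone : (1 : G) ∈ S) {a : G} (ha : a ∈ S) :
    a⁻¹ ∈ S := by
  have hpow : ∀ n : ℕ, a ^ n ∈ S := by
    intro n
    induction n with
    | zero => simpa using hone
    | succ n ih => rw [pow_succ]; exact hmul ih ha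
  have h1 : a ^ (orderOf a - 1) * a = 1 := by
    rw [← pow_succ, Nat.sub_add_cancel (orderOf_pos a), pow_orderOf_eq_one]
  have h2 : a⁻¹ = a ^ (orderOf a - 1) := inv_eq_of_mul_eq_one_left h1
  rw [h2]
  exact hpow _

section groups

variable {F : Type*} [Field F] [Fintype F] {m : ℕ}

instance finiteSp : Finite (Matrix.symplecticGroup (Fin m) F) := by
  classical
  exact Subtype.finite

/-- The stabiliser of a subspace in `Sp`. -/
def stabSub (P : Submodule F (Fin m ⊕ Fin m → F)) : Subgroup (Matrix.symplecticGroup (Fin m) F) where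
  carrier := {A | ∀ x ∈ P, A.1 *ᵥ x ∈ P}
  mul_mem' := by
    intro a b ha hb x hx
    show (a * b).1 *ᵥ x ∈ P
    rw [Submonoid.coe_mul, ← Matrix.mulVec_mulVec]
    exact ha _ (hb x hx)
  one_mem' := by
    intro x hx
    show (1 : Matrix.symplecticGroup (Fin m) F).1 *ᵥ x ∈ P
    simpa using hx
  inv_mem' := by
    intro a ha
    refine inv_mem_of_finite (S := {A : Matrix.symplecticGroup (Fin m) F | ∀ x ∈ P, A.1 *ᵥ x ∈ P})
      ?_ ?_ ha
    · intro a b ha hb x hx
      show (a * b).1 *ᵥ x ∈ P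
      rw [Submonoid.coe_mul, ← Matrix.mulVec_mulVec]
      exact ha _ (hb x hx)
    · intro x hx
      show (1 : Matrix.symplecticGroup (Fin m) F).1 *ᵥ x ∈ P
      simpa using hx

theorem mem_stabSub {P : Submodule F (Fin m ⊕ Fin m → F)} {A : Matrix.symplecticGroup (Fin m) F} :
    A ∈ stabSub P ↔ ∀ x ∈ P, A.1 *ᵥ x ∈ P := Iff.rfl

theorem negOne_mulVec (x : Fin m ⊕ Fin m → F) : (negOne m F).1 *ᵥ x = -x := by
  simp [negOne, Matrix.neg_mulVec]

theorem center_le_stabSub (hm : 1 ≤ m) (P : Submodule F (Fin m ⊕ Fin m → F)) :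
    Subgroup.center (Matrix.symplecticGroup (Fin m) F) ≤ stabSub P := by
  intro A hA x hx
  rcases (mem_center_symplecticGroup_iff hm A).1 hA with rfl | rfl
  · simpa using hx
  · rw [negOne_mulVec]
    exact P.neg_mem hx

variable {E : Type*} [Field E] [Algebra F E]

/-- The normaliser of an `E`-structure in `Sp`. -/
def normSub (m0 : E →ₐ[F] Module.End F (Fin m ⊕ Fin m → F)) :
    Subgroup (Matrix.symplecticGroup (Fin m) F) where
  carrier := {A | ∀ a : E, ∃ b : E, ∀ v, A.1 *ᵥ (m0 a v) = m0 b (A.1 *ᵥ v)}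
  mul_mem' := by
    intro x y hx hy a
    obtain ⟨b, hb⟩ := hy a
    obtain ⟨c, hc⟩ := hx b
    refine ⟨c, fun v => ?_⟩
    rw [Submonoid.coe_mul, ← Matrix.mulVec_mulVec, ← Matrix.mulVec_mulVec, hb, hc]
  one_mem' := by
    intro a
    exact ⟨a, fun v => by simp⟩
  inv_mem' := by
    intro x hx
    refine inv_mem_of_finite
      (S := {A : Matrix.symplecticGroup (Fin m) F | ∀ a : E, ∃ b : E, ∀ v, A.1 *ᵥ (m0 a v) = m0 b (A.1 *ᵥ v)})
      ?_ ?_ hx
    · intro x y hx hy a
      obtain ⟨b, hb⟩ := hy a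
      obtain ⟨c, hc⟩ := hx b
      refine ⟨c, fun v => ?_⟩
      rw [Submonoid.coe_mul, ← Matrix.mulVec_mulVec, ← Matrix.mulVec_mulVec, hb, hc]
    · intro a
      exact ⟨a, fun v => by simp⟩

theorem mem_normSub {m0 : E →ₐ[F] Module.End F (Fin m ⊕ Fin m → F)}
    {A : Matrix.symplecticGroup (Fin m) F} :
    A ∈ normSub m0 ↔ ∀ a : E, ∃ b : E, ∀ v, A.1 *ᵥ (m0 a v) = m0 b (A.1 *ᵥ v) := Iff.rfl

theorem center_le_normSub (hm : 1 ≤ m) (m0 : E →ₐ[F] Module.End F (Fin m ⊕ Fin m → F)) :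
    Subgroup.center (Matrix.symplecticGroup (Fin m) F) ≤ normSub m0 := by
  intro A hA a
  rcases (mem_center_symplecticGroup_iff hm A).1 hA with rfl | rfl
  · exact ⟨a, fun v => by simp⟩
  · refine ⟨a, fun v => ?_⟩
    rw [negOne_mulVec, negOne_mulVec, map_neg]

/-- `m0 c v = 0` with `v ≠ 0` forces `c = 0`. -/
theorem struct_inj {V : Type*} [AddCommGroup V] [Module F V] (m0 : E →ₐ[F] Module.End F V) {c : E} {v : V}
    (hv : v ≠ 0) (h : m0 c v = 0) : c = 0 := by
  by_contra hc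
  apply hv
  have h1 : m0 c⁻¹ (m0 c v) = v := by
    rw [← Module.End.mul_apply, ← map_mul, inv_mul_cancel₀ hc, map_one]
    rfl
  rw [← h1, h, map_zero]

/-- The normaliser is proper. -/
theorem normSub_ne_top [Fintype E] (h2 : (2 : F) ≠ 0) (hE : finrank F E ≠ 1) (hm : 1 ≤ m)
    (m0 : E →ₐ[F] Module.End F (Fin m ⊕ Fin m → F))
    (hself : ∀ a x y, sympBilin m F (m0 a x) y = sympBilin m F x (m0 a y)) : normSub m0 ≠ ⊤ := by
  intro htop
  have hnotF : ∃ a : E, a ∉ (algebraMap F E).range := by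
    by_contra hcon
    push Not at hcon
    apply hE
    apply Subalgebra.bot_eq_top_iff_finrank_eq_one.1
    rw [eq_top_iff]
    intro a _
    obtain ⟨t, ht⟩ := hcon a
    rw [← ht]
    exact Subalgebra.algebraMap_mem _ _
  obtain ⟨a, ha⟩ := hnotF
  let i : Fin m := ⟨0, by omega⟩
  let v : Fin m ⊕ Fin m → F := Pi.single (Sum.inl i) 1
  have hv : v ≠ 0 := by
    intro h
    have := congrFun h (Sum.inl i)
    simp [v] at this
  let t : Matrix.symplecticGroup (Fin m) F := ⟨Cfsg.sympTransvection m v 1, sympTransvection_mem v 1⟩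
  have ht : t ∈ normSub m0 := by rw [htop]; trivial
  obtain ⟨b, hb⟩ := ht a
  have htx : ∀ x, t.1 *ᵥ x = x + sympForm m F x v • v := by
    intro x
    show Cfsg.sympTransvection m v 1 *ᵥ x = _
    rw [sympTransvection_mulVec, one_mul]
  -- `y = v`
  have hvv : sympForm m F v v = 0 := sympBilin_isAlt v
  have hav : sympForm m F (m0 a v) v = 0 :=
    Cfsg.Agent.Lib.NCov.I1.self_zero h2 sympBilin_isAlt m0 hself a v
  have h1 := hb v
  rw [htx, htx] at h1
  simp only [hav, hvv, zero_smul, add_zero] at h1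
  have hab : a = b := by
    have : m0 (a - b) v = 0 := by
      rw [map_sub, LinearMap.sub_apply, h1, sub_self]
    exact sub_eq_zero.1 (struct_inj m0 hv this)
  subst hab
  -- `y₁` with form one
  let y : Fin m ⊕ Fin m → F := Pi.single (Sum.inr i) 1
  have hy : sympForm m F y v = 1 := by
    rw [sympForm_single_inl]
    simp [y]
  have h3 := hb y
  rw [htx, htx, hy, one_smul, map_add] at h3
  have h4 : m0 a v = sympForm m F (m0 a y) v • v := by
    have := add_left_cancel h3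
    exact this.symm
  apply ha
  refine ⟨sympForm m F (m0 a y) v, ?_⟩
  have : m0 (a - algebraMap F E (sympForm m F (m0 a y) v)) v = 0 := by
    rw [map_sub, LinearMap.sub_apply, AlgHom.commutes, h4]
    simp
  exact (sub_eq_zero.1 (struct_inj m0 hv this)).symm

end groups

section plane

variable {F V : Type*} [Field F] [AddCommGroup V] [Module F V] [FiniteDimensional F V]

/-- A non-degenerate invariant proper subspace of a 6-dimensional space gives an invariant hyperbolic
plane. -/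
theorem exists_plane (h2 : (2 : F) ≠ 0) {B : LinearMap.BilinForm F V} (hB : B.IsAlt)
    (hN : B.Nondegenerate) (hdim : finrank F V = 6) (g : V ≃ₗ[F] V)
    (hg : ∀ x y, B (g x) (g y) = B x y) {U : Submodule F V} (hU : U ≠ ⊥) (hU' : U ≠ ⊤)
    (hinv : ∀ x ∈ U, g x ∈ U) (hnd : ∀ x ∈ U, (∀ y ∈ U, B x y = 0) → x = 0) :
    ∃ u v : V, B u v = 1 ∧ ∀ α β : F, ∃ α' β' : F, g (α • u + β • v) = α' • u + β' • v := by
  have hrefl : B.IsRefl := hB.isRefl
  -- even dimension
  have heven : Even (finrank F U) := by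
    refine Cfsg.Agent.Lib.ElusQ.UniRank.even_of_alt h2 (B.restrict U) (fun u => hB u) ?_
    intro u hu
    apply Subtype.ext
    exact hnd u u.2 (fun y hy => hu ⟨y, hy⟩)
  have hpos : finrank F U ≠ 0 := by
    intro h
    exact hU (Submodule.finrank_eq_zero.1 h)
  have hlt : finrank F U < 6 := by
    rw [← hdim]
    exact Submodule.finrank_lt hU'
  -- an invariant non-degenerate plane
  obtain ⟨W, hW2, hWinv, hWnd⟩ : ∃ W : Submodule F V, finrank F W = 2 ∧ (∀ x ∈ W, g x ∈ W) ∧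
      (∀ x ∈ W, (∀ y ∈ W, B x y = 0) → x = 0) := by
    obtain ⟨k, hk⟩ := heven
    have hk2 : k = 1 ∨ k = 2 := by omega
    rcases hk2 with rfl | rfl
    · exact ⟨U, by omega, hinv, hnd⟩
    · refine ⟨B.orthogonal U, ?_, ?_, ?_⟩
      · rw [LinearMap.BilinForm.finrank_orthogonal hN]
        omega
      · intro x hx
        rw [LinearMap.BilinForm.mem_orthogonal_iff]
        intro y hy
        -- `y = g y'` with `y' ∈ U`
        have hmap : U.map (g : V →ₗ[F] V) = U := by
          apply Submodule.eq_of_le_of_finrank_eq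
          · rintro _ ⟨z, hz, rfl⟩
            exact hinv z hz
          · exact LinearEquiv.finrank_map_eq g U
        have hy' : y ∈ U.map (g : V →ₗ[F] V) := by rw [hmap]; exact hy
        obtain ⟨y', hy'U, rfl⟩ := hy'
        show B (g y') (g x) = 0
        rw [hg]
        exact (LinearMap.BilinForm.mem_orthogonal_iff.1 hx) y' hy'U
      · intro x hx hx2
        have hxU : x ∈ U := by
          have : x ∈ B.orthogonal (B.orthogonal U) := by
            rw [LinearMap.BilinForm.mem_orthogonal_iff]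
            intro y hy
            exact hrefl _ _ (hx2 y hy)
          rwa [LinearMap.BilinForm.orthogonal_orthogonal hN hrefl] at this
        apply hnd x hxU
        intro y hy
        exact hrefl _ _ ((LinearMap.BilinForm.mem_orthogonal_iff.1 hx) y hy)
  -- a hyperbolic pair in `W`
  have hW0 : W ≠ ⊥ := by
    intro h
    rw [h, finrank_bot] at hW2
    omega
  obtain ⟨u, huW, hu⟩ := Submodule.exists_mem_ne_zero_of_ne_bot hW0
  have hv : ∃ v ∈ W, B u v ≠ 0 := by
    by_contra hcon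
    push Not at hcon
    exact hu (hWnd u huW hcon)
  obtain ⟨v₀, hv₀W, hv₀⟩ := hv
  let v := (B u v₀)⁻¹ • v₀
  have hvW : v ∈ W := W.smul_mem _ hv₀W
  have huv : B u v = 1 := by
    show B u ((B u v₀)⁻¹ • v₀) = 1
    rw [map_smul, smul_eq_mul, inv_mul_cancel₀ hv₀]
  have hli : LinearIndependent F ![u, v] := by
    rw [LinearIndependent.pair_iff]
    intro s t hst
    have h3 : B u (s • u + t • v) = 0 := by rw [hst, map_zero]
    rw [map_add, map_smul, map_smul, hB u, huv] at h3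
    simp at h3
    subst h3
    simp [hu] at hst
    exact ⟨hst, rfl⟩
  have hspan : Submodule.span F {u, v} = W := by
    apply Submodule.eq_of_le_of_finrank_eq
    · rw [Submodule.span_le]
      rintro x (rfl | rfl)
      · exact huW
      · exact hvW
    · have := finrank_span_eq_card hli
      have hr : Set.range ![u, v] = {u, v} := by
        ext x
        simp only [Matrix.range_cons, Matrix.range_empty, Set.union_empty, Set.mem_union,
          Set.mem_singleton_iff, Set.mem_insert_iff]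
      rw [hr] at this
      rw [hW2]
      simpa using this
  refine ⟨u, v, huv, fun α β => ?_⟩
  have hmem : g (α • u + β • v) ∈ Submodule.span F {u, v} := by
    rw [hspan]
    exact hWinv _ (W.add_mem (W.smul_mem _ huW) (W.smul_mem _ hvW))
  obtain ⟨a, b, hab⟩ := Submodule.mem_span_pair.1 hmem
  exact ⟨a, b, hab.symm⟩

end plane

section assembly

variable {F E : Type*} [Field F] [Fintype F] [Field E] [Fintype E] [Algebra F E]

/-- The trace form on `E × E`. -/
noncomputable def trForm (F E : Type*) [Field F] [Field E] [Algebra F E] : LinearMap.BilinForm F (E × E) :=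
  LinearMap.mk₂ F (fun p q => Algebra.trace F E (p.1 * q.2) - Algebra.trace F E (p.2 * q.1))
    (fun a b c => by
      simp only [Prod.fst_add, Prod.snd_add, add_mul, map_add]
      ring)
    (fun c a b => by
      simp only [Prod.smul_fst, Prod.smul_snd, smul_mul_assoc, map_smul, smul_eq_mul]
      ring)
    (fun a b c => by
      simp only [Prod.fst_add, Prod.snd_add, mul_add, map_add]
      ring)
    (fun c a b => by
      simp only [Prod.smul_fst, Prod.smul_snd, mul_smul_comm, map_smul, smul_eq_mul]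
      ring)

theorem trForm_apply (p q : E × E) :
    trForm F E p q = Algebra.trace F E (p.1 * q.2) - Algebra.trace F E (p.2 * q.1) := rfl

theorem trForm_isAlt : (trForm F E).IsAlt := by
  intro p
  rw [trForm_apply, mul_comm, sub_self]

theorem trForm_nondeg : (trForm F E).Nondegenerate := by
  have hrefl : (trForm F E).IsRefl := trForm_isAlt.isRefl
  refine (LinearMap.IsRefl.nondegenerate_iff_separatingLeft hrefl).2 ?_
  intro p hp
  ext
  · apply Cfsg.Agent.Lib.NCov.Cubic.tr_nondeg (F := F)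
    intro y
    have := hp (0, y)
    rw [trForm_apply] at this
    simpa using this
  · apply Cfsg.Agent.Lib.NCov.Cubic.tr_nondeg (F := F)
    intro y
    have := hp (y, 0)
    rw [trForm_apply] at this
    simpa using this

/-- The standard self-adjoint `E`-structure on `F^6`. -/
theorem exists_m0 (hE3 : finrank F E = 3) :
    ∃ m0 : E →ₐ[F] Module.End F (Fin 3 ⊕ Fin 3 → F),
      ∀ a x y, sympBilin 3 F (m0 a x) y = sympBilin 3 F x (m0 a y) := by
  have hfr : finrank F (E × E) = 2 * 3 := by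
    rw [Module.finrank_prod, hE3]
  obtain ⟨ψ, hψ⟩ := Cfsg.Agent.Lib.Witt.SympModel.exists_model (trForm F E) trForm_isAlt trForm_nondeg 3 hfr
  refine ⟨Cfsg.Agent.Lib.NCov.Cubic.mOf ψ.symm, ?_⟩
  apply Cfsg.Agent.Lib.NCov.Cubic.mOf_selfadj
  intro p q
  have := hψ (ψ.symm p) (ψ.symm q)
  rw [ψ.apply_symm_apply, ψ.apply_symm_apply, trForm_apply] at this
  rw [sympBilin_apply, ← this]

/-- An isometry as an element of `Sp`. -/
noncomputable def spElt {m : ℕ} (ψ : (Fin m ⊕ Fin m → F) ≃ₗ[F] (Fin m ⊕ Fin m → F))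
    (hψ : ∀ x y, sympBilin m F (ψ x) (ψ y) = sympBilin m F x y) : Matrix.symplecticGroup (Fin m) F :=
  spEquiv.symm ⟨ψ, hψ⟩

theorem spElt_mulVec {m : ℕ} (ψ : (Fin m ⊕ Fin m → F) ≃ₗ[F] (Fin m ⊕ Fin m → F))
    (hψ : ∀ x y, sympBilin m F (ψ x) (ψ y) = sympBilin m F x y) (x : Fin m ⊕ Fin m → F) :
    (spElt ψ hψ).1 *ᵥ x = ψ x := spEquiv_symm_mulVec _ x

theorem mul_inv_mulVec {m : ℕ} (A : Matrix.symplecticGroup (Fin m) F) (x : Fin m ⊕ Fin m → F) :
    A.1 *ᵥ ((A⁻¹).1 *ᵥ x) = x := by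
  rw [Matrix.mulVec_mulVec, ← Submonoid.coe_mul, mul_inv_cancel]
  simp

theorem inv_mul_mulVec {m : ℕ} (A : Matrix.symplecticGroup (Fin m) F) (x : Fin m ⊕ Fin m → F) :
    (A⁻¹).1 *ᵥ (A.1 *ᵥ x) = x := by
  rw [Matrix.mulVec_mulVec, ← Submonoid.coe_mul, inv_mul_cancel]
  simp

theorem conj_mulVec {m : ℕ} (A g : Matrix.symplecticGroup (Fin m) F) (x : Fin m ⊕ Fin m → F) :
    (A * g * A⁻¹).1 *ᵥ x = A.1 *ᵥ (g.1 *ᵥ ((A⁻¹).1 *ᵥ x)) := by
  rw [Submonoid.coe_mul, Submonoid.coe_mul, ← Matrix.mulVec_mulVec, ← Matrix.mulVec_mulVec]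

/-- The plane of the first coordinates. -/
noncomputable def P0 (F : Type*) [Field F] : Submodule F (Fin 3 ⊕ Fin 3 → F) :=
  Submodule.span F {Pi.single (Sum.inr 0) 1, Pi.single (Sum.inl 0) 1}

theorem P0_coord {x : Fin 3 ⊕ Fin 3 → F} (hx : x ∈ P0 F) : x (Sum.inl 1) = 0 := by
  obtain ⟨a, b, rfl⟩ := Submodule.mem_span_pair.1 hx
  simp

theorem stabSub_ne_top : stabSub (P0 F) ≠ ⊤ := by
  intro htop
  let v : Fin 3 ⊕ Fin 3 → F := Pi.single (Sum.inl 0) 1 + Pi.single (Sum.inl 1) 1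
  let t : Matrix.symplecticGroup (Fin 3) F := ⟨Cfsg.sympTransvection 3 v 1, sympTransvection_mem v 1⟩
  have ht : t ∈ stabSub (P0 F) := by rw [htop]; trivial
  let y : Fin 3 ⊕ Fin 3 → F := Pi.single (Sum.inr 0) 1
  have hy : y ∈ P0 F := Submodule.subset_span (by simp [y])
  have h1 := P0_coord (ht y hy)
  have h3 : t.1 *ᵥ y = y + sympForm 3 F y v • v := by
    show Cfsg.sympTransvection 3 v 1 *ᵥ y = _
    rw [sympTransvection_mulVec, one_mul]
  have h4 : sympForm 3 F y v = 1 := by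
    rw [sympForm_eq_sum, Fin.sum_univ_three]
    simp [y, v]
  rw [h3, h4] at h1
  simp [y, v] at h1

/-- The cover, given the dichotomy of `I7` on `F^6`. -/
theorem psp6_core (h3 : (3 : F) = 0) (hE3 : finrank F E = 3)
    (hI7 : ∀ g : (Fin 3 ⊕ Fin 3 → F) ≃ₗ[F] (Fin 3 ⊕ Fin 3 → F),
      (∀ x y, sympBilin 3 F (g x) (g y) = sympBilin 3 F x y) →
      (∃ U : Submodule F (Fin 3 ⊕ Fin 3 → F), U ≠ ⊥ ∧ U ≠ ⊤ ∧ (∀ x ∈ U, g x ∈ U) ∧
        (∀ x ∈ U, (∀ y ∈ U, sympBilin 3 F x y = 0) → x = 0)) ∨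
      (∃ m : E →ₐ[F] Module.End F (Fin 3 ⊕ Fin 3 → F),
        (∀ a x y, sympBilin 3 F (m a x) y = sympBilin 3 F x (m a y)) ∧
        Normalizes (g : (Fin 3 ⊕ Fin 3 → F) →ₗ[F] (Fin 3 ⊕ Fin 3 → F)) m)) :
    HasCover (Cfsg.PSp 3 F) := by
  have h2 : (2 : F) ≠ 0 := by
    intro h
    have : (1 : F) = 3 - 2 := by norm_num
    rw [h3, h, sub_zero] at this
    exact one_ne_zero this
  obtain ⟨m0, hm0⟩ := exists_m0 (F := F) (E := E) hE3
  have hdim : finrank F (Fin 3 ⊕ Fin 3 → F) = 6 := by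
    rw [Module.finrank_fintype_fun_eq_card]
    simp
  refine HasCover.quot _ (stabSub (P0 F)) (normSub m0) (center_le_stabSub (by omega) _)
    (center_le_normSub (by omega) _) stabSub_ne_top
    (normSub_ne_top h2 (by omega) (by omega) m0 hm0) ?_
  intro g
  rcases hI7 (spLin g) (fun x y => (mem_symplecticGroup_iff _).1 g.2 x y) with
    ⟨U, hU, hU', hinv, hnd⟩ | ⟨m, hm, hnorm⟩
  · obtain ⟨u, v, huv, huvinv⟩ := exists_plane h2 (sympBilin_isAlt (m := 3) (F := F))
      sympBilin_nondegenerate hdim (spLin g) (fun x y => (mem_symplecticGroup_iff _).1 g.2 x y)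
      hU hU' hinv hnd
    have h₀ : sympForm 3 F (Pi.single (Sum.inr 0) 1) (Pi.single (Sum.inl 0) 1) = 1 := by
      rw [sympForm_single_inl]
      simp
    obtain ⟨A, -, hAu, hAv⟩ := exists_closure_hyperbolic _ _ u v h₀ huv
    refine ⟨A⁻¹, Or.inl ?_⟩
    intro y hy
    rw [conj_mulVec, inv_inv]
    obtain ⟨a, b, rfl⟩ := Submodule.mem_span_pair.1 hy
    rw [Matrix.mulVec_add, Matrix.mulVec_smul, Matrix.mulVec_smul, hAu, hAv]
    obtain ⟨a', b', hab⟩ := huvinv a b
    have hg' : g.1 *ᵥ (a • u + b • v) = a' • u + b' • v := hab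
    rw [hg', Matrix.mulVec_add, Matrix.mulVec_smul, Matrix.mulVec_smul, ← hAu, ← hAv,
      inv_mul_mulVec, inv_mul_mulVec]
    exact Submodule.mem_span_pair.2 ⟨a', b', rfl⟩
  · obtain ⟨x, hx, hxm⟩ := Cfsg.Agent.Lib.NCov.I1.I1_cubicStr_conj h2 hE3
      (sympBilin_isAlt (m := 3) (F := F)) sympBilin_nondegenerate hdim m m0 hm hm0
    let X := spElt x hx
    have hX : ∀ v, X.1 *ᵥ v = x v := spElt_mulVec x hx
    refine ⟨X, Or.inr ?_⟩
    intro a
    obtain ⟨b, hb⟩ := hnorm a
    refine ⟨b, fun v => ?_⟩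
    -- write `v = x w`
    obtain ⟨w, rfl⟩ := x.surjective v
    have hXinv : ∀ z, (X⁻¹).1 *ᵥ (x z) = z := by
      intro z
      rw [← hX, inv_mul_mulVec]
    rw [conj_mulVec, conj_mulVec, ← hxm, hXinv, hXinv]
    have hb' : g.1 *ᵥ (m a w) = m b (g.1 *ᵥ w) := hb w
    rw [hb', hX, hX, hxm]

end assembly

end Cfsg.Agent.Lib.NCov.PSp6Core
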