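/-
`PSp_6(3^a)` is covered by the conjugates of two proper subgroups.
-/
import Mathlib
import Cfsg.Agent.Lib.NCov.PSp6Core
import Cfsg.Agent.Lib.NCov.I7

set_option autoImplicit false
set_option linter.unusedSectionVars false
set_option linter.style.haveILetI false

namespace Cfsg.Agent.Lib.NCov.PSp6

open Module Cfsg.Agent.Lib.NCov.Defs Cfsg.Agent.Lib.Classical.SympForm

variable {F : Type*} [Field F] [Fintype F]

/-- Main theorem. -/
theorem psp6 (a : ℕ) (ha : 1 ≤ a) (hF : Fintype.card F = 3 ^ a) : HasCover (Cfsg.PSp 3 F) := by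
  have h3 : (3 : F) = 0 := by
    have h1 : ((Fintype.card F : ℕ) : F) = 0 := Nat.cast_card_eq_zero F
    rw [hF] at h1
    push_cast at h1
    exact pow_eq_zero_iff (by omega) |>.1 h1
  haveI : Fact (Nat.Prime 3) := ⟨by norm_num⟩
  haveI : CharP F 3 := by
    rw [CharP.charP_iff_prime_eq_zero (by norm_num)]
    exact_mod_cast h3
  haveI : NeZero 3 := ⟨by norm_num⟩
  let E := FiniteField.Extension F 3 3
  haveI : Fintype E := Fintype.ofFinite E
  have hE3 : finrank F E = 3 := FiniteField.finrank_extension F 3 3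
  refine Cfsg.Agent.Lib.NCov.PSp6Core.psp6_core (E := E) h3 hE3 ?_
  intro g hg
  exact Cfsg.Agent.Lib.NCov.I7.I7_cover h3 hE3 sympBilin_isAlt sympBilin_nondegenerate
    (by rw [Module.finrank_fintype_fun_eq_card]; simp) g hg

end Cfsg.Agent.Lib.NCov.PSp6
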