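/-
`PSp_{2m}(2^a)` is covered by the conjugates of `O⁺` and `O⁻`.
-/
import Mathlib
import Cfsg.Prelude.Def_Classical
import Cfsg.Agent.Lib.NCov.Defs
import Cfsg.Agent.Lib.NCov.B1
import Cfsg.Agent.Lib.NCov.B2
import Cfsg.Agent.Lib.Classical.SympSimple

set_option autoImplicit false
set_option linter.unusedSectionVars false

namespace Cfsg.Agent.Lib.NCov.PSpEven

open Matrix Module Cfsg.Agent.Lib.NCov.Defs Cfsg.Agent.Lib.NCov.B1 Cfsg.Agent.Lib.NCov.B2
open Cfsg.Agent.Lib.Classical.SympForm Cfsg.Agent.Lib.Classical.SympSimple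
open Cfsg.Agent.Lib.Classical.Alt

variable {F : Type*} [Field F] [Fintype F] {m : ℕ}

/-- The isometry group of a function, inside `Sp`. -/
def stab (Q : (Fin m ⊕ Fin m → F) → F) : Subgroup (Matrix.symplecticGroup (Fin m) F) where
  carrier := {A | ∀ x, Q ((A : Matrix _ _ F) *ᵥ x) = Q x}
  mul_mem' := by
    intro a b ha hb x
    show Q (((a * b : Matrix.symplecticGroup (Fin m) F) : Matrix _ _ F) *ᵥ x) = Q x
    rw [Submonoid.coe_mul, ← Matrix.mulVec_mulVec, ha, hb]
  one_mem' := by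
    intro x
    show Q (((1 : Matrix.symplecticGroup (Fin m) F) : Matrix _ _ F) *ᵥ x) = Q x
    simp
  inv_mem' := by
    intro a ha x
    have h := ha (((a⁻¹ : Matrix.symplecticGroup (Fin m) F) : Matrix _ _ F) *ᵥ x)
    rw [Matrix.mulVec_mulVec, ← Submonoid.coe_mul, mul_inv_cancel] at h
    simpa using h.symm

theorem mem_stab {Q : (Fin m ⊕ Fin m → F) → F} {A : Matrix.symplecticGroup (Fin m) F} :
    A ∈ stab Q ↔ ∀ x, Q ((A : Matrix _ _ F) *ᵥ x) = Q x := Iff.rfl

theorem two_eq_zero_of_not_odd (h : ¬ Odd (Fintype.card F)) : (2 : F) = 0 := by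
  have h1 : Fintype.card F % 2 = 0 := by
    rcases Nat.even_or_odd (Fintype.card F) with h3 | h3
    · exact Nat.even_iff.1 h3
    · exact absurd h3 h
  have h3 : ringChar F = 2 := FiniteField.even_card_iff_char_two.2 h1
  have := ringChar.Nat.cast_ringChar (R := F)
  rw [h3] at this
  exact_mod_cast this

theorem exists_c₀ (h2 : (2 : F) = 0) : ∃ c₀ : F, ∀ t : F, t ^ 2 + t ≠ c₀ := by
  by_contra hcon
  push Not at hcon
  have hsurj : Function.Surjective (fun t : F => t ^ 2 + t) := hcon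
  have hinj := Finite.injective_iff_surjective.2 hsurj
  have h1 : (fun t : F => t ^ 2 + t) 0 = (fun t : F => t ^ 2 + t) 1 := by
    simp [add_self' h2]
  have := hinj h1
  exact zero_ne_one this

theorem isPol_Qplus (h2 : (2 : F) = 0) : IsPol (sympBilin m F) (Qplus m F) := by
  refine ⟨?_, ?_⟩
  · intro x y
    rw [sympBilin_apply, sympForm_eq_sum]
    unfold Qplus
    rw [← Finset.sum_add_distrib, ← Finset.sum_add_distrib]
    refine Finset.sum_congr rfl fun i _ => ?_
    simp only [Pi.add_apply]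
    rw [sub_eq_add_neg, neg_eq h2]
    ring
  · intro c x
    unfold Qplus
    rw [Finset.mul_sum]
    refine Finset.sum_congr rfl fun i _ => ?_
    simp only [Pi.smul_apply, smul_eq_mul]
    ring

theorem isPol_Qminus (h2 : (2 : F) = 0) (i₀ : Fin m) (c₀ : F) :
    IsPol (sympBilin m F) (Qminus m i₀ c₀) := by
  have hP := isPol_Qplus (m := m) (F := F) h2
  refine ⟨?_, ?_⟩
  · intro x y
    unfold Qminus
    rw [hP.add]
    simp only [Pi.add_apply]
    rw [add_sq' h2, add_sq' h2]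
    ring
  · intro c x
    unfold Qminus
    rw [hP.smul]
    simp only [Pi.smul_apply, smul_eq_mul]
    ring

theorem center_le_stab {Q : (Fin m ⊕ Fin m → F) → F} (hm : 1 ≤ m) {B : LinearMap.BilinForm F _}
    (hQ : IsPol B Q) : Subgroup.center (Matrix.symplecticGroup (Fin m) F) ≤ stab Q := by
  intro A hA
  rw [mem_stab]
  intro x
  rcases (mem_center_symplecticGroup_iff hm A).1 hA with rfl | rfl
  · simp
  · have h := hQ.smul (-1) x
    have h3 : ((negOne m F : Matrix.symplecticGroup (Fin m) F) : Matrix _ _ F) *ᵥ x = (-1 : F) • x := by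
      simp [negOne, Matrix.neg_mulVec]
    rw [h3, h]
    simp

/-- Transvection argument: a transvection along a singular vector does not preserve `Q`. -/
theorem stab_ne_top {Q : (Fin m ⊕ Fin m → F) → F}
    (hQ : IsPol (sympBilin m F) Q) (i : Fin m)
    (hv : Q (Pi.single (Sum.inl i) 1) = 0) : stab Q ≠ ⊤ := by
  intro htop
  let v : Fin m ⊕ Fin m → F := Pi.single (Sum.inl i) 1
  let t : Matrix.symplecticGroup (Fin m) F := ⟨Cfsg.sympTransvection m v 1, sympTransvection_mem v 1⟩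
  have ht : t ∈ stab Q := by rw [htop]; trivial
  let x : Fin m ⊕ Fin m → F := Pi.single (Sum.inr i) 1
  have hx : sympForm m F x v = 1 := by
    rw [sympForm_single_inl]
    simp [x]
  have h3 := ht x
  have h4 : (t : Matrix _ _ F) *ᵥ x = x + v := by
    show Cfsg.sympTransvection m v 1 *ᵥ x = x + v
    rw [sympTransvection_mulVec, hx]
    simp
  rw [h4, hQ.add, sympBilin_apply, hx, hv] at h3
  have h5 : (1 : F) = 0 := by linear_combination h3
  exact one_ne_zero h5

theorem Qplus_single (i : Fin m) : Qplus m F (Pi.single (Sum.inl i) 1) = 0 := by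
  unfold Qplus
  refine Finset.sum_eq_zero fun j _ => ?_
  simp

theorem Qminus_single {i i₀ : Fin m} (h : i ≠ i₀) (c₀ : F) :
    Qminus m i₀ c₀ (Pi.single (Sum.inl i) 1) = 0 := by
  unfold Qminus
  rw [Qplus_single]
  simp [h.symm]

/-- Main theorem. -/
theorem psp_even (m : ℕ) (hm : 2 ≤ m) (h2 : ¬ Odd (Fintype.card F)) : HasCover (Cfsg.PSp m F) := by
  have h2' : (2 : F) = 0 := two_eq_zero_of_not_odd h2
  obtain ⟨c₀, hc₀⟩ := exists_c₀ h2'
  let i₀ : Fin m := ⟨0, by omega⟩
  let i₁ : Fin m := ⟨1, by omega⟩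
  have hi : i₁ ≠ i₀ := by simp [i₀, i₁, Fin.ext_iff]
  have hP := isPol_Qplus (m := m) (F := F) h2'
  have hM := isPol_Qminus (m := m) h2' i₀ c₀
  refine HasCover.quot _ (stab (Qplus m F)) (stab (Qminus m i₀ c₀))
    (center_le_stab (by omega) hP) (center_le_stab (by omega) hM)
    (stab_ne_top hP i₀ (Qplus_single i₀)) (stab_ne_top hM i₁ (Qminus_single hi c₀)) ?_
  intro g
  have hdim : finrank F (Fin m ⊕ Fin m → F) = 2 * m := by
    rw [Module.finrank_fintype_fun_eq_card]
    simp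
    ring
  obtain ⟨Q', hQ', hfix⟩ := B1_dye h2' (sympBilin_isAlt (m := m) (F := F)) sympBilin_nondegenerate
    (spLin g) (fun x y => (mem_symplecticGroup_iff _).1 g.2 x y) hP
  obtain ⟨ψ, hψ, hcases⟩ := B2_pol_normal h2' (sympBilin_isAlt (m := m) (F := F))
    sympBilin_nondegenerate m hdim i₀ c₀ hc₀ hQ'
  have hψmem : ψ ∈ isomGroup (sympBilin m F) := by
    intro x y
    rw [hψ, sympBilin_apply]
  let X : Matrix.symplecticGroup (Fin m) F := spEquiv.symm ⟨ψ, hψmem⟩
  have hX : ∀ v : Fin m ⊕ Fin m → F, X.1 *ᵥ v = ψ v := fun v => spEquiv_symm_mulVec _ v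
  have hXinv : ∀ v : Fin m ⊕ Fin m → F, X.1 *ᵥ ((X⁻¹).1 *ᵥ v) = v := by
    intro v
    rw [Matrix.mulVec_mulVec, ← Submonoid.coe_mul, mul_inv_cancel]
    simp
  have hgfix : ∀ v : Fin m ⊕ Fin m → F, Q' (g.1 *ᵥ v) = Q' v := hfix
  have key : ∀ v : Fin m ⊕ Fin m → F, ψ ((X⁻¹ * g * X⁻¹⁻¹).1 *ᵥ v) = g.1 *ᵥ (ψ v) := by
    intro v
    rw [← hX, inv_inv, Submonoid.coe_mul, Submonoid.coe_mul, ← Matrix.mulVec_mulVec,
      ← Matrix.mulVec_mulVec, hXinv, hX]
  refine ⟨X⁻¹, ?_⟩
  rcases hcases with hplus | hminus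
  · left
    intro v
    rw [← hplus, key, hgfix, hplus]
  · right
    intro v
    rw [← hminus, key, hgfix, hminus]

end Cfsg.Agent.Lib.NCov.PSpEven
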